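import Mathlib

/-!
# Context for the analysis of `O₂` under an action of `A₅`
-/

set_option autoImplicit false
set_option linter.unusedSectionVars false
set_option linter.unusedVariables false

namespace Cfsg.Agent.Lib.Sect4.A5Base

open Subgroup

universe u v

/-- Counting fixed points on an invariant set. -/
theorem card_mod {α : Type*} [Finite α] (p : ℕ) [hp : Fact p.Prime] (S : Set α) (f : α → α)
    (hS : ∀ a ∈ S, f a ∈ S) (hf : ∀ a ∈ S, f^[p] a = a) :
    S.ncard ≡ {a | a ∈ S ∧ f a = a}.ncard [MOD p] := by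
  classical
  letI : Fintype α := Fintype.ofFinite α
  let F : Function.End S := fun a => ⟨f a, hS a a.2⟩
  have hit : ∀ (n : ℕ) (a : S), ((F ^ n) a : α) = f^[n] a := by
    intro n
    induction n with
    | zero => intro a; rfl
    | succ n ih =>
      intro a
      rw [pow_succ', Function.iterate_succ_apply']
      show f (((F ^ n) a : S) : α) = _
      rw [ih]
  have hF : F ^ p ^ 1 = 1 := by
    funext a
    apply Subtype.ext
    rw [pow_one, hit]
    exact hf a a.2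
  have h := Equiv.Perm.card_fixedPoints_modEq hF
  have e1 : S.ncard = Fintype.card S := by
    rw [← Nat.card_coe_set_eq, Nat.card_eq_fintype_card]
  have e2 : {a | a ∈ S ∧ f a = a}.ncard = Fintype.card (Function.fixedPoints F) := by
    rw [← Nat.card_coe_set_eq, Nat.card_eq_fintype_card]
    refine Fintype.card_congr ?_
    exact
      { toFun := fun a => ⟨⟨a.1, a.2.1⟩, Subtype.ext a.2.2⟩
        invFun := fun a => ⟨a.1.1, a.1.2, congrArg Subtype.val a.2⟩
        left_inv := fun a => rfl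
        right_inv := fun a => rfl }
  rw [e1, e2]
  exact h

/-- An automorphism of order dividing five on a small `2`-group is trivial or fixed-point-free. -/
theorem dich5 {M : Type*} [Group M] [Finite M] (A : M →* M) (W : Subgroup M) (hW2 : IsPGroup 2 W)
    (h16 : Nat.card W ≤ 16) (hAW : ∀ w ∈ W, A w ∈ W)
    (hA5 : ∀ w ∈ W, A (A (A (A (A w)))) = w) :
    (∀ w ∈ W, A w = w) ∨ (Nat.card W = 16 ∧ ∀ w ∈ W, A w = w → w = 1) := by
  classical
  haveI : Fact (Nat.Prime 5) := ⟨by norm_num⟩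
  let F : Subgroup M := W ⊓ A.eqLocus (MonoidHom.id M)
  have hmod := card_mod 5 (W : Set M) A hAW (by intro a ha; exact hA5 a ha)
  have hset : {a | a ∈ (W : Set M) ∧ A a = a} = (F : Set M) := rfl
  rw [hset, ← Nat.card_coe_set_eq, ← Nat.card_coe_set_eq] at hmod
  have hFW : F ≤ W := inf_le_left
  have hFp : IsPGroup 2 F := hW2.to_le hFW
  obtain ⟨m, hm⟩ := IsPGroup.iff_card.1 hW2
  obtain ⟨k, hk⟩ := IsPGroup.iff_card.1 hFp
  have hdvd : Nat.card F ∣ Nat.card W := Subgroup.card_dvd_of_le hFW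
  have hm4 : m ≤ 4 := by
    by_contra hcon
    have h5 : 2 ^ 5 ≤ 2 ^ m := Nat.pow_le_pow_right (by norm_num) (by omega)
    rw [hm] at h16
    omega
  rw [hm, hk] at hdvd
  have hkm : k ≤ m := (Nat.pow_dvd_pow_iff_le_right (by norm_num)).1 hdvd
  by_cases hkm' : k = m
  · left
    have hFW' : F = W := Subgroup.eq_of_le_of_card_ge hFW (by rw [hm, hk, hkm'])
    intro w hw
    rw [← hFW'] at hw
    exact hw.2
  · right
    have hmod' : 2 ^ m ≡ 2 ^ k [MOD 5] := by
      have e1 : Nat.card ↥(W : Set M) = 2 ^ m := hm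
      have e2 : Nat.card ↥(F : Set M) = 2 ^ k := hk
      rw [e1, e2] at hmod
      exact hmod
    have hlt : k < m := by omega
    have hmk : m = 4 ∧ k = 0 := by
      clear hm hk hdvd h16 hmod hkm'
      interval_cases m <;> interval_cases k <;>
        first
        | exact ⟨rfl, rfl⟩
        | (exfalso; revert hmod'; decide)
    obtain ⟨hm', hk'⟩ := hmk
    refine ⟨by rw [hm, hm']; norm_num, fun w hw hA => ?_⟩
    have hwF : w ∈ F := ⟨hw, hA⟩
    have hF1 : Nat.card F = 1 := by rw [hk, hk']; norm_num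
    have hb := Subgroup.eq_bot_of_card_eq F hF1
    rw [hb] at hwF
    exact Subgroup.mem_bot.1 hwF

/-- The same for order three, in the form needed below. -/
theorem dich3 {M : Type*} [Group M] [Finite M] (A : M →* M) (W : Subgroup M) (hW2 : IsPGroup 2 W)
    (h16 : Nat.card W = 16) (hAW : ∀ w ∈ W, A w ∈ W)
    (hA3 : ∀ w ∈ W, A (A (A w)) = w) :
    (∀ w ∈ W, A w = w) ∨ {w | w ∈ (W : Set M) ∧ A w = w}.ncard ≤ 4 := by
  classical
  haveI : Fact (Nat.Prime 3) := ⟨by norm_num⟩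
  let F : Subgroup M := W ⊓ A.eqLocus (MonoidHom.id M)
  have hmod := card_mod 3 (W : Set M) A hAW (by intro a ha; exact hA3 a ha)
  have hset : {a | a ∈ (W : Set M) ∧ A a = a} = (F : Set M) := rfl
  rw [hset]
  rw [hset, ← Nat.card_coe_set_eq, ← Nat.card_coe_set_eq] at hmod
  have hFW : F ≤ W := inf_le_left
  have hFp : IsPGroup 2 F := hW2.to_le hFW
  obtain ⟨k, hk⟩ := IsPGroup.iff_card.1 hFp
  have hdvd : Nat.card F ∣ Nat.card W := Subgroup.card_dvd_of_le hFW
  rw [h16, hk, show 16 = 2 ^ 4 by norm_num] at hdvd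
  have hkm : k ≤ 4 := (Nat.pow_dvd_pow_iff_le_right (by norm_num)).1 hdvd
  have e1 : Nat.card ↥(W : Set M) = 16 := h16
  have e2 : Nat.card ↥(F : Set M) = 2 ^ k := hk
  rw [e1, e2] at hmod
  by_cases hk4 : k = 4
  · left
    have hFW' : F = W := Subgroup.eq_of_le_of_card_ge hFW (by rw [h16, hk, hk4]; norm_num)
    intro w hw
    rw [← hFW'] at hw
    exact hw.2
  · right
    rw [← Nat.card_coe_set_eq, e2]
    have hk2 : k ≤ 2 := by
      clear hk hdvd e2
      interval_cases k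
      · norm_num
      · exfalso; revert hmod; decide
      · norm_num
      · exfalso; revert hmod; decide
      · exact absurd rfl hk4
    calc 2 ^ k ≤ 2 ^ 2 := Nat.pow_le_pow_right (by norm_num) hk2
      _ = 4 := by norm_num

/-- The context: a normal `2`-subgroup with a faithful section of rank at most four and a `D₁₀`. -/
structure Ctx (Y : Type u) (V : Type v) [Group Y] [CommGroup V] where
  R : Subgroup Y
  hn : R.Normal
  hp : ∀ r ∈ R, ∃ k : ℕ, r ^ 2 ^ k = 1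
  c : Y → V
  c_mul : ∀ r ∈ R, ∀ s ∈ R, c (r * s) = c r * c s
  c_surj : ∀ v, ∃ r ∈ R, c r = v
  α : Y →* MulAut V
  α_c : ∀ x, ∀ r ∈ R, α x (c r) = c (x * r * x⁻¹)
  α_R : ∀ x, α x = 1 ↔ x ∈ R
  h2 : ∀ v : V, v * v = 1
  h16 : Nat.card V ≤ 16
  hsq : ∀ S : Subgroup Y, (∀ r ∈ R, r * r ∈ S) → ∀ r ∈ R, c r = 1 → r ∈ S
  g : Y
  t : Y
  d : Y
  g5 : g ^ 5 = 1
  g1 : g ≠ 1
  tg : t * g * t⁻¹ = g⁻¹
  t2 : t * t ∈ R
  d3 : d ^ 3 = 1
  d1 : d ≠ 1
  hgen : ∀ C : Subgroup Y, C.Normal → R ≤ C → g ∈ C → C = ⊤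
  hNo : ∀ P D : Subgroup Y, D ≤ P → (∀ x ∈ P, ∀ y ∈ D, x * y * x⁻¹ ∈ D) → (∀ x ∈ P, x * x ∈ D) →
    32 ≤ D.relIndex P → False

namespace Ctx

variable {Y : Type u} {V : Type v} [Group Y] [CommGroup V] (C : Ctx Y V)

theorem conj_mem {r : Y} (hr : r ∈ C.R) (x : Y) : x * r * x⁻¹ ∈ C.R := C.hn.conj_mem r hr x

theorem c_one : C.c 1 = 1 := by
  have h := C.c_mul 1 C.R.one_mem 1 C.R.one_mem
  rw [one_mul] at h
  exact (mul_eq_left.1 h.symm)

theorem c_inv {r : Y} (hr : r ∈ C.R) : C.c r⁻¹ = C.c r := by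
  have h := C.c_mul r⁻¹ (C.R.inv_mem hr) r hr
  rw [inv_mul_cancel, c_one] at h
  have h3 := C.h2 (C.c r)
  have : C.c r⁻¹ * C.c r = C.c r * C.c r := by rw [← h, h3]
  exact mul_right_cancel this

/-- The kernel. -/
def Phi : Subgroup Y where
  carrier := {r | r ∈ C.R ∧ C.c r = 1}
  one_mem' := ⟨C.R.one_mem, C.c_one⟩
  mul_mem' := by
    rintro a b ⟨ha, ha'⟩ ⟨hb, hb'⟩
    refine ⟨C.R.mul_mem ha hb, ?_⟩
    rw [C.c_mul a ha b hb, ha', hb', one_mul]
  inv_mem' := by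
    rintro a ⟨ha, ha'⟩
    exact ⟨C.R.inv_mem ha, by rw [C.c_inv ha, ha']⟩

theorem mem_Phi {r : Y} : r ∈ C.Phi ↔ r ∈ C.R ∧ C.c r = 1 := Iff.rfl

theorem Phi_le : C.Phi ≤ C.R := fun _ h => h.1

theorem Phi_conj {f : Y} (hf : f ∈ C.Phi) (x : Y) : x * f * x⁻¹ ∈ C.Phi := by
  refine ⟨C.conj_mem hf.1 x, ?_⟩
  rw [← C.α_c x f hf.1, hf.2, map_one]

theorem Phi_normal : C.Phi.Normal := ⟨fun f hf x => C.Phi_conj hf x⟩

theorem sq_mem {r : Y} (hr : r ∈ C.R) : r * r ∈ C.Phi := by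
  refine ⟨C.R.mul_mem hr hr, ?_⟩
  rw [C.c_mul r hr r hr, C.h2]

theorem c_eq_iff {r s : Y} (hr : r ∈ C.R) (hs : s ∈ C.R) : C.c r = C.c s ↔ r⁻¹ * s ∈ C.Phi := by
  constructor
  · intro h
    refine ⟨C.R.mul_mem (C.R.inv_mem hr) hs, ?_⟩
    rw [C.c_mul _ (C.R.inv_mem hr) _ hs, C.c_inv hr, h, C.h2]
  · intro h
    have h1 := h.2
    rw [C.c_mul _ (C.R.inv_mem hr) _ hs, C.c_inv hr] at h1
    have h3 := C.h2 (C.c r)
    exact mul_left_cancel (a := C.c r) (by rw [h1, h3])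

theorem comm_mem {r s : Y} (hr : r ∈ C.R) (hs : s ∈ C.R) : r⁻¹ * s⁻¹ * r * s ∈ C.Phi := by
  have hri := C.R.inv_mem hr
  have hsi := C.R.inv_mem hs
  refine ⟨?_, ?_⟩
  · exact C.R.mul_mem (C.R.mul_mem (C.R.mul_mem hri hsi) hr) hs
  · rw [C.c_mul _ (C.R.mul_mem (C.R.mul_mem hri hsi) hr) _ hs,
      C.c_mul _ (C.R.mul_mem hri hsi) _ hr, C.c_mul _ hri _ hsi, C.c_inv hr, C.c_inv hs]
    calc C.c r * C.c s * C.c r * C.c s = (C.c r * C.c r) * (C.c s * C.c s) := by
          simp only [mul_assoc, mul_comm, mul_left_comm]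
      _ = 1 := by rw [C.h2, C.h2, one_mul]

variable [Finite Y]

theorem notin_R_of_odd {x : Y} {n : ℕ} (hn : Odd n) (hx : x ^ n = 1) (h1 : x ≠ 1) : x ∉ C.R := by
  intro hxR
  obtain ⟨k, hk⟩ := C.hp x hxR
  have h3 : orderOf x ∣ 2 ^ k := orderOf_dvd_of_pow_eq_one hk
  have h4 : orderOf x ∣ n := orderOf_dvd_of_pow_eq_one hx
  have hco : Nat.Coprime (2 ^ k) n := Nat.Coprime.pow_left k (Nat.coprime_two_left.2 hn)
  have h5 : orderOf x = 1 := Nat.eq_one_of_dvd_coprimes hco h3 h4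
  exact h1 (orderOf_eq_one_iff.1 h5)

theorem g_notin : C.g ∉ C.R := C.notin_R_of_odd (n := 5) (by decide) C.g5 C.g1

theorem d_notin : C.d ∉ C.R := C.notin_R_of_odd (n := 3) (by decide) C.d3 C.d1

theorem α_ne {x : Y} (hx : x ∉ C.R) : C.α x ≠ 1 := fun h => hx ((C.α_R x).1 h)

theorem mulap (x y : Y) (v : V) : C.α (x * y) v = C.α x (C.α y v) := by
  rw [map_mul]; rfl

theorem oneap (v : V) : C.α 1 v = v := by
  rw [map_one]; rfl

theorem g5ap (v : V) : C.α C.g (C.α C.g (C.α C.g (C.α C.g (C.α C.g v)))) = v := by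
  have h : C.g * C.g * C.g * C.g * C.g = 1 := by
    rw [← C.g5]; simp only [pow_succ, pow_zero, one_mul]
  rw [← C.mulap, ← C.mulap, ← C.mulap, ← C.mulap, h, C.oneap]

theorem d3ap (v : V) : C.α C.d (C.α C.d (C.α C.d v)) = v := by
  have h : C.d * C.d * C.d = 1 := by
    rw [← C.d3]; simp only [pow_succ, pow_zero, one_mul]
  rw [← C.mulap, ← C.mulap, h, C.oneap]

include C in
theorem isP : IsPGroup 2 (⊤ : Subgroup V) := by
  intro v
  refine ⟨1, ?_⟩
  apply Subtype.ext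
  show (v : V) ^ 2 ^ 1 = 1
  rw [pow_one, pow_two, C.h2]

variable [Finite V]

/-- Action of `g` on the section. -/
theorem g_data : Nat.card V = 16 ∧ ∀ v : V, C.α C.g v = v → v = 1 := by
  have hA := dich5 (C.α C.g).toMonoidHom ⊤ C.isP (by rw [Subgroup.card_top]; exact C.h16)
    (fun _ _ => Subgroup.mem_top _) (fun w _ => C.g5ap w)
  rcases hA with hA | ⟨h16, hA⟩
  · exfalso
    apply C.α_ne C.g_notin
    ext v
    exact hA v (Subgroup.mem_top _)
  · rw [Subgroup.card_top] at h16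
    exact ⟨h16, fun v hv => hA v (Subgroup.mem_top _) hv⟩

include C in
theorem card_V : Nat.card V = 16 := C.g_data.1

theorem g_fpf {v : V} (h : C.α C.g v = v) : v = 1 := C.g_data.2 v h

/-- `g`-invariant subgroups of the section. -/
theorem irr (A : Subgroup V) (hA : ∀ v ∈ A, C.α C.g v ∈ A) : A = ⊥ ∨ A = ⊤ := by
  have hp : IsPGroup 2 A := C.isP.to_le le_top
  have hle : Nat.card A ≤ 16 := by
    calc Nat.card A ≤ Nat.card V := Nat.card_le_card_of_injective _ Subtype.val_injective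
      _ ≤ 16 := C.h16
  rcases dich5 (C.α C.g).toMonoidHom A hp hle hA (fun w _ => C.g5ap w) with h | ⟨h16, _⟩
  · left
    rw [eq_bot_iff]
    intro v hv
    exact Subgroup.mem_bot.2 (C.g_fpf (h v hv))
  · right
    apply Subgroup.eq_top_of_card_eq
    rw [h16, C.card_V]

include C in
/-- Three elements of the section. -/
theorem exists_pair : ∃ a b : V, a ≠ 1 ∧ b ≠ 1 ∧ a ≠ b := by
  classical
  have h16 := C.card_V
  have hnt : Nontrivial V := by
    apply Finite.one_lt_card_iff_nontrivial.1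
    omega
  obtain ⟨a, ha⟩ := exists_ne (1 : V)
  by_contra hcon
  have hall : ∀ b : V, b = 1 ∨ b = a := by
    intro b
    by_contra hb
    push_neg at hb
    exact hcon ⟨a, b, ha, hb.1, fun h => hb.2 h.symm⟩
  have hle : Nat.card V ≤ 2 := by
    letI : Fintype V := Fintype.ofFinite V
    rw [Nat.card_eq_fintype_card]
    calc Fintype.card V ≤ (({1, a} : Finset V)).card := by
          rw [← Finset.card_univ]
          apply Finset.card_le_card
          intro b _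
          rcases hall b with h | h <;> simp [h]
      _ ≤ 2 := Finset.card_le_two
  omega

/-- The invariance tool: a `g`-invariant subgroup of index at most two. -/
theorem top_of_index2 (S : Subgroup Y) (hSR : S ≤ C.R) (hg : ∀ s ∈ S, C.g * s * C.g⁻¹ ∈ S)
    (h2 : ∀ a ∈ C.R, ∀ b ∈ C.R, a ∉ S → b ∉ S → a * b ∈ S) : ∀ r ∈ C.R, r ∈ S := by
  have hsquares : ∀ r ∈ C.R, r * r ∈ S := by
    intro r hr
    by_cases h : r ∈ S
    · exact S.mul_mem h h
    · exact h2 r hr r hr h h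
  have hPhi : ∀ f ∈ C.Phi, f ∈ S := fun f hf => C.hsq S hsquares f hf.1 hf.2
  let A : Subgroup V :=
    { carrier := {v | ∃ s ∈ S, C.c s = v}
      one_mem' := ⟨1, S.one_mem, C.c_one⟩
      mul_mem' := by
        rintro _ _ ⟨a, ha, rfl⟩ ⟨b, hb, rfl⟩
        exact ⟨a * b, S.mul_mem ha hb, C.c_mul a (hSR ha) b (hSR hb)⟩
      inv_mem' := by
        rintro _ ⟨a, ha, rfl⟩
        refine ⟨a, ha, ?_⟩
        have h3 := C.h2 (C.c a)
        exact (inv_eq_of_mul_eq_one_left h3).symm }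
  rcases C.irr A (by
    rintro _ ⟨s, hs, rfl⟩
    exact ⟨C.g * s * C.g⁻¹, hg s hs, (C.α_c C.g s (hSR hs)).symm⟩) with hA | hA
  · exfalso
    obtain ⟨a, b, ha, hb, hab⟩ := C.exists_pair
    obtain ⟨x, hx, rfl⟩ := C.c_surj a
    obtain ⟨y, hy, rfl⟩ := C.c_surj b
    have hnot : ∀ z ∈ C.R, C.c z ≠ 1 → z ∉ S := by
      intro z _ hz hzS
      have : C.c z ∈ A := ⟨z, hzS, rfl⟩
      rw [hA] at this
      exact hz (Subgroup.mem_bot.1 this)
    have hxy := h2 x hx y hy (hnot x hx ha) (hnot y hy hb)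
    have h5 : C.c (x * y) ∈ A := ⟨_, hxy, rfl⟩
    rw [hA, Subgroup.mem_bot, C.c_mul x hx y hy] at h5
    have h3 := C.h2 (C.c x)
    exact hab (mul_left_cancel (a := C.c x) (by rw [h3, h5]))
  · intro r hr
    have h5 : C.c r ∈ A := by
      rw [hA]; exact Subgroup.mem_top _
    obtain ⟨s, hs, hsr⟩ := h5
    have h6 : s⁻¹ * r ∈ C.Phi := (C.c_eq_iff (hSR hs) hr).1 hsr
    have h7 := S.mul_mem hs (hPhi _ h6)
    simpa using h7

/-- `t` is outside `R`. -/
theorem t_notin : C.t ∉ C.R := by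
  intro ht
  have h1 : C.α C.t = 1 := (C.α_R _).2 ht
  have h3 : C.α (C.t * C.g * C.t⁻¹) = C.α C.g := by
    rw [map_mul, map_mul, map_inv, h1]
    simp
  rw [C.tg, map_inv] at h3
  have h4 : ∀ v, C.α C.g (C.α C.g v) = v := by
    intro v
    have : C.α C.g (C.α C.g v) = C.α C.g ((C.α C.g)⁻¹ v) := by rw [h3]
    rw [this]
    simp
  have h5 : ∀ v, C.α C.g v = v := by
    intro v
    have := C.g5ap v
    rw [h4, h4] at this
    exact this
  exact C.α_ne C.g_notin (by ext v; exact h5 v)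

end Ctx

end Cfsg.Agent.Lib.Sect4.A5Base
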