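import Mathlib
import Cfsg.Agent.Lib.PGroup.PowZ

/-!
# Central products of a quaternion and a dihedral group from generators
-/

set_option autoImplicit false
set_option linter.unusedSectionVars false
set_option linter.unusedVariables false

namespace Cfsg.Agent.Lib.Sect4.A5Basis

open Subgroup Cfsg.Agent.Lib.PGroup.PowZ

variable {G : Type*} [Group G] [Finite G]

/-- Bit patterns and the quadratic form. -/
def fF (p1 p2 p3 p4 : Bool) (w : Bool × Bool × Bool × Bool) : Bool :=
  xor (xor (xor (w.1 && p1) (w.1 && w.2.1)) (w.2.1 && p2))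
    (xor (xor (w.2.2.1 && p3) (w.2.2.1 && w.2.2.2)) (w.2.2.2 && p4))

theorem arf : ∀ p1 p2 p3 p4 : Bool,
    5 ∣ (Finset.univ.filter (fun w : Bool × Bool × Bool × Bool =>
      w ≠ (false, false, false, false) ∧ fF p1 p2 p3 p4 w = false)).card →
    xor (p1 && p2) (p3 && p4) = true := by
  decide

theorem concl_of_basis {x y a b z : G} (hz1 : z ≠ 1) (hzz : z * z = 1)
    (hxx : x * x = z) (hyy : y * y = z) (hxy : y * x * y⁻¹ = x⁻¹)
    (haa : a * a = 1) (hbb : b * b = 1) (hab : (a * b) * (a * b) = z)
    (hxa : x * a = a * x) (hxb : x * b = b * x) (hya : y * a = a * y) (hyb : y * b = b * y)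
    (hgen : ∀ S : Subgroup G, x ∈ S → y ∈ S → a ∈ S → b ∈ S → S = ⊤)
    (hcen : ∀ g ∈ center G, g = 1 ∨ g = z) :
    ∃ A B : Subgroup G, Nonempty (A ≃* QuaternionGroup 2) ∧ Nonempty (B ≃* DihedralGroup 4) ∧
      (∀ p ∈ A, ∀ q ∈ B, p * q = q * p) ∧ A ⊔ B = ⊤ ∧ A ⊓ B = center G := by
  classical
  haveI : Fact (Nat.Prime 2) := ⟨Nat.prime_two⟩
  have ord4 : ∀ r : G, r * r = z → orderOf r = 2 * 2 := by
    intro r hr
    have h2 : r ^ 2 ^ 1 = z := by
      rw [pow_one, pow_two, hr]
    have h4 : r ^ 2 ^ (1 + 1) = 1 := by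
      calc r ^ 2 ^ (1 + 1) = (r * r) * (r * r) := by
            simp only [pow_succ, pow_zero, one_mul, pow_one, mul_one, mul_assoc, Nat.reduceMul]
        _ = 1 := by rw [hr, hzz]
    have h5 := orderOf_eq_prime_pow (p := 2) (n := 1) (x := r) (by rw [h2]; exact hz1) h4
    rw [h5]
    norm_num
  have notin : ∀ r s : G, r * r = z → s * r * s⁻¹ = r⁻¹ → s ∉ zpowers r := by
    intro r s hr hsr hs
    obtain ⟨k, rfl⟩ := Subgroup.mem_zpowers_iff.1 hs
    have h1 : r ^ k * r * (r ^ k)⁻¹ = r := by
      rw [(Commute.zpow_left (Commute.refl r) k).eq]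
      group
    rw [h1] at hsr
    apply hz1
    rw [← hr]
    nth_rewrite 1 [hsr]
    exact inv_mul_cancel r
  have hx4 : x ^ (2 * 2) = 1 := by
    rw [← ord4 x hxx]
    exact pow_orderOf_eq_one x
  have hys : y * y = x ^ 2 := by
    rw [pow_two, hxx, hyy]
  let fQ : QuaternionGroup 2 →* G := quaternionHom (m := 2) x y hx4 hys hxy
  have hQinj : Function.Injective fQ :=
    quaternionHom_injective (m := 2) (ord4 x hxx) hys hxy (notin x y hxx hxy)
  have hr4 : orderOf (a * b) = 4 := ord4 _ hab
  have hs1 : a * (a * b) * a⁻¹ = (a * b)⁻¹ := by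
    have hai : a⁻¹ = a := inv_eq_of_mul_eq_one_left haa
    have hbi : b⁻¹ = b := inv_eq_of_mul_eq_one_left hbb
    rw [mul_inv_rev, hai, hbi, ← mul_assoc, haa, one_mul]
  have hab4 : (a * b) ^ 4 = 1 := by
    rw [← hr4]
    exact pow_orderOf_eq_one _
  let fD : DihedralGroup 4 →* G := dihedralHom (m := 4) (a * b) a hab4 haa hs1
  have hDinj : Function.Injective fD :=
    dihedralHom_injective (m := 4) hr4 haa hs1 (notin (a * b) a hab hs1)
  have hAle : ∀ S : Subgroup G, x ∈ S → y ∈ S → fQ.range ≤ S := by
    rintro S h1 h2 _ ⟨(i | i), rfl⟩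
    · exact S.pow_mem h1 _
    · exact S.mul_mem h2 (S.pow_mem h1 _)
  have hBle : ∀ S : Subgroup G, a ∈ S → b ∈ S → fD.range ≤ S := by
    rintro S h1 h2 _ ⟨(i | i), rfl⟩
    · exact S.pow_mem (S.mul_mem h1 h2) _
    · exact S.mul_mem h1 (S.pow_mem (S.mul_mem h1 h2) _)
  have hxA : x ∈ fQ.range := ⟨QuaternionGroup.a 1, powZ_one_of_one_lt hx4⟩
  have hyA : y ∈ fQ.range := ⟨QuaternionGroup.xa 0, by
    show y * powZ x 0 = y
    rw [powZ_zero, mul_one]⟩
  have habB : a * b ∈ fD.range := ⟨DihedralGroup.r 1, powZ_one_of_one_lt hab4⟩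
  have haB : a ∈ fD.range := ⟨DihedralGroup.sr 0, by
    show a * powZ (a * b) 0 = a
    rw [powZ_zero, mul_one]⟩
  have hbB : b ∈ fD.range := by
    have h1 := fD.range.mul_mem (fD.range.inv_mem haB) habB
    simpa using h1
  refine ⟨fQ.range, fD.range, ⟨(MonoidHom.ofInjective hQinj).symm⟩,
    ⟨(MonoidHom.ofInjective hDinj).symm⟩, ?_, ?_, ?_⟩
  · have hB : fD.range ≤ centralizer ({x, y} : Set G) := by
      apply hBle
      · rw [Subgroup.mem_centralizer_iff]
        rintro h (rfl | rfl)
        · exact hxa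
        · exact hya
      · rw [Subgroup.mem_centralizer_iff]
        rintro h (rfl | rfl)
        · exact hxb
        · exact hyb
    have hA : fQ.range ≤ centralizer (fD.range : Set G) := by
      apply hAle
      · rw [Subgroup.mem_centralizer_iff]
        intro q hq
        have h1 := Subgroup.mem_centralizer_iff.1 (hB hq) x (by simp)
        exact h1.symm
      · rw [Subgroup.mem_centralizer_iff]
        intro q hq
        have h1 := Subgroup.mem_centralizer_iff.1 (hB hq) y (by simp)
        exact h1.symm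
    intro p hp q hq
    exact (Subgroup.mem_centralizer_iff.1 (hA hp) q hq).symm
  · exact hgen _ (Subgroup.mem_sup_left hxA) (Subgroup.mem_sup_left hyA)
      (Subgroup.mem_sup_right haB) (Subgroup.mem_sup_right hbB)
  · have hsup := hgen (fQ.range ⊔ fD.range) (Subgroup.mem_sup_left hxA) (Subgroup.mem_sup_left hyA)
      (Subgroup.mem_sup_right haB) (Subgroup.mem_sup_right hbB)
    have hB : fD.range ≤ centralizer ({x, y} : Set G) := by
      apply hBle
      · rw [Subgroup.mem_centralizer_iff]
        rintro h (rfl | rfl)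
        · exact hxa
        · exact hya
      · rw [Subgroup.mem_centralizer_iff]
        rintro h (rfl | rfl)
        · exact hxb
        · exact hyb
    have hA : fQ.range ≤ centralizer (fD.range : Set G) := by
      apply hAle
      · rw [Subgroup.mem_centralizer_iff]
        intro q hq
        have h1 := Subgroup.mem_centralizer_iff.1 (hB hq) x (by simp)
        exact h1.symm
      · rw [Subgroup.mem_centralizer_iff]
        intro q hq
        have h1 := Subgroup.mem_centralizer_iff.1 (hB hq) y (by simp)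
        exact h1.symm
    apply le_antisymm
    · rintro g ⟨hg1, hg2⟩
      rw [Subgroup.mem_center_iff]
      intro h
      have hS : fQ.range ⊔ fD.range ≤ centralizer ({g} : Set G) := by
        apply sup_le
        · intro p hp
          rw [Subgroup.mem_centralizer_singleton_iff]
          exact (Subgroup.mem_centralizer_iff.1 (hA hp) g hg2).symm
        · intro q hq
          rw [Subgroup.mem_centralizer_singleton_iff]
          exact Subgroup.mem_centralizer_iff.1 (hA hg1) q hq
      rw [hsup] at hS
      have h1 := hS (mem_top h)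
      rw [Subgroup.mem_centralizer_singleton_iff] at h1
      exact h1
    · intro g hg
      rcases hcen g hg with rfl | rfl
      · exact Subgroup.one_mem _
      · refine ⟨?_, ?_⟩
        · rw [← hxx]
          exact fQ.range.mul_mem hxA hxA
        · rw [← hab]
          exact fD.range.mul_mem habB habB

end Cfsg.Agent.Lib.Sect4.A5Basis
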