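import Cfsg.Agent.Lib.Sect4.A5Quot

/-!
# The case of a central kernel of order four
-/

set_option autoImplicit false
set_option linter.unusedSectionVars false
set_option linter.unusedVariables false

namespace Cfsg.Agent.Lib.Sect4.A5Base.Ctx

open Subgroup

universe u v

variable {Y : Type u} {V : Type v} [Group Y] [CommGroup V] (C : Ctx Y V)

theorem ncard3 {α : Type*} [Finite α] {A B D T : Set α} (hAB : Disjoint A B) (hAD : Disjoint A D)
    (hBD : Disjoint B D) (hA : A ⊆ T) (hB : B ⊆ T) (hD : D ⊆ T) :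
    A.ncard + B.ncard + D.ncard ≤ T.ncard := by
  rw [← Set.ncard_union_eq hAB (Set.toFinite _) (Set.toFinite _),
    ← Set.ncard_union_eq (Set.disjoint_union_left.2 ⟨hAD, hBD⟩) (Set.toFinite _) (Set.toFinite _)]
  exact Set.ncard_le_ncard (Set.union_subset (Set.union_subset hA hB) hD) (Set.toFinite _)

/-- The commutator used below. -/
def KK {Y : Type u} [Group Y] (r s : Y) : Y := r⁻¹ * s * r * s⁻¹

theorem KK_mem {r s : Y} (hr : r ∈ C.R) (hs : s ∈ C.R) : KK r s ∈ C.Phi := by
  have h := C.comm_mem hr (C.R.inv_mem hs)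
  simpa [KK] using h

theorem conj_eq_KK (r s : Y) : r⁻¹ * s * r = KK r s * s := by
  unfold KK; group

theorem sq_formula (hcen : ∀ f ∈ C.Phi, ∀ r ∈ C.R, f * r = r * f) {r s : Y} (hr : r ∈ C.R)
    (hs : s ∈ C.R) : (r * s) * (r * s) = (r * r) * KK r s * (s * s) := by
  unfold KK; group

theorem KK_mul (hcen : ∀ f ∈ C.Phi, ∀ r ∈ C.R, f * r = r * f) {r s s' : Y} (hr : r ∈ C.R)
    (hs : s ∈ C.R) (hs' : s' ∈ C.R) : KK r (s * s') = KK r s * KK r s' := by
  have h1 := hcen _ (C.KK_mem hr hs') s hs
  calc KK r (s * s') = KK r s * (s * KK r s') * s⁻¹ := by unfold KK; group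
    _ = KK r s * (KK r s' * s) * s⁻¹ := by rw [h1]
    _ = KK r s * KK r s' := by group

variable [Finite Y] [Finite V]

theorem isP_sub (S : Subgroup Y) (hS : S ≤ C.R) : IsPGroup 2 S := by
  rintro ⟨r, hr⟩
  obtain ⟨k, hk⟩ := C.hp r (hS hr)
  exact ⟨k, Subtype.ext hk⟩

/-- Trivial action of `g` on small normal subgroups of the kernel. -/
theorem g_triv_of_small (S : Subgroup Y) (hS : S ≤ C.R) (hn : ∀ f ∈ S, C.g * f * C.g⁻¹ ∈ S)
    (hc : Nat.card S < 16) : ∀ f ∈ S, C.g * f * C.g⁻¹ = f := by
  rcases dich5 (MulAut.conj C.g).toMonoidHom S (C.isP_sub S hS) hc.le (by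
    intro w hw; exact hn w hw) (by
    intro w hw
    have h : C.g * C.g * C.g * C.g * C.g = 1 := by
      rw [← C.g5]; simp only [pow_succ, pow_zero, one_mul]
    have e : (MulAut.conj C.g).toMonoidHom ((MulAut.conj C.g).toMonoidHom ((MulAut.conj C.g).toMonoidHom
        ((MulAut.conj C.g).toMonoidHom ((MulAut.conj C.g).toMonoidHom w)))) =
        (C.g * C.g * C.g * C.g * C.g) * w * (C.g * C.g * C.g * C.g * C.g)⁻¹ := by
      simp only [MulEquiv.coe_toMonoidHom, MulAut.conj_apply]
      group
    rw [e, h]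
    group) with h | ⟨h, _⟩
  · intro f hf
    exact h f hf
  · omega

theorem card_le_two_of {S : Subgroup Y} {e : Y} (h : ∀ f ∈ S, f = 1 ∨ f = e) : Nat.card S ≤ 2 := by
  have h1 : Nat.card S = (S : Set Y).ncard := Nat.card_coe_set_eq _
  rw [h1]
  calc (S : Set Y).ncard ≤ ({1, e} : Set Y).ncard :=
        Set.ncard_le_ncard (fun f hf => h f hf) (Set.toFinite _)
    _ ≤ ({e} : Set Y).ncard + 1 := Set.ncard_insert_le _ _
    _ = 2 := by rw [Set.ncard_singleton]

theorem tri {a b : Y} (haa : a * a = 1) (hbb : b * b = 1) (hab : a * b = b * a) {p q m : Y}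
    (hp : p = a ∨ p = b) (hq : q = a ∨ q = b) (hm : m = a ∨ m = b) :
    p * m * q = a ∨ p * m * q = b := by
  rcases hp with rfl | rfl <;> rcases hq with rfl | rfl <;> rcases hm with rfl | rfl
  · left; rw [haa, one_mul]
  · right; rw [hab, mul_assoc, haa, mul_one]
  · right; rw [haa, one_mul]
  · left; rw [mul_assoc, hbb, mul_one]
  · right; rw [mul_assoc, haa, mul_one]
  · left; rw [hbb, one_mul]
  · left; rw [← hab, mul_assoc, hbb, mul_one]
  · right; rw [hbb, one_mul]

/-- The case of a central kernel of order four. -/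
theorem caseB (hc4 : Nat.card C.Phi = 4) {w : Y} (hwP : w ∈ C.Phi) (hw1 : w ≠ 1) (hww : w * w = 1)
    (hwc : ∀ y, y * w = w * y) : False := by
  classical
  have hV16 := C.card_V
  -- an element outside
  obtain ⟨u, huP, hu1, huw⟩ : ∃ u ∈ C.Phi, u ≠ 1 ∧ u ≠ w := by
    by_contra hcon
    push_neg at hcon
    have hle : Nat.card C.Phi ≤ 2 := card_le_two_of (e := w) (fun f hf => by
      by_cases h1 : f = 1
      · exact Or.inl h1
      · exact Or.inr (hcon f hf h1))
    omega
  have huwP : u * w ∈ C.Phi := C.Phi.mul_mem huP hwP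
  have huw1 : u * w ≠ 1 := by
    intro h
    apply huw
    have h1 := inv_eq_of_mul_eq_one_left hww
    rw [eq_inv_of_mul_eq_one_left h, h1]
  have huw2 : u * w ≠ w := by
    intro h
    exact hu1 (mul_eq_right.1 h)
  have huw3 : u * w ≠ u := by
    intro h
    exact hw1 (mul_eq_left.1 h)
  have hall : ∀ f ∈ C.Phi, f = 1 ∨ f = w ∨ f = u ∨ f = u * w := by
    by_contra hcon
    push_neg at hcon
    obtain ⟨f, hf, h1, h2, h3, h4⟩ := hcon
    have hcard : (({1, w, u, u * w, f} : Finset Y)).card = 5 := by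
      rw [Finset.card_insert_of_notMem, Finset.card_insert_of_notMem, Finset.card_insert_of_notMem,
        Finset.card_insert_of_notMem, Finset.card_singleton]
      · simp only [Finset.mem_singleton]
        exact fun h => h4 h.symm
      · simp only [Finset.mem_insert, Finset.mem_singleton, not_or]
        exact ⟨fun h => huw3 h.symm, fun h => h3 h.symm⟩
      · simp only [Finset.mem_insert, Finset.mem_singleton, not_or]
        exact ⟨fun h => huw h.symm, fun h => huw2 h.symm, fun h => h2 h.symm⟩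
      · simp only [Finset.mem_insert, Finset.mem_singleton, not_or]
        exact ⟨fun h => hw1 h.symm, fun h => hu1 h.symm, fun h => huw1 h.symm, fun h => h1 h.symm⟩
    have hle : (↑({1, w, u, u * w, f} : Finset Y) : Set Y).ncard ≤ (C.Phi : Set Y).ncard := by
      apply Set.ncard_le_ncard _ (Set.toFinite _)
      intro a ha
      simp only [Finset.coe_insert, Finset.coe_singleton, Set.mem_insert_iff,
        Set.mem_singleton_iff] at ha
      rcases ha with rfl | rfl | rfl | rfl | rfl
      · exact C.Phi.one_mem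
      · exact hwP
      · exact huP
      · exact huwP
      · exact hf
    rw [Set.ncard_coe_finset, hcard] at hle
    have h5 : (C.Phi : Set Y).ncard = Nat.card C.Phi := (Nat.card_coe_set_eq _).symm
    omega
  have hgP := C.g_triv_of_small C.Phi C.Phi_le (fun f hf => C.Phi_conj hf _) (by omega)
  have hconjval : ∀ a, a * u * a⁻¹ = u ∨ a * u * a⁻¹ = u * w := by
    intro a
    have hm := C.Phi_conj huP a
    rcases hall _ hm with h | h | h | h
    · exfalso
      exact hu1 (conj_eq_one_iff.1 h)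
    · exfalso
      apply huw
      have h' : u = a⁻¹ * w * a := by rw [← h]; group
      rw [h', hwc a⁻¹]
      group
    · exact Or.inl h
    · exact Or.inr h
  -- `u` is central in `R`
  let S : Subgroup Y := C.R ⊓ centralizer {u}
  have hS : ∀ r, r ∈ S ↔ r ∈ C.R ∧ r * u = u * r := by
    intro r
    show r ∈ C.R ∧ r ∈ centralizer {u} ↔ _
    rw [Subgroup.mem_centralizer_singleton_iff]
  have hgu : C.g * u * C.g⁻¹ = u := hgP u huP
  have hSall := C.top_of_index2 S inf_le_left (by
    intro s hs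
    rw [hS] at hs ⊢
    refine ⟨C.conj_mem hs.1 _, ?_⟩
    have e1 : C.g * u = u * C.g := by
      calc C.g * u = (C.g * u * C.g⁻¹) * C.g := by group
        _ = u * C.g := by rw [hgu]
    calc C.g * s * C.g⁻¹ * u = C.g * s * (C.g⁻¹ * u * C.g) * C.g⁻¹ := by group
      _ = C.g * s * (C.g⁻¹ * (u * C.g)) * C.g⁻¹ := by group
      _ = C.g * s * (C.g⁻¹ * (C.g * u)) * C.g⁻¹ := by rw [e1]
      _ = C.g * (s * u) * C.g⁻¹ := by group
      _ = C.g * (u * s) * C.g⁻¹ := by rw [hs.2]
      _ = (C.g * u) * s * C.g⁻¹ := by group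
      _ = (u * C.g) * s * C.g⁻¹ := by rw [e1]
      _ = u * (C.g * s * C.g⁻¹) := by group) (by
    intro a ha b hb haS hbS
    have hna : a * u * a⁻¹ = u * w := by
      rcases hconjval a with h | h
      · exfalso
        apply haS
        rw [hS]
        refine ⟨ha, ?_⟩
        calc a * u = (a * u * a⁻¹) * a := by group
          _ = u * a := by rw [h]
      · exact h
    have hnb : b * u * b⁻¹ = u * w := by
      rcases hconjval b with h | h
      · exfalso
        apply hbS
        rw [hS]
        refine ⟨hb, ?_⟩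
        calc b * u = (b * u * b⁻¹) * b := by group
          _ = u * b := by rw [h]
      · exact h
    rw [hS]
    refine ⟨C.R.mul_mem ha hb, ?_⟩
    have h1 : a * w * a⁻¹ = w := by
      rw [hwc a]; group
    have h3 : (a * b) * u * (a * b)⁻¹ = u := by
      calc (a * b) * u * (a * b)⁻¹ = a * (b * u * b⁻¹) * a⁻¹ := by group
        _ = a * (u * w) * a⁻¹ := by rw [hnb]
        _ = (a * u * a⁻¹) * (a * w * a⁻¹) := by group
        _ = u * w * w := by rw [hna, h1]
        _ = u := by rw [mul_assoc, hww, mul_one]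
    calc (a * b) * u = ((a * b) * u * (a * b)⁻¹) * (a * b) := by group
      _ = u * (a * b) := by rw [h3])
  have hcu : ∀ r ∈ C.R, u * r = r * u := fun r hr => (((hS r).1 (hSall r hr)).2).symm
  have hcen : ∀ f ∈ C.Phi, ∀ r ∈ C.R, f * r = r * f := by
    intro f hf r hr
    rcases hall f hf with rfl | rfl | rfl | rfl
    · rw [one_mul, mul_one]
    · exact (hwc r).symm
    · exact hcu r hr
    · rw [mul_assoc, ← hwc r, ← mul_assoc, hcu r hr, mul_assoc]
  -- the whole group centralizes the kernel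
  have hCn : (centralizer (C.Phi : Set Y)).Normal := by
    refine ⟨fun n hn x => ?_⟩
    rw [Subgroup.mem_centralizer_iff] at hn ⊢
    intro f hf
    have hf' : x⁻¹ * f * x ∈ C.Phi := by
      have := C.Phi_conj hf x⁻¹
      simpa using this
    have h1 := hn _ hf'
    calc f * (x * n * x⁻¹) = x * ((x⁻¹ * f * x) * n) * x⁻¹ := by group
      _ = x * (n * (x⁻¹ * f * x)) * x⁻¹ := by rw [h1]
      _ = (x * n * x⁻¹) * f := by group
  have hCtop := C.hgen _ hCn (by
    intro r hr
    rw [Subgroup.mem_centralizer_iff]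
    intro f hf
    exact hcen f hf r hr) (by
    rw [Subgroup.mem_centralizer_iff]
    intro f hf
    calc f * C.g = (C.g * f * C.g⁻¹) * C.g := by rw [hgP f hf]
      _ = C.g * f := by group)
  have hfix : ∀ f ∈ C.Phi, ∀ y, y * f * y⁻¹ = f := by
    intro f hf y
    have h1 : y ∈ centralizer (C.Phi : Set Y) := by
      rw [hCtop]; exact mem_top _
    rw [Subgroup.mem_centralizer_iff] at h1
    have h3 := h1 f hf
    rw [← h3]
    group
  -- a subgroup of order two
  have hE : ∀ e ∈ C.Phi, e * e = 1 → (∀ r ∈ C.R, r * r = 1 ∨ r * r = e) → False := by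
    intro e he hee hsqe
    let E : Subgroup Y :=
      { carrier := {f | f = 1 ∨ f = e}
        one_mem' := Or.inl rfl
        mul_mem' := by
          rintro a b (rfl | rfl) (rfl | rfl)
          · left; rw [one_mul]
          · right; rw [one_mul]
          · right; rw [mul_one]
          · left; exact hee
        inv_mem' := by
          rintro a (rfl | rfl)
          · left; rw [inv_one]
          · right; exact inv_eq_of_mul_eq_one_left hee }
    have h1 := C.hsq E (fun r hr => hsqe r hr)
    have h3 : Nat.card C.Phi ≤ 2 := card_le_two_of (e := e) (fun f hf => h1 f hf.1 hf.2)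
    omega
  -- the exponent of the kernel
  have hPcomm : ∀ a ∈ C.Phi, ∀ b ∈ C.Phi, a * b = b * a := fun a ha b hb => hcen a ha b hb.1
  have huu : u * u = 1 := by
    by_contra huu
    have huu' : u * u = w := by
      rcases hall _ (C.Phi.mul_mem huP huP) with h | h | h | h
      · exact absurd h huu
      · exact h
      · exact absurd (mul_eq_left.1 h) hu1
      · exact absurd (mul_left_cancel h) huw
    have hKK : ∀ r ∈ C.R, ∀ s ∈ C.R, KK r s = 1 ∨ KK r s = w := by
      intro r hr s hs
      have hk := C.KK_mem hr hs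
      have hkk : KK r s * KK r s = 1 := by
        have h1 : (r⁻¹ * s * r) * (r⁻¹ * s * r) = s * s := by
          have h3 := hfix _ (C.sq_mem hs) r⁻¹
          rw [inv_inv] at h3
          calc (r⁻¹ * s * r) * (r⁻¹ * s * r) = r⁻¹ * (s * s) * r := by group
            _ = s * s := h3
        rw [conj_eq_KK] at h1
        have h3 : (KK r s * s) * (KK r s * s) = (KK r s * KK r s) * (s * s) := by
          calc (KK r s * s) * (KK r s * s) = KK r s * (s * KK r s) * s := by group
            _ = KK r s * (KK r s * s) * s := by rw [hcen _ hk s hs]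
            _ = _ := by group
        rw [h3] at h1
        exact mul_eq_right.1 h1
      rcases hall _ hk with h | h | h | h
      · exact Or.inl h
      · exact Or.inr h
      · exfalso
        rw [h] at hkk
        exact huu hkk
      · exfalso
        rw [h] at hkk
        have h5 : (u * w) * (u * w) = u * u := by
          calc (u * w) * (u * w) = (u * u) * (w * w) := by
                rw [mul_assoc, mul_assoc, ← mul_assoc w, ← hwc u]
                group
            _ = u * u := by rw [hww, mul_one]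
        rw [h5] at hkk
        exact huu hkk
    let W2 : Subgroup Y :=
      { carrier := {f | f = 1 ∨ f = w}
        one_mem' := Or.inl rfl
        mul_mem' := by
          rintro a b (rfl | rfl) (rfl | rfl)
          · left; rw [one_mul]
          · right; rw [one_mul]
          · right; rw [mul_one]
          · left; exact hww
        inv_mem' := by
          rintro a (rfl | rfl)
          · left; rw [inv_one]
          · right; exact inv_eq_of_mul_eq_one_left hww }
    have hmul : ∀ r ∈ C.R, ∀ s ∈ C.R, (r * s) * (r * s) = (r * r) * (s * s) * KK r s := by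
      intro r hr s hs
      rw [C.sq_formula hcen hr hs, mul_assoc (r * r), hcen _ (C.KK_mem hr hs) _ (C.R.mul_mem hs hs),
        ← mul_assoc (r * r)]
    let S2 : Subgroup Y :=
      { carrier := {r | r ∈ C.R ∧ r * r ∈ W2}
        one_mem' := ⟨C.R.one_mem, by rw [one_mul]; exact W2.one_mem⟩
        mul_mem' := by
          rintro a b ⟨ha, ha'⟩ ⟨hb, hb'⟩
          refine ⟨C.R.mul_mem ha hb, ?_⟩
          rw [hmul a ha b hb]
          exact W2.mul_mem (W2.mul_mem ha' hb') (hKK a ha b hb)
        inv_mem' := by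
          rintro a ⟨ha, ha'⟩
          refine ⟨C.R.inv_mem ha, ?_⟩
          have h1 : a⁻¹ * a⁻¹ = (a * a)⁻¹ := by group
          rw [h1]
          exact W2.inv_mem ha' }
    have hS2 := C.top_of_index2 S2 (fun r hr => hr.1) (by
      rintro s ⟨hs, hs'⟩
      refine ⟨C.conj_mem hs _, ?_⟩
      have h1 : (C.g * s * C.g⁻¹) * (C.g * s * C.g⁻¹) = C.g * (s * s) * C.g⁻¹ := by group
      rw [h1, hgP _ (C.sq_mem hs)]
      exact hs') (by
      intro a ha b hb haS hbS
      refine ⟨C.R.mul_mem ha hb, ?_⟩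
      rw [hmul a ha b hb]
      refine W2.mul_mem ?_ (hKK a ha b hb)
      have hnot : ∀ x ∈ C.R, x ∉ S2 → x * x = u ∨ x * x = u * w := by
        intro x hx hxS
        rcases hall _ (C.sq_mem hx) with h | h | h | h
        · exact absurd ⟨hx, Or.inl h⟩ hxS
        · exact absurd ⟨hx, Or.inr h⟩ hxS
        · exact Or.inl h
        · exact Or.inr h
      have h1 : u * (u * w) = 1 := by rw [← mul_assoc, huu', hww]
      have h3 : u * w * u = 1 := by rw [mul_assoc, ← hwc u, ← mul_assoc, huu', hww]
      have h4 : u * w * (u * w) = w := by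
        rw [mul_assoc, ← mul_assoc w, ← hwc u, mul_assoc u w w, hww, mul_one, huu']
      rcases hnot a ha haS with p | p <;> rcases hnot b hb hbS with q | q <;> rw [p, q]
      · exact Or.inr huu'
      · exact Or.inl h1
      · exact Or.inl h3
      · exact Or.inr h4)
    have h1 := C.hsq W2 (fun r hr => (hS2 r hr).2) u huP.1 huP.2
    rcases h1 with h | h
    · exact hu1 h
    · exact huw h
  have hexp : ∀ f ∈ C.Phi, f * f = 1 := by
    intro f hf
    rcases hall f hf with rfl | rfl | rfl | rfl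
    · rw [one_mul]
    · exact hww
    · exact huu
    · calc (u * w) * (u * w) = (u * u) * (w * w) := by
            rw [mul_assoc, mul_assoc, ← mul_assoc w, ← hwc u]
            group
        _ = 1 := by rw [huu, hww, one_mul]
  have hsq_eq : ∀ r ∈ C.R, ∀ s ∈ C.R, C.c r = C.c s → r * r = s * s := by
    intro r hr s hs h
    have hf := (C.c_eq_iff hr hs).1 h
    obtain ⟨f, hfd⟩ : ∃ f, f = r⁻¹ * s := ⟨_, rfl⟩
    rw [← hfd] at hf
    have hsr : s = r * f := by rw [hfd]; group
    rw [hsr]
    calc r * r = r * r * (f * f) := by rw [hexp f hf, mul_one]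
      _ = r * (r * f) * f := by group
      _ = r * (f * r) * f := by rw [hcen f hf r hr]
      _ = r * f * (r * f) := by group
  -- level sets
  let L : Y → Set V := fun f => {v | v ≠ 1 ∧ ∃ r ∈ C.R, C.c r = v ∧ r * r = f}
  have hLinv : ∀ x f, f ∈ C.Phi → ∀ v ∈ L f, C.α x v ∈ L f := by
    rintro x f hf v ⟨hv, r, hr, rfl, hrr⟩
    refine ⟨?_, x * r * x⁻¹, C.conj_mem hr x, (C.α_c x r hr).symm, ?_⟩
    · intro h
      apply hv
      exact (map_eq_one_iff _ (C.α x).injective).1 h
    · calc (x * r * x⁻¹) * (x * r * x⁻¹) = x * (r * r) * x⁻¹ := by group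
        _ = f := by rw [hrr]; exact hfix f hf x
  have h5 : ∀ f ∈ C.Phi, 5 ∣ (L f).ncard := by
    intro f hf
    haveI : Fact (Nat.Prime 5) := ⟨by norm_num⟩
    have h := card_mod 5 (L f) (C.α C.g) (hLinv _ f hf) (fun a _ => C.g5ap a)
    have he : {a | a ∈ L f ∧ C.α C.g a = a} = ∅ := by
      ext a
      simp only [Set.mem_setOf_eq, Set.mem_empty_iff_false, iff_false, not_and]
      intro ha h1
      exact ha.1 (C.g_fpf h1)
    rw [he, Set.ncard_empty] at h
    exact Nat.modEq_zero_iff_dvd.1 h
  have hdisj : ∀ {f f'}, f ≠ f' → Disjoint (L f) (L f') := by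
    intro f f' hff
    rw [Set.disjoint_left]
    rintro v ⟨_, r, hr, rfl, hrr⟩ ⟨_, s, hs, hc, hss⟩
    apply hff
    rw [← hrr, ← hss]
    exact hsq_eq r hr s hs hc.symm
  have hT1 : ({v : V | v ≠ 1}).ncard = 15 := by
    have h1 := Set.ncard_add_ncard_compl ({1} : Set V)
    rw [Set.ncard_singleton, hV16] at h1
    have e : ({1} : Set V)ᶜ = {v : V | v ≠ 1} := rfl
    rw [e] at h1
    omega
  have hsubT : ∀ f, L f ⊆ {v : V | v ≠ 1} := fun f v hv => hv.1
  have hI : ∀ f1 ∈ C.Phi, ∀ f2 ∈ C.Phi, ∀ f3 ∈ C.Phi, f1 ≠ f2 → f1 ≠ f3 → f2 ≠ f3 →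
      (L f1).Nonempty → (L f2).Nonempty → (L f3).Nonempty → False := by
    intro f1 h1 f2 h2 f3 h3 h12 h13 h23 n1 n2 n3
    have hs := ncard3 (hdisj h12) (hdisj h13) (hdisj h23) (hsubT f1) (hsubT f2) (hsubT f3)
    rw [hT1] at hs
    have p1 : 5 ≤ (L f1).ncard := Nat.le_of_dvd ((Set.ncard_pos (Set.toFinite _)).2 n1) (h5 f1 h1)
    have p2 : 5 ≤ (L f2).ncard := Nat.le_of_dvd ((Set.ncard_pos (Set.toFinite _)).2 n2) (h5 f2 h2)
    have p3 : 5 ≤ (L f3).ncard := Nat.le_of_dvd ((Set.ncard_pos (Set.toFinite _)).2 n3) (h5 f3 h3)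
    have e1 : (L f1).ncard = 5 := by omega
    have e2 : (L f2).ncard = 5 := by omega
    have e3 : (L f3).ncard = 5 := by omega
    haveI : Fact (Nat.Prime 3) := ⟨by norm_num⟩
    have m1 := card_mod 3 (L f1) (C.α C.d) (hLinv _ f1 h1) (fun a _ => C.d3ap a)
    have m2 := card_mod 3 (L f2) (C.α C.d) (hLinv _ f2 h2) (fun a _ => C.d3ap a)
    have m3 := card_mod 3 (L f3) (C.α C.d) (hLinv _ f3 h3) (fun a _ => C.d3ap a)
    rw [e1] at m1
    rw [e2] at m2
    rw [e3] at m3
    unfold Nat.ModEq at m1 m2 m3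
    have q1 : 2 ≤ ({a | a ∈ L f1 ∧ C.α C.d a = a}).ncard := by omega
    have q2 : 2 ≤ ({a | a ∈ L f2 ∧ C.α C.d a = a}).ncard := by omega
    have q3 : 2 ≤ ({a | a ∈ L f3 ∧ C.α C.d a = a}).ncard := by omega
    have hsubF : ∀ f, {a | a ∈ L f ∧ C.α C.d a = a} ⊆ {w | w ∈ ((⊤ : Subgroup V) : Set V) ∧
        (C.α C.d).toMonoidHom w = w} := by
      intro f a ha
      exact ⟨Subgroup.mem_top _, ha.2⟩
    have hdis : ∀ {f f'}, f ≠ f' → Disjoint {a | a ∈ L f ∧ C.α C.d a = a}
        {a | a ∈ L f' ∧ C.α C.d a = a} := by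
      intro f f' hff
      exact Set.disjoint_of_subset (fun a ha => ha.1) (fun a ha => ha.1) (hdisj hff)
    have hs2 := ncard3 (hdis h12) (hdis h13) (hdis h23) (hsubF f1) (hsubF f2) (hsubF f3)
    rcases dich3 (C.α C.d).toMonoidHom ⊤ C.isP (by rw [Subgroup.card_top]; exact hV16)
      (fun _ _ => Subgroup.mem_top _) (fun v _ => C.d3ap v) with hd | hd
    · exact C.α_ne C.d_notin (by ext v; exact hd v (Subgroup.mem_top _))
    · omega
  have hX : ∀ a ∈ C.Phi, ∀ b ∈ C.Phi, a ≠ 1 → b ≠ 1 → a ≠ b →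
      (∀ r ∈ C.R, C.c r ≠ 1 → r * r = a ∨ r * r = b) → False := by
    intro a ha b hb ha1 hb1 hab hall2
    have hav : ∀ s : Finset V, s.card < 16 → ∃ v, v ∉ s := by
      intro s hs
      by_contra hcon
      push_neg at hcon
      have h1 : Nat.card V ≤ s.card := by
        letI := Fintype.ofFinite V
        rw [Nat.card_eq_fintype_card, ← Finset.card_univ]
        exact Finset.card_le_card (fun v _ => hcon v)
      omega
    obtain ⟨v1, hv1⟩ := hav {1} (by simp)
    obtain ⟨v2, hv2⟩ := hav {1, v1} (lt_of_le_of_lt Finset.card_le_two (by norm_num))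
    obtain ⟨v3, hv3⟩ := hav {1, v1, v2, v1 * v2} (lt_of_le_of_lt Finset.card_le_four (by norm_num))
    simp only [Finset.mem_insert, Finset.mem_singleton, not_or] at hv1 hv2 hv3
    obtain ⟨x, hx, rfl⟩ := C.c_surj v1
    obtain ⟨y, hy, rfl⟩ := C.c_surj v2
    obtain ⟨z, hz, rfl⟩ := C.c_surj v3
    have hcomm : a * b = b * a := hPcomm a ha b hb
    have hval : ∀ r ∈ C.R, ∀ s ∈ C.R, C.c r ≠ 1 → C.c s ≠ 1 → C.c r ≠ C.c s →
        KK r s = a ∨ KK r s = b := by
      intro r hr s hs h1 h2 h3
      have hrs : C.c (r * s) ≠ 1 := by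
        rw [C.c_mul r hr s hs]
        intro h
        apply h3
        have h6 := C.h2 (C.c r)
        exact mul_left_cancel (a := C.c r) (by rw [h6, h])
      have hf := C.sq_formula hcen hr hs
      have hKe : KK r s = (r * r) * ((r * s) * (r * s)) * (s * s) := by
        rw [hf]
        calc KK r s = (r * r) * (r * r) * KK r s * ((s * s) * (s * s)) := by
              rw [hexp _ (C.sq_mem hr), hexp _ (C.sq_mem hs), one_mul, mul_one]
          _ = _ := by group
      rw [hKe]
      exact tri (hexp a ha) (hexp b hb) hcomm (hall2 r hr h1) (hall2 s hs h2)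
        (hall2 _ (C.R.mul_mem hr hs) hrs)
    have hxy := hval x hx y hy hv1 hv2.1 (fun h => hv2.2 h.symm)
    have hxz := hval x hx z hz hv1 hv3.1 (fun h => hv3.2.1 h.symm)
    have hyz1 : C.c (y * z) ≠ 1 := by
      rw [C.c_mul y hy z hz]
      intro h
      apply hv3.2.2.1
      have h6 := C.h2 (C.c y)
      exact mul_left_cancel (a := C.c y) (by rw [h6, h])
    have hyz2 : C.c x ≠ C.c (y * z) := by
      rw [C.c_mul y hy z hz]
      intro h
      apply hv3.2.2.2
      rw [h, mul_comm (C.c y), mul_assoc, C.h2, mul_one]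
    have hxyz := hval x hx (y * z) (C.R.mul_mem hy hz) hv1 hyz1 hyz2
    rw [C.KK_mul hcen hx hy hz] at hxyz
    have haa := hexp a ha
    have hbb := hexp b hb
    rcases hxy with p | p <;> rcases hxz with q | q <;> rw [p, q] at hxyz
    · rw [haa] at hxyz
      rcases hxyz with h | h
      · exact ha1 h.symm
      · exact hb1 h.symm
    · rcases hxyz with h | h
      · exact hb1 (mul_eq_left.1 h)
      · exact ha1 (mul_eq_right.1 h)
    · rcases hxyz with h | h
      · exact hb1 (mul_eq_right.1 h)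
      · exact ha1 (mul_eq_left.1 h)
    · rw [hbb] at hxyz
      rcases hxyz with h | h
      · exact ha1 h.symm
      · exact hb1 h.symm
  -- the final case division
  have hc1 : ∀ r ∈ C.R, C.c r = 1 → r * r = 1 := fun r hr h => hexp r ⟨hr, h⟩
  have hemp : ∀ f, ¬ (L f).Nonempty → ∀ r ∈ C.R, r * r = f → r * r = 1 := by
    intro f hf r hr h
    by_cases hcr : C.c r = 1
    · exact hc1 r hr hcr
    · exact absurd ⟨C.c r, hcr, r, hr, rfl, h⟩ hf
  have hemp2 : ∀ f, ¬ (L f).Nonempty → ∀ r ∈ C.R, C.c r ≠ 1 → r * r ≠ f := by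
    intro f hf r hr hcr h
    exact hf ⟨C.c r, hcr, r, hr, rfl, h⟩
  have hone : (1 : Y) ∈ C.Phi := C.Phi.one_mem
  have hvals : ∀ r ∈ C.R, r * r = 1 ∨ r * r = w ∨ r * r = u ∨ r * r = u * w :=
    fun r hr => hall _ (C.sq_mem hr)
  by_cases n2 : (L w).Nonempty <;> by_cases n3 : (L u).Nonempty <;>
    by_cases n4 : (L (u * w)).Nonempty
  · exact hI w hwP u huP _ huwP huw.symm huw2.symm huw3.symm n2 n3 n4
  · by_cases n1 : (L 1).Nonempty
    · exact hI 1 hone w hwP u huP hw1.symm hu1.symm huw.symm n1 n2 n3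
    · refine hX w hwP u huP hw1 hu1 huw.symm (fun r hr hcr => ?_)
      rcases hvals r hr with h | h | h | h
      · exact absurd h (hemp2 1 n1 r hr hcr)
      · exact Or.inl h
      · exact Or.inr h
      · exact absurd h (hemp2 _ n4 r hr hcr)
  · by_cases n1 : (L 1).Nonempty
    · exact hI 1 hone w hwP _ huwP hw1.symm huw1.symm huw2.symm n1 n2 n4
    · refine hX w hwP _ huwP hw1 huw1 huw2.symm (fun r hr hcr => ?_)
      rcases hvals r hr with h | h | h | h
      · exact absurd h (hemp2 1 n1 r hr hcr)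
      · exact Or.inl h
      · exact absurd h (hemp2 _ n3 r hr hcr)
      · exact Or.inr h
  · refine hE w hwP hww (fun r hr => ?_)
    rcases hvals r hr with h | h | h | h
    · exact Or.inl h
    · exact Or.inr h
    · exact Or.inl (hemp _ n3 r hr h)
    · exact Or.inl (hemp _ n4 r hr h)
  · by_cases n1 : (L 1).Nonempty
    · exact hI 1 hone u huP _ huwP hu1.symm huw1.symm huw3.symm n1 n3 n4
    · refine hX u huP _ huwP hu1 huw1 huw3.symm (fun r hr hcr => ?_)
      rcases hvals r hr with h | h | h | h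
      · exact absurd h (hemp2 1 n1 r hr hcr)
      · exact absurd h (hemp2 _ n2 r hr hcr)
      · exact Or.inl h
      · exact Or.inr h
  · refine hE u huP huu (fun r hr => ?_)
    rcases hvals r hr with h | h | h | h
    · exact Or.inl h
    · exact Or.inl (hemp _ n2 r hr h)
    · exact Or.inr h
    · exact Or.inl (hemp _ n4 r hr h)
  · refine hE _ huwP (hexp _ huwP) (fun r hr => ?_)
    rcases hvals r hr with h | h | h | h
    · exact Or.inl h
    · exact Or.inl (hemp _ n2 r hr h)
    · exact Or.inl (hemp _ n3 r hr h)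
    · exact Or.inr h
  · refine hE w hwP hww (fun r hr => ?_)
    rcases hvals r hr with h | h | h | h
    · exact Or.inl h
    · exact Or.inr h
    · exact Or.inl (hemp _ n3 r hr h)
    · exact Or.inl (hemp _ n4 r hr h)

end Cfsg.Agent.Lib.Sect4.A5Base.Ctx
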