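import Cfsg.Agent.Lib.Sect4.A5Main
import Cfsg.Agent.Lib.Sect4.A5Basis

/-!
# Identification of the `2`-group when the kernel has order at most two
-/

set_option autoImplicit false
set_option linter.unusedSectionVars false
set_option linter.unusedVariables false

namespace Cfsg.Agent.Lib.Sect4.A5Base.Ctx

open Subgroup Cfsg.Agent.Lib.Sect4.A5Basis

universe u v

variable {Y : Type u} {V : Type v} [Group Y] [CommGroup V] [Finite Y] [Finite V] (C : Ctx Y V)

/-- Selecting an element by a bit. -/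
def sel {Y : Type u} [Group Y] (ε : Bool) (u : Y) : Y := if ε then u else 1

theorem sel_mem {S : Subgroup Y} (ε : Bool) {u : Y} (h : u ∈ S) : sel ε u ∈ S := by
  cases ε
  · exact S.one_mem
  · exact h

theorem card_R : Nat.card C.R = Nat.card C.Phi * 16 := by
  have h1 := Subgroup.relIndex_mul_relIndex (⊥ : Subgroup Y) C.Phi C.R bot_le C.Phi_le
  rw [Subgroup.relIndex_bot_left, Subgroup.relIndex_bot_left] at h1
  rw [← h1]
  congr 1
  let f : C.R →* V := MonoidHom.mk' (fun r => C.c r.1) (fun a b => C.c_mul _ a.2 _ b.2)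
  have hk : f.ker = C.Phi.subgroupOf C.R := by
    ext r
    rw [MonoidHom.mem_ker, Subgroup.mem_subgroupOf]
    constructor
    · intro h
      exact ⟨r.2, h⟩
    · intro h
      exact h.2
  have h3 : C.Phi.relIndex C.R = Nat.card f.range := by
    rw [← Subgroup.index_ker, hk]
    rfl
  rw [h3]
  have hs : f.range = ⊤ := by
    rw [eq_top_iff]
    intro v _
    obtain ⟨r, hr, rfl⟩ := C.c_surj v
    exact ⟨⟨r, hr⟩, rfl⟩
  rw [hs, Subgroup.card_top, C.card_V]

/-- A nontrivial `g`-invariant subgroup above the kernel is everything. -/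
theorem top_of_mem (S : Subgroup Y) (hSR : S ≤ C.R) (hg : ∀ s ∈ S, C.g * s * C.g⁻¹ ∈ S)
    (hPhi : C.Phi ≤ S) {s0 : Y} (hs0 : s0 ∈ S) (hs1 : C.c s0 ≠ 1) : ∀ r ∈ C.R, r ∈ S := by
  let A : Subgroup V :=
    { carrier := {v | ∃ s ∈ S, C.c s = v}
      one_mem' := ⟨1, S.one_mem, C.c_one⟩
      mul_mem' := by
        rintro _ _ ⟨a, ha, rfl⟩ ⟨b, hb, rfl⟩
        exact ⟨a * b, S.mul_mem ha hb, C.c_mul a (hSR ha) b (hSR hb)⟩
      inv_mem' := by
        rintro _ ⟨a, ha, rfl⟩
        refine ⟨a, ha, ?_⟩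
        have h3 := C.h2 (C.c a)
        exact (inv_eq_of_mul_eq_one_left h3).symm }
  rcases C.irr A (by
    rintro _ ⟨s, hs, rfl⟩
    exact ⟨C.g * s * C.g⁻¹, hg s hs, (C.α_c C.g s (hSR hs)).symm⟩) with hA | hA
  · exfalso
    have h5 : C.c s0 ∈ A := ⟨s0, hs0, rfl⟩
    rw [hA] at h5
    exact hs1 (Subgroup.mem_bot.1 h5)
  · intro r hr
    have h5 : C.c r ∈ A := by
      rw [hA]; exact Subgroup.mem_top _
    obtain ⟨s, hs, hsr⟩ := h5
    have h6 : s⁻¹ * r ∈ C.Phi := (C.c_eq_iff (hSR hs) hr).1 hsr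
    have h7 := S.mul_mem hs (hPhi h6)
    simpa using h7

/-- The kernel of order two. -/
theorem ident2 (h2 : Nat.card C.Phi = 2) :
    Nat.card C.R = 32 ∧ ∃ A B : Subgroup C.R, Nonempty (A ≃* QuaternionGroup 2) ∧
      Nonempty (B ≃* DihedralGroup 4) ∧ (∀ a ∈ A, ∀ b ∈ B, a * b = b * a) ∧ A ⊔ B = ⊤ ∧
        A ⊓ B = Subgroup.center C.R := by
  classical
  have hV16 := C.card_V
  refine ⟨by rw [C.card_R, h2], ?_⟩
  obtain ⟨z, hzP, hz1⟩ : ∃ z ∈ C.Phi, z ≠ 1 := by
    by_contra hcon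
    push_neg at hcon
    have h1 : C.Phi = ⊥ := by
      rw [eq_bot_iff]
      intro f hf
      exact Subgroup.mem_bot.2 (hcon f hf)
    rw [h1, Subgroup.card_bot] at h2
    omega
  have hPz : ∀ f ∈ C.Phi, f = 1 ∨ f = z := by
    by_contra hcon
    push_neg at hcon
    obtain ⟨f, hf, hf1, hfz⟩ := hcon
    have hle : (({1, z, f} : Finset Y) : Set Y).ncard ≤ (C.Phi : Set Y).ncard := by
      apply Set.ncard_le_ncard _ (Set.toFinite _)
      intro a ha
      simp only [Finset.coe_insert, Finset.coe_singleton, Set.mem_insert_iff,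
        Set.mem_singleton_iff] at ha
      rcases ha with rfl | rfl | rfl
      · exact C.Phi.one_mem
      · exact hzP
      · exact hf
    have hcard : (({1, z, f} : Finset Y)).card = 3 := by
      rw [Finset.card_insert_of_notMem, Finset.card_insert_of_notMem, Finset.card_singleton]
      · simp only [Finset.mem_singleton]
        exact fun h => hfz h.symm
      · simp only [Finset.mem_insert, Finset.mem_singleton, not_or]
        exact ⟨fun h => hz1 h.symm, fun h => hf1 h.symm⟩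
    rw [Set.ncard_coe_finset, hcard] at hle
    have h5 : (C.Phi : Set Y).ncard = Nat.card C.Phi := (Nat.card_coe_set_eq _).symm
    omega
  have hzz : z * z = 1 := by
    rcases hPz _ (C.Phi.mul_mem hzP hzP) with h | h
    · exact h
    · exact absurd (mul_eq_left.1 h) hz1
  have hzc : ∀ y, y * z = z * y := by
    intro y
    have h1 : y * z * y⁻¹ = z := by
      rcases hPz _ (C.Phi_conj hzP y) with h | h
      · exact absurd (conj_eq_one_iff.1 h) hz1
      · exact h
    calc y * z = (y * z * y⁻¹) * y := by group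
      _ = z * y := by rw [h1]
  have hcen : ∀ f ∈ C.Phi, ∀ r ∈ C.R, f * r = r * f := by
    intro f hf r _
    rcases hPz f hf with rfl | rfl
    · rw [one_mul, mul_one]
    · exact (hzc r).symm
  have hexpP : ∀ f ∈ C.Phi, f * f = 1 := by
    intro f hf
    rcases hPz f hf with rfl | rfl
    · rw [one_mul]
    · exact hzz
  have hK : ∀ r ∈ C.R, ∀ s ∈ C.R, KK r s = 1 ∨ KK r s = z :=
    fun r hr s hs => hPz _ (C.KK_mem hr hs)
  have hK1 : ∀ r s : Y, KK r s = 1 ↔ r * s = s * r := by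
    intro r s
    unfold KK
    constructor
    · intro h
      have h1 : s * r = r * s := by
        calc s * r = r * (r⁻¹ * s * r * s⁻¹) * s := by group
          _ = r * s := by rw [h, mul_one]
      exact h1.symm
    · intro h
      calc r⁻¹ * s * r * s⁻¹ = r⁻¹ * (s * r) * s⁻¹ := by group
        _ = r⁻¹ * (r * s) * s⁻¹ := by rw [h]
        _ = 1 := by group
  have hKsymm : ∀ r ∈ C.R, ∀ s ∈ C.R, KK r s = KK s r := by
    intro r hr s hs
    by_cases h : r * s = s * r
    · rw [(hK1 r s).2 h, (hK1 s r).2 h.symm]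
    · have h1 : KK r s = z := (hK r hr s hs).resolve_left (fun h' => h ((hK1 r s).1 h'))
      have h3 : KK s r = z := (hK s hs r hr).resolve_left (fun h' => h ((hK1 s r).1 h').symm)
      rw [h1, h3]
  have hKself : ∀ r : Y, KK r r = 1 := fun r => (hK1 r r).2 rfl
  have hKmulR : ∀ r ∈ C.R, ∀ s ∈ C.R, ∀ s' ∈ C.R, KK r (s * s') = KK r s * KK r s' :=
    fun r hr s hs s' hs' => C.KK_mul hcen hr hs hs'
  have hKmulL : ∀ r ∈ C.R, ∀ r' ∈ C.R, ∀ s ∈ C.R, KK (r * r') s = KK r s * KK r' s := by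
    intro r hr r' hr' s hs
    rw [hKsymm _ (C.R.mul_mem hr hr') s hs, hKmulR s hs r hr r' hr', hKsymm s hs r hr,
      hKsymm s hs r' hr']
  -- radical
  have hrad : ∀ r ∈ C.R, C.c r ≠ 1 → ∃ s ∈ C.R, KK r s = z := by
    intro r hr hcr
    by_contra hcon
    push_neg at hcon
    have hr1 : ∀ s ∈ C.R, r * s = s * r := by
      intro s hs
      rcases hK r hr s hs with h | h
      · exact (hK1 r s).1 h
      · exact absurd h (hcon s hs)
    let Cn : Subgroup Y :=
      { carrier := {r | r ∈ C.R ∧ ∀ s ∈ C.R, r * s = s * r}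
        one_mem' := ⟨C.R.one_mem, fun s _ => by rw [one_mul, mul_one]⟩
        mul_mem' := by
          rintro a b ⟨ha, ha'⟩ ⟨hb, hb'⟩
          refine ⟨C.R.mul_mem ha hb, fun s hs => ?_⟩
          rw [mul_assoc, hb' s hs, ← mul_assoc, ha' s hs, mul_assoc]
        inv_mem' := by
          rintro a ⟨ha, ha'⟩
          refine ⟨C.R.inv_mem ha, fun s hs => ?_⟩
          have h1 := ha' s hs
          calc a⁻¹ * s = a⁻¹ * (s * a) * a⁻¹ := by group
            _ = a⁻¹ * (a * s) * a⁻¹ := by rw [h1]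
            _ = s * a⁻¹ := by group }
    have hall := C.top_of_mem Cn (fun a ha => ha.1) (by
      rintro a ⟨ha, ha'⟩
      refine ⟨C.conj_mem ha _, fun s hs => ?_⟩
      have h1 := ha' (C.g⁻¹ * s * C.g) (by
        have := C.conj_mem hs C.g⁻¹
        simpa using this)
      calc C.g * a * C.g⁻¹ * s = C.g * (a * (C.g⁻¹ * s * C.g)) * C.g⁻¹ := by group
        _ = C.g * ((C.g⁻¹ * s * C.g) * a) * C.g⁻¹ := by rw [h1]
        _ = s * (C.g * a * C.g⁻¹) := by group) (fun f hf => ⟨hf.1, hcen f hf⟩)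
      (s0 := r) ⟨hr, hr1⟩ hcr
    -- the group is abelian, and squaring gives a contradiction
    have hcomm : ∀ a ∈ C.R, ∀ b ∈ C.R, a * b = b * a := fun a ha b hb => (hall a ha).2 b hb
    let S2 : Subgroup Y :=
      { carrier := {r | r ∈ C.R ∧ r * r = 1}
        one_mem' := ⟨C.R.one_mem, one_mul 1⟩
        mul_mem' := by
          rintro a b ⟨ha, ha'⟩ ⟨hb, hb'⟩
          refine ⟨C.R.mul_mem ha hb, ?_⟩
          calc a * b * (a * b) = a * (b * a) * b := by group
            _ = a * (a * b) * b := by rw [hcomm b hb a ha]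
            _ = (a * a) * (b * b) := by group
            _ = 1 := by rw [ha', hb', one_mul]
        inv_mem' := by
          rintro a ⟨ha, ha'⟩
          refine ⟨C.R.inv_mem ha, ?_⟩
          rw [← mul_inv_rev, ha', inv_one] }
    have hS2 := C.top_of_index2 S2 (fun a ha => ha.1) (by
      rintro a ⟨ha, ha'⟩
      refine ⟨C.conj_mem ha _, ?_⟩
      calc (C.g * a * C.g⁻¹) * (C.g * a * C.g⁻¹) = C.g * (a * a) * C.g⁻¹ := by group
        _ = 1 := by rw [ha']; group) (by
      intro a ha b hb haS hbS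
      refine ⟨C.R.mul_mem ha hb, ?_⟩
      have hnot : ∀ x ∈ C.R, x ∉ S2 → x * x = z := by
        intro x hx hxS
        rcases hPz _ (C.sq_mem hx) with h | h
        · exact absurd ⟨hx, h⟩ hxS
        · exact h
      calc a * b * (a * b) = a * (b * a) * b := by group
        _ = a * (a * b) * b := by rw [hcomm b hb a ha]
        _ = (a * a) * (b * b) := by group
        _ = 1 := by rw [hnot a ha haS, hnot b hb hbS, hzz])
    have h1 := C.hsq ⊥ (fun r hr => Subgroup.mem_bot.2 (hS2 r hr).2) z hzP.1 hzP.2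
    exact hz1 (Subgroup.mem_bot.1 h1)
  -- first pair
  obtain ⟨v1, v1b, hv1, _, _⟩ := C.exists_pair
  obtain ⟨x, hx, hcx⟩ := C.c_surj v1
  obtain ⟨y, hy, hxy⟩ := hrad x hx (by rw [hcx]; exact hv1)
  have hyx : KK y x = z := by rw [← hKsymm x hx y hy]; exact hxy
  have hKxx := hKself x
  have hKyy := hKself y
  have hadj : ∀ r ∈ C.R, ∃ p ∈ C.R, (p = 1 ∨ p = x ∨ p = y ∨ p = x * y) ∧ KK x (r * p) = 1 ∧
      KK y (r * p) = 1 := by
    intro r hr
    rcases hK x hx r hr with h1 | h1 <;> rcases hK y hy r hr with h3 | h3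
    · refine ⟨1, C.R.one_mem, Or.inl rfl, ?_, ?_⟩ <;> rw [mul_one] <;> assumption
    · refine ⟨x, hx, Or.inr (Or.inl rfl), ?_, ?_⟩
      · rw [hKmulR x hx r hr x hx, h1, hKxx, mul_one]
      · rw [hKmulR y hy r hr x hx, h3, hyx, hzz]
    · refine ⟨y, hy, Or.inr (Or.inr (Or.inl rfl)), ?_, ?_⟩
      · rw [hKmulR x hx r hr y hy, h1, hxy, hzz]
      · rw [hKmulR y hy r hr y hy, h3, hKyy, mul_one]
    · refine ⟨x * y, C.R.mul_mem hx hy, Or.inr (Or.inr (Or.inr rfl)), ?_, ?_⟩
      · rw [hKmulR x hx r hr _ (C.R.mul_mem hx hy), hKmulR x hx x hx y hy, h1, hKxx, hxy, one_mul,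
          hzz]
      · rw [hKmulR y hy r hr _ (C.R.mul_mem hx hy), hKmulR y hy x hx y hy, h3, hyx, hKyy, mul_one,
          hzz]
  have hav : ∀ s : Finset V, s.card < 16 → ∃ v, v ∉ s := by
    intro s hs
    by_contra hcon
    push_neg at hcon
    have h1 : Nat.card V ≤ s.card := by
      letI := Fintype.ofFinite V
      rw [Nat.card_eq_fintype_card, ← Finset.card_univ]
      exact Finset.card_le_card (fun v _ => hcon v)
    omega
  obtain ⟨v, hv⟩ := hav {1, C.c x, C.c y, C.c x * C.c y}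
    (lt_of_le_of_lt Finset.card_le_four (by norm_num))
  simp only [Finset.mem_insert, Finset.mem_singleton, not_or] at hv
  obtain ⟨r0, hr0, rfl⟩ := C.c_surj v
  obtain ⟨p, hp, hpval, hxa0, hya0⟩ := hadj r0 hr0
  obtain ⟨a, hadef⟩ : ∃ a, a = r0 * p := ⟨_, rfl⟩
  rw [← hadef] at hxa0 hya0
  have ha : a ∈ C.R := by rw [hadef]; exact C.R.mul_mem hr0 hp
  have hca : C.c a ≠ 1 := by
    intro h
    rw [hadef, C.c_mul r0 hr0 p hp] at h
    have h3 : C.c r0 = C.c p := by
      have h6 := C.h2 (C.c r0)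
      exact mul_left_cancel (a := C.c r0) (by rw [h6, h])
    rcases hpval with rfl | rfl | rfl | rfl
    · rw [C.c_one] at h3
      exact hv.1 h3
    · exact hv.2.1 h3
    · exact hv.2.2.1 h3
    · rw [C.c_mul x hx y hy] at h3
      exact hv.2.2.2 h3
  obtain ⟨s, hs, has⟩ := hrad a ha hca
  obtain ⟨p', hp', hpval', hxb0, hyb0⟩ := hadj s hs
  obtain ⟨b, hbdef⟩ : ∃ b, b = s * p' := ⟨_, rfl⟩
  rw [← hbdef] at hxb0 hyb0
  have hb : b ∈ C.R := by rw [hbdef]; exact C.R.mul_mem hs hp'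
  have hax : KK a x = 1 := by rw [hKsymm a ha x hx]; exact hxa0
  have hay : KK a y = 1 := by rw [hKsymm a ha y hy]; exact hya0
  have hbx : KK b x = 1 := by rw [hKsymm b hb x hx]; exact hxb0
  have hby : KK b y = 1 := by rw [hKsymm b hb y hy]; exact hyb0
  have hab : KK a b = z := by
    have h3 : KK a p' = 1 := by
      rcases hpval' with rfl | rfl | rfl | rfl
      · exact (hK1 _ _).2 (by rw [one_mul, mul_one])
      · exact hax
      · exact hay
      · rw [hKmulR a ha x hx y hy, hax, hay, one_mul]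
    rw [hbdef, hKmulR a ha s hs p' hp', has, h3, mul_one]
  have hba : KK b a = z := by rw [← hKsymm a ha b hb]; exact hab
  have hKaa := hKself a
  have hKbb := hKself b
  -- selections
  have hsel1 : ∀ ε : Bool, sel ε (1 : Y) = 1 := by
    intro ε
    cases ε <;> rfl
  have hselz : ∀ α β : Bool, sel α z * sel β z = sel (xor α β) z := by
    intro α β
    cases α <;> cases β
    · exact one_mul 1
    · exact one_mul z
    · exact mul_one z
    · exact hzz
  have hselinj : ∀ α β : Bool, sel α z = sel β z → α = β := by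
    intro α β h
    cases α <;> cases β
    · rfl
    · exact absurd h.symm hz1
    · exact absurd h hz1
    · rfl
  have hK1s : ∀ s : Y, KK 1 s = 1 := fun s => (hK1 _ _).2 (by rw [one_mul, mul_one])
  have hKs1 : ∀ s : Y, KK s 1 = 1 := fun s => (hK1 _ _).2 (by rw [one_mul, mul_one])
  have hKsel : ∀ (ε : Bool) (u s : Y), KK (sel ε u) s = sel ε (KK u s) := by
    intro ε u s
    cases ε
    · exact hK1s s
    · rfl
  have hKbil : ∀ (ε ζ : Bool) (u v : Y), KK (sel ε u) (sel ζ v) = sel (ε && ζ) (KK u v) := by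
    intro ε ζ u v
    cases ε <;> cases ζ
    · exact hK1s _
    · exact hK1s _
    · exact hKs1 _
    · rfl
  let W : Bool × Bool × Bool × Bool → Y := fun w => sel w.1 x * sel w.2.1 y * sel w.2.2.1 a * sel w.2.2.2 b
  have hWR : ∀ w, W w ∈ C.R := fun w => C.R.mul_mem (C.R.mul_mem (C.R.mul_mem (sel_mem _ hx)
    (sel_mem _ hy)) (sel_mem _ ha)) (sel_mem _ hb)
  have hKW : ∀ w, ∀ s ∈ C.R, KK (W w) s =
      sel w.1 (KK x s) * sel w.2.1 (KK y s) * sel w.2.2.1 (KK a s) * sel w.2.2.2 (KK b s) := by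
    intro w s hs
    show KK (sel w.1 x * sel w.2.1 y * sel w.2.2.1 a * sel w.2.2.2 b) s = _
    rw [hKmulL _ (C.R.mul_mem (C.R.mul_mem (sel_mem _ hx) (sel_mem _ hy)) (sel_mem _ ha)) _
      (sel_mem _ hb) s hs, hKmulL _ (C.R.mul_mem (sel_mem _ hx) (sel_mem _ hy)) _ (sel_mem _ ha) s hs,
      hKmulL _ (sel_mem _ hx) _ (sel_mem _ hy) s hs, hKsel, hKsel, hKsel, hKsel]
  have hWinj : ∀ w w', C.c (W w) = C.c (W w') → w = w' := by
    intro w w' h
    have hf := (C.c_eq_iff (hWR w) (hWR w')).1 h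
    have hKeq : ∀ s ∈ C.R, KK (W w') s = KK (W w) s := by
      intro s hs
      have e : W w' = W w * ((W w)⁻¹ * W w') := by group
      rw [e, hKmulL _ (hWR w) _ hf.1 s hs, (hK1 _ s).2 (hcen _ hf s hs), mul_one]
    have ey := hKeq y hy
    have ex := hKeq x hx
    have eb := hKeq b hb
    have ea := hKeq a ha
    rw [hKW w' y hy, hKW w y hy, hxy, hKyy, hay, hby] at ey
    rw [hKW w' x hx, hKW w x hx, hKxx, hyx, hax, hbx] at ex
    rw [hKW w' b hb, hKW w b hb, hxb0, hyb0, hab, hKbb] at eb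
    rw [hKW w' a ha, hKW w a ha, hxa0, hya0, hKaa, hba] at ea
    simp only [hsel1, mul_one, one_mul] at ey ex eb ea
    have e1 := hselinj _ _ ey
    have e2 := hselinj _ _ ex
    have e3 := hselinj _ _ eb
    have e4 := hselinj _ _ ea
    obtain ⟨w1, w2, w3, w4⟩ := w
    obtain ⟨w1', w2', w3', w4'⟩ := w'
    simp only at e1 e2 e3 e4
    rw [e1, e2, e3, e4]
  have hesurj : ∀ v : V, ∃ w, C.c (W w) = v := by
    have hbij : Function.Bijective (fun w => C.c (W w)) := by
      apply Function.Injective.bijective_of_nat_card_le (fun w w' h => hWinj w w' h)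
      rw [hV16]
      simp [Nat.card_eq_fintype_card]
    exact hbij.2
  -- squares
  have hsqbit : ∀ u ∈ C.R, u * u = sel (decide (u * u = z)) z := by
    intro u hu
    rcases hPz _ (C.sq_mem hu) with h | h
    · rw [h]
      have h3 : ¬ ((1 : Y) = z) := fun h' => hz1 h'.symm
      simp only [h3, decide_false]
      rfl
    · rw [h]
      simp only [decide_true]
      rfl
  have hsqsel : ∀ (ε : Bool) (u : Y), u ∈ C.R → sel ε u * sel ε u = sel (ε && decide (u * u = z)) z := by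
    intro ε u hu
    cases ε
    · exact one_mul 1
    · exact hsqbit u hu
  have hWsq : ∀ w, W w * W w = sel (fF (decide (x * x = z)) (decide (y * y = z))
      (decide (a * a = z)) (decide (b * b = z)) w) z := by
    intro w
    obtain ⟨ε, ζ, η, θ⟩ := w
    have hA : sel ε x * sel ζ y ∈ C.R := C.R.mul_mem (sel_mem _ hx) (sel_mem _ hy)
    have hB : sel η a * sel θ b ∈ C.R := C.R.mul_mem (sel_mem _ ha) (sel_mem _ hb)
    have e : W (ε, ζ, η, θ) = (sel ε x * sel ζ y) * (sel η a * sel θ b) := by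
      show sel ε x * sel ζ y * sel η a * sel θ b = _
      group
    have hKAB : KK (sel ε x * sel ζ y) (sel η a * sel θ b) = 1 := by
      rw [hKmulL _ (sel_mem _ hx) _ (sel_mem _ hy) _ hB, hKmulR _ (sel_mem _ hx) _ (sel_mem _ ha) _
        (sel_mem _ hb), hKmulR _ (sel_mem _ hy) _ (sel_mem _ ha) _ (sel_mem _ hb), hKbil, hKbil,
        hKbil, hKbil, hxa0, hxb0, hya0, hyb0, hsel1, hsel1, hsel1, hsel1]
      simp
    rw [e, C.sq_formula hcen hA hB, hKAB, mul_one, C.sq_formula hcen (sel_mem _ hx) (sel_mem _ hy),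
      C.sq_formula hcen (sel_mem _ ha) (sel_mem _ hb), hKbil, hKbil, hxy, hab,
      hsqsel ε x hx, hsqsel ζ y hy, hsqsel η a ha, hsqsel θ b hb, hselz, hselz, hselz, hselz,
      hselz]
    rfl
  have hsq_eq : ∀ r ∈ C.R, ∀ s ∈ C.R, C.c r = C.c s → r * r = s * s := by
    intro r hr s hs h
    have hf := (C.c_eq_iff hr hs).1 h
    obtain ⟨f, hfd⟩ : ∃ f, f = r⁻¹ * s := ⟨_, rfl⟩
    rw [← hfd] at hf
    have hsr : s = r * f := by rw [hfd]; group
    rw [hsr]
    calc r * r = r * r * (f * f) := by rw [hexpP f hf, mul_one]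
      _ = r * (r * f) * f := by group
      _ = r * (f * r) * f := by rw [hcen f hf r hr]
      _ = r * f * (r * f) := by group
  -- the count
  let S0 : Set V := {v | v ≠ 1 ∧ ∃ r ∈ C.R, C.c r = v ∧ r * r = 1}
  have h5 : 5 ∣ S0.ncard := by
    haveI : Fact (Nat.Prime 5) := ⟨by norm_num⟩
    have h := card_mod 5 S0 (C.α C.g) (by
      rintro v ⟨hv, r, hr, rfl, hrr⟩
      refine ⟨?_, C.g * r * C.g⁻¹, C.conj_mem hr _, (C.α_c _ r hr).symm, ?_⟩
      · intro h
        exact hv ((map_eq_one_iff _ (C.α _).injective).1 h)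
      · calc (C.g * r * C.g⁻¹) * (C.g * r * C.g⁻¹) = C.g * (r * r) * C.g⁻¹ := by group
          _ = 1 := by rw [hrr]; group) (fun a _ => C.g5ap a)
    have he : {a | a ∈ S0 ∧ C.α C.g a = a} = ∅ := by
      ext a
      simp only [Set.mem_setOf_eq, Set.mem_empty_iff_false, iff_false, not_and]
      intro ha h1
      exact ha.1 (C.g_fpf h1)
    rw [he, Set.ncard_empty] at h
    exact Nat.modEq_zero_iff_dvd.1 h
  have hzero : C.c (W (false, false, false, false)) = 1 := by
    have e : W (false, false, false, false) = 1 := by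
      show (1 : Y) * 1 * 1 * 1 = 1
      simp
    rw [e, C.c_one]
  let T : Finset (Bool × Bool × Bool × Bool) := Finset.univ.filter (fun w =>
    w ≠ (false, false, false, false) ∧ fF (decide (x * x = z)) (decide (y * y = z))
      (decide (a * a = z)) (decide (b * b = z)) w = false)
  have hS0T : S0 = (fun w => C.c (W w)) '' (T : Set (Bool × Bool × Bool × Bool)) := by
    ext v
    constructor
    · rintro ⟨hv, r, hr, rfl, hrr⟩
      obtain ⟨w, hw⟩ := hesurj (C.c r)
      refine ⟨w, ?_, hw⟩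
      simp only [T, Finset.coe_filter, Finset.mem_univ, true_and, Set.mem_setOf_eq]
      constructor
      · rintro rfl
        rw [hzero] at hw
        exact hv hw.symm
      · have h3 := hsq_eq _ (hWR w) r hr hw
        rw [hrr, hWsq] at h3
        revert h3
        cases fF (decide (x * x = z)) (decide (y * y = z))
          (decide (a * a = z)) (decide (b * b = z)) w
        · exact fun _ => rfl
        · exact fun h => absurd h hz1
    · rintro ⟨w, hw, rfl⟩
      simp only [T, Finset.coe_filter, Finset.mem_univ, true_and, Set.mem_setOf_eq] at hw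
      refine ⟨?_, W w, hWR w, rfl, ?_⟩
      · intro h
        apply hw.1
        apply hWinj
        rw [hzero]
        exact h
      · rw [hWsq, hw.2]
        rfl
  have hcount : S0.ncard = T.card := by
    rw [hS0T, Set.ncard_image_of_injective _ (fun w w' h => hWinj w w' h), Set.ncard_coe_finset]
  rw [hcount] at h5
  have harf := arf _ _ _ _ h5
  -- generation
  have hgenY : ∀ S : Subgroup Y, x ∈ S → y ∈ S → a ∈ S → b ∈ S → z ∈ S → ∀ r ∈ C.R, r ∈ S := by
    intro S h1 h3 h4 h6 h7 r hr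
    obtain ⟨w, hw⟩ := hesurj (C.c r)
    have hf := (C.c_eq_iff (hWR w) hr).1 hw
    have h8 : W w ∈ S := S.mul_mem (S.mul_mem (S.mul_mem (sel_mem _ h1) (sel_mem _ h3))
      (sel_mem _ h4)) (sel_mem _ h6)
    have h9 : (W w)⁻¹ * r ∈ S := by
      rcases hPz _ hf with h | h
      · rw [h]; exact S.one_mem
      · rw [h]; exact h7
    have e : r = W w * ((W w)⁻¹ * r) := by group
    rw [e]
    exact S.mul_mem h8 h9
  -- the center of `R`
  have hcenter : ∀ g ∈ center C.R, g = 1 ∨ g = (⟨z, hzP.1⟩ : C.R) := by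
    rintro ⟨g, hg⟩ hgc
    have hcg : C.c g = 1 := by
      by_contra hcon
      obtain ⟨s, hs, hgs⟩ := hrad g hg hcon
      have h3 := (Subgroup.mem_center_iff.1 hgc) ⟨s, hs⟩
      have h4 : s * g = g * s := congrArg Subtype.val h3
      rw [(hK1 g s).2 h4.symm] at hgs
      exact hz1 hgs.symm
    rcases hPz g ⟨hg, hcg⟩ with h | h
    · left; exact Subtype.ext h
    · right; exact Subtype.ext h
  -- the final assembly
  have hfin2 : ∀ x' ∈ C.R, ∀ y' ∈ C.R, ∀ a' ∈ C.R, ∀ b' ∈ C.R, x' * x' = z → y' * y' = z →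
      KK x' y' = z → a' * a' = 1 → b' * b' = 1 → (a' * b') * (a' * b') = z →
      x' * a' = a' * x' → x' * b' = b' * x' → y' * a' = a' * y' → y' * b' = b' * y' →
      (∀ S : Subgroup Y, x' ∈ S → y' ∈ S → a' ∈ S → b' ∈ S → z ∈ S → ∀ r ∈ C.R, r ∈ S) →
      ∃ A B : Subgroup C.R, Nonempty (A ≃* QuaternionGroup 2) ∧
      Nonempty (B ≃* DihedralGroup 4) ∧ (∀ a ∈ A, ∀ b ∈ B, a * b = b * a) ∧ A ⊔ B = ⊤ ∧
        A ⊓ B = Subgroup.center C.R := by
    intro x' hx' y' hy' a' ha' b' hb' e1 e2 e3 e4 e5 e6 e7 e8 e9 e10 hg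
    have hconj : y' * x' * y'⁻¹ = x'⁻¹ := by
      have h3 : x' * (x' * x') * x' = 1 := by
        calc x' * (x' * x') * x' = (x' * x') * (x' * x') := by group
          _ = 1 := by rw [e1, hzz]
      have h4 : x' * (x' * x') = x'⁻¹ := eq_inv_of_mul_eq_one_left h3
      rw [← h4, e1, ← e3]
      unfold KK
      group
    refine concl_of_basis (G := C.R) (x := ⟨x', hx'⟩) (y := ⟨y', hy'⟩) (a := ⟨a', ha'⟩)
      (b := ⟨b', hb'⟩) (z := ⟨z, hzP.1⟩) (fun h => hz1 (congrArg Subtype.val h))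
      (Subtype.ext hzz) (Subtype.ext e1) (Subtype.ext e2) (Subtype.ext hconj) (Subtype.ext e4)
      (Subtype.ext e5) (Subtype.ext e6) (Subtype.ext e7) (Subtype.ext e8) (Subtype.ext e9)
      (Subtype.ext e10) ?_ hcenter
    intro S h1 h3 h4 h6
    rw [eq_top_iff]
    rintro ⟨r, hr⟩ _
    have hz' : (⟨z, hzP.1⟩ : C.R) ∈ S := by
      have h7 : (⟨z, hzP.1⟩ : C.R) = ⟨x', hx'⟩ * ⟨x', hx'⟩ := Subtype.ext e1.symm
      rw [h7]
      exact S.mul_mem h1 h1
    have h8 := hg (S.map C.R.subtype) ⟨_, h1, rfl⟩ ⟨_, h3, rfl⟩ ⟨_, h4, rfl⟩ ⟨_, h6, rfl⟩ ⟨_, hz', rfl⟩ r hr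
    obtain ⟨g, hgS, hgr⟩ := h8
    have h9 : g = ⟨r, hr⟩ := Subtype.ext hgr
    rw [← h9]
    exact hgS
  have hfin : ∀ x' ∈ C.R, ∀ y' ∈ C.R, ∀ a' ∈ C.R, ∀ b' ∈ C.R, x' * x' = z → y' * y' = z →
      KK x' y' = z → KK a' b' = z → ¬ (a' * a' = z ∧ b' * b' = z) →
      KK x' a' = 1 → KK x' b' = 1 → KK y' a' = 1 → KK y' b' = 1 →
      (∀ S : Subgroup Y, x' ∈ S → y' ∈ S → a' ∈ S → b' ∈ S → z ∈ S → ∀ r ∈ C.R, r ∈ S) →
      ∃ A B : Subgroup C.R, Nonempty (A ≃* QuaternionGroup 2) ∧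
      Nonempty (B ≃* DihedralGroup 4) ∧ (∀ a ∈ A, ∀ b ∈ B, a * b = b * a) ∧ A ⊔ B = ⊤ ∧
        A ⊓ B = Subgroup.center C.R := by
    intro x' hx' y' hy' a' ha' b' hb' e1 e2 e3 e4 e5 e6 e7 e8 e9 hg
    have c1 := (hK1 _ _).1 e6
    have c2 := (hK1 _ _).1 e7
    have c3 := (hK1 _ _).1 e8
    have c4 := (hK1 _ _).1 e9
    have hsqab : (a' * b') * (a' * b') = (a' * a') * z * (b' * b') := by
      rw [C.sq_formula hcen ha' hb', e4]
    have hab' := C.R.mul_mem ha' hb'
    rcases hPz _ (C.sq_mem ha') with h1 | h1 <;> rcases hPz _ (C.sq_mem hb') with h3 | h3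
    · refine hfin2 x' hx' y' hy' a' ha' b' hb' e1 e2 e3 h1 h3 ?_ c1 c2 c3 c4 hg
      rw [hsqab, h1, h3, one_mul, mul_one]
    · refine hfin2 x' hx' y' hy' a' ha' (a' * b') hab' e1 e2 e3 h1 ?_ ?_ c1 ?_ c3 ?_ ?_
      · rw [hsqab, h1, h3, one_mul, hzz]
      · have h4 : a' * (a' * b') = b' := by
          rw [← mul_assoc, h1, one_mul]
        rw [h4, h3]
      · rw [← mul_assoc, c1, mul_assoc, c2, mul_assoc]
      · rw [← mul_assoc, c3, mul_assoc, c4, mul_assoc]
      · intro S s1 s2 s3 s4 s5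
        refine hg S s1 s2 s3 ?_ s5
        have h4 := S.mul_mem (S.inv_mem s3) s4
        simpa using h4
    · refine hfin2 x' hx' y' hy' (a' * b') hab' b' hb' e1 e2 e3 ?_ h3 ?_ ?_ c2 ?_ c4 ?_
      · rw [hsqab, h1, h3, hzz, one_mul]
      · have h4 : a' * b' * b' = a' := by
          rw [mul_assoc, h3, mul_one]
        rw [h4, h1]
      · rw [← mul_assoc, c1, mul_assoc, c2, mul_assoc]
      · rw [← mul_assoc, c3, mul_assoc, c4, mul_assoc]
      · intro S s1 s2 s3 s4 s5
        refine hg S s1 s2 ?_ s4 s5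
        have h4 := S.mul_mem s3 (S.inv_mem s4)
        simpa using h4
    · exact absurd ⟨h1, h3⟩ e5
  have hdich : ((x * x = z ∧ y * y = z) ∧ ¬ (a * a = z ∧ b * b = z)) ∨
      (¬ (x * x = z ∧ y * y = z) ∧ (a * a = z ∧ b * b = z)) := by
    by_cases h1 : x * x = z <;> by_cases h3 : y * y = z <;> by_cases h4 : a * a = z <;>
      by_cases h6 : b * b = z <;> simp [h1, h3, h4, h6] at harf ⊢
  rcases hdich with ⟨⟨h1, h3⟩, h4⟩ | ⟨h1, ⟨h3, h4⟩⟩
  · exact hfin x hx y hy a ha b hb h1 h3 hxy hab h4 hxa0 hxb0 hya0 hyb0 hgenY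
  · refine hfin a ha b hb x hx y hy h3 h4 hab hxy h1 hax hay hbx hby ?_
    intro S s1 s2 s3 s4 s5
    exact hgenY S s3 s4 s1 s2 s5

/-- The full identification. -/
theorem ident :
    ((∀ r ∈ C.R, r * r = 1) ∧ Nat.card C.R = 16) ∨
    (Nat.card C.R = 32 ∧ ∃ A B : Subgroup C.R, Nonempty (A ≃* QuaternionGroup 2) ∧
      Nonempty (B ≃* DihedralGroup 4) ∧ (∀ a ∈ A, ∀ b ∈ B, a * b = b * a) ∧ A ⊔ B = ⊤ ∧
        A ⊓ B = Subgroup.center C.R) := by
  have h := C.card_Phi_le
  have h0 : Nat.card C.Phi ≠ 0 := Nat.card_pos.ne'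
  have h12 : Nat.card C.Phi = 1 ∨ Nat.card C.Phi = 2 := by omega
  rcases h12 with h1 | h2
  · left
    have hb := Subgroup.eq_bot_of_card_eq _ h1
    refine ⟨?_, by rw [C.card_R, h1]⟩
    intro r hr
    have h3 := C.sq_mem hr
    rw [hb] at h3
    exact Subgroup.mem_bot.1 h3
  · right
    exact C.ident2 h2

end Cfsg.Agent.Lib.Sect4.A5Base.Ctx
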