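import Cfsg.Agent.Lib.Sect4.A5CaseB
import Cfsg.Agent.Lib.Basic.SylowUtil

/-!
# The kernel has order at most two
-/

set_option autoImplicit false
set_option linter.unusedSectionVars false
set_option linter.unusedVariables false

namespace Cfsg.Agent.Lib.Sect4.A5Base.Ctx

open Subgroup

universe u v

variable {Y : Type u} {V : Type v} [Group Y] [CommGroup V] [Finite Y] [Finite V] (C : Ctx Y V)

theorem no_big (hmin : ∀ N : Subgroup Y, N.Normal → N ≤ C.Phi → N ≠ ⊥ → N.relIndex C.Phi ≤ 2)
    (h3 : 3 ≤ Nat.card C.Phi) : False := by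
  classical
  haveI h2F : Fact (Nat.Prime 2) := ⟨Nat.prime_two⟩
  have hPhi1 : C.Phi ≠ ⊥ := by
    intro h
    rw [h, Subgroup.card_bot] at h3
    omega
  let SS : Set (Subgroup Y) := {N | N.Normal ∧ N ≤ C.Phi ∧ N ≠ ⊥}
  obtain ⟨W, hW⟩ := (Set.toFinite SS).exists_minimal ⟨C.Phi, C.Phi_normal, le_rfl, hPhi1⟩
  obtain ⟨hWn, hWP, hW1⟩ := hW.prop
  have hWmin : ∀ N : Subgroup Y, N.Normal → N ≤ W → N ≠ ⊥ → W ≤ N :=
    fun N h1 h3 h4 => hW.le_of_le ⟨h1, h3.trans hWP, h4⟩ h3
  have hWR : W ≤ C.R := hWP.trans C.Phi_le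
  have hWp : IsPGroup 2 W := C.isP_sub W hWR
  -- central in `R`
  have hWcen : ∀ a ∈ W, ∀ r ∈ C.R, a * r = r * a := by
    haveI hRn : C.R.Normal := C.hn
    have hRp : IsPGroup 2 C.R := C.isP_sub C.R le_rfl
    haveI hN' : (W.subgroupOf C.R).Normal := hWn.subgroupOf _
    have hN1 : W.subgroupOf C.R ≠ ⊥ := by
      intro h
      apply hW1
      have hd := Subgroup.subgroupOf_eq_bot.1 h
      rw [eq_bot_iff]
      intro a ha
      exact Subgroup.mem_bot.2 (Subgroup.disjoint_def.1 hd ha (hWR ha))
    have h1 := Cfsg.Agent.Lib.Basic.SylowUtil.inf_center_ne_bot_of_isPGroup hRp hN1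
    obtain ⟨⟨x, hxR⟩, hx, hx1⟩ := Subgroup.bot_or_exists_ne_one _ |>.resolve_left h1
    have hxW : x ∈ W := hx.1
    have hxc : ∀ r ∈ C.R, x * r = r * x := by
      intro r hr
      have h3 := (Subgroup.mem_center_iff.1 hx.2) ⟨r, hr⟩
      exact (congrArg Subtype.val h3).symm
    let Z : Subgroup Y := W ⊓ centralizer (C.R : Set Y)
    have hZn : Z.Normal := by
      refine ⟨fun n hn y => Subgroup.mem_inf.2 ⟨hWn.conj_mem n hn.1 y, ?_⟩⟩
      rw [Subgroup.mem_centralizer_iff]
      intro r hr
      have h3 := (Subgroup.mem_centralizer_iff.1 (Subgroup.mem_inf.1 hn).2) (y⁻¹ * r * y) (by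
        have := C.conj_mem hr y⁻¹
        simpa using this)
      calc r * (y * n * y⁻¹) = y * ((y⁻¹ * r * y) * n) * y⁻¹ := by group
        _ = y * (n * (y⁻¹ * r * y)) * y⁻¹ := by rw [h3]
        _ = (y * n * y⁻¹) * r := by group
    have hZ1 : Z ≠ ⊥ := by
      intro h
      have h3 : x ∈ Z := Subgroup.mem_inf.2 ⟨hxW, by
        rw [Subgroup.mem_centralizer_iff]
        intro r hr
        exact (hxc r hr).symm⟩
      rw [h, Subgroup.mem_bot] at h3
      exact hx1 (Subtype.ext h3)
    have hWZ := hWmin Z hZn inf_le_left hZ1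
    intro a ha r hr
    exact ((Subgroup.mem_centralizer_iff.1 (Subgroup.mem_inf.1 (hWZ ha)).2) r hr).symm
  have hWcomm : ∀ a ∈ W, ∀ b ∈ W, a * b = b * a := fun a ha b hb => hWcen a ha b (hWR hb)
  -- an involution
  obtain ⟨w0, hw0W, hw01, hw0⟩ : ∃ w ∈ W, w ≠ 1 ∧ w * w = 1 := by
    obtain ⟨m, hm⟩ := IsPGroup.iff_card.1 hWp
    have hm0 : m ≠ 0 := by
      intro h
      rw [h, pow_zero] at hm
      exact hW1 (Subgroup.eq_bot_of_card_eq W hm)
    have hdvd : 2 ∣ Nat.card W := by
      rw [hm]
      exact dvd_pow_self 2 hm0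
    obtain ⟨x, hx⟩ := exists_prime_orderOf_dvd_card' 2 hdvd
    refine ⟨x.1, x.2, ?_, ?_⟩
    · intro h
      have h1 : x = 1 := Subtype.ext h
      rw [h1, orderOf_one] at hx
      omega
    · have h1 : x ^ 2 = 1 := by rw [← hx]; exact pow_orderOf_eq_one x
      rw [pow_two] at h1
      exact congrArg Subtype.val h1
  have hWexp : ∀ a ∈ W, a * a = 1 := by
    let Om : Subgroup Y :=
      { carrier := {a | a ∈ W ∧ a * a = 1}
        one_mem' := ⟨W.one_mem, one_mul 1⟩
        mul_mem' := by
          rintro a b ⟨ha, ha'⟩ ⟨hb, hb'⟩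
          refine ⟨W.mul_mem ha hb, ?_⟩
          calc a * b * (a * b) = a * (b * a) * b := by group
            _ = a * (a * b) * b := by rw [hWcomm b hb a ha]
            _ = (a * a) * (b * b) := by group
            _ = 1 := by rw [ha', hb', one_mul]
        inv_mem' := by
          rintro a ⟨ha, ha'⟩
          refine ⟨W.inv_mem ha, ?_⟩
          rw [← mul_inv_rev, ha', inv_one] }
    have hOmn : Om.Normal := by
      refine ⟨fun n hn y => ⟨hWn.conj_mem n hn.1 y, ?_⟩⟩
      calc (y * n * y⁻¹) * (y * n * y⁻¹) = y * (n * n) * y⁻¹ := by group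
        _ = 1 := by
          rw [hn.2]
          group
    have hOm1 : Om ≠ ⊥ := by
      intro h
      have h3 : w0 ∈ Om := ⟨hw0W, hw0⟩
      rw [h, Subgroup.mem_bot] at h3
      exact hw01 h3
    have h1 := hWmin Om hOmn (fun a ha => ha.1) hOm1
    exact fun a ha => (h1 ha).2
  have hWcard : Nat.card W ≤ 16 := by
    by_contra hcon
    obtain ⟨m, hm⟩ := IsPGroup.iff_card.1 hWp
    have hm5 : 5 ≤ m := by
      by_contra hm5
      have h4 : m ≤ 4 := by omega
      have h5 : 2 ^ m ≤ 2 ^ 4 := Nat.pow_le_pow_right (by norm_num) h4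
      rw [← hm] at h5
      omega
    have h32 : 32 ≤ Nat.card W := by
      rw [hm]
      calc 32 = 2 ^ 5 := by norm_num
        _ ≤ 2 ^ m := Nat.pow_le_pow_right (by norm_num) hm5
    refine C.hNo W ⊥ bot_le ?_ ?_ ?_
    · intro x _ y hy
      rw [Subgroup.mem_bot] at hy ⊢
      rw [hy]
      group
    · intro x hx
      rw [Subgroup.mem_bot]
      exact hWexp x hx
    · rw [Subgroup.relIndex_bot_left]
      exact h32
  have hgW : ∀ a ∈ W, (MulAut.conj C.g).toMonoidHom a ∈ W := fun a ha => hWn.conj_mem a ha C.g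
  have hcard_mul : Nat.card W * W.relIndex C.Phi = Nat.card C.Phi := by
    have h1 := Subgroup.relIndex_mul_relIndex (⊥ : Subgroup Y) W C.Phi bot_le hWP
    rwa [Subgroup.relIndex_bot_left, Subgroup.relIndex_bot_left] at h1
  have hidx := hmin W hWn hWP hW1
  have hg5 : ∀ w : Y, (MulAut.conj C.g).toMonoidHom ((MulAut.conj C.g).toMonoidHom ((MulAut.conj C.g).toMonoidHom
        ((MulAut.conj C.g).toMonoidHom ((MulAut.conj C.g).toMonoidHom w)))) = w := by
    intro w
    have h : C.g * C.g * C.g * C.g * C.g = 1 := by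
      rw [← C.g5]; simp only [pow_succ, pow_zero, one_mul]
    have e : (MulAut.conj C.g).toMonoidHom ((MulAut.conj C.g).toMonoidHom ((MulAut.conj C.g).toMonoidHom
        ((MulAut.conj C.g).toMonoidHom ((MulAut.conj C.g).toMonoidHom w)))) =
        (C.g * C.g * C.g * C.g * C.g) * w * (C.g * C.g * C.g * C.g * C.g)⁻¹ := by
      simp only [MulEquiv.coe_toMonoidHom, MulAut.conj_apply]
      group
    rw [e, h]
    group
  rcases dich5 (MulAut.conj C.g).toMonoidHom W hWp hWcard hgW (fun a _ => hg5 a) with hA | ⟨h16, hA⟩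
  · -- the central case
    have hAg : ∀ a ∈ W, C.g * a * C.g⁻¹ = a := hA
    have hCn : (centralizer (W : Set Y)).Normal := by
      refine ⟨fun n hn x => ?_⟩
      rw [Subgroup.mem_centralizer_iff] at hn ⊢
      intro f hf
      have hf' : x⁻¹ * f * x ∈ W := by
        have := hWn.conj_mem f hf x⁻¹
        simpa using this
      have h1 := hn _ hf'
      calc f * (x * n * x⁻¹) = x * ((x⁻¹ * f * x) * n) * x⁻¹ := by group
        _ = x * (n * (x⁻¹ * f * x)) * x⁻¹ := by rw [h1]
        _ = (x * n * x⁻¹) * f := by group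
    have hCtop := C.hgen _ hCn (by
      intro r hr
      rw [Subgroup.mem_centralizer_iff]
      intro f hf
      exact hWcen f hf r hr) (by
      rw [Subgroup.mem_centralizer_iff]
      intro f hf
      calc f * C.g = (C.g * f * C.g⁻¹) * C.g := by rw [hAg f hf]
        _ = C.g * f := by group)
    have hwc : ∀ y, y * w0 = w0 * y := by
      intro y
      have h1 : y ∈ centralizer (W : Set Y) := by
        rw [hCtop]; exact mem_top _
      exact ((Subgroup.mem_centralizer_iff.1 h1) w0 hw0W).symm
    let N0 : Subgroup Y :=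
      { carrier := {f | f = 1 ∨ f = w0}
        one_mem' := Or.inl rfl
        mul_mem' := by
          rintro a b (rfl | rfl) (rfl | rfl)
          · left; rw [one_mul]
          · right; rw [one_mul]
          · right; rw [mul_one]
          · left; exact hw0
        inv_mem' := by
          rintro a (rfl | rfl)
          · left; rw [inv_one]
          · right; exact inv_eq_of_mul_eq_one_left hw0 }
    have hN0n : N0.Normal := by
      refine ⟨fun n hn y => ?_⟩
      rcases hn with rfl | rfl
      · left; group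
      · right
        rw [hwc y]
        group
    have hN01 : N0 ≠ ⊥ := by
      intro h
      have h3 : w0 ∈ N0 := Or.inr rfl
      rw [h, Subgroup.mem_bot] at h3
      exact hw01 h3
    have hN0W : N0 ≤ W := by
      rintro a (rfl | rfl)
      · exact W.one_mem
      · exact hw0W
    have hWN0 := hWmin N0 hN0n hN0W hN01
    have hW2 : Nat.card W ≤ 2 := card_le_two_of (e := w0) (fun f hf => hWN0 hf)
    have hP4 : Nat.card C.Phi ≤ 4 := by
      rw [← hcard_mul]
      calc Nat.card W * W.relIndex C.Phi ≤ 2 * 2 := Nat.mul_le_mul hW2 hidx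
        _ = 4 := by norm_num
    have hPp := C.isP_sub C.Phi C.Phi_le
    obtain ⟨m, hm⟩ := IsPGroup.iff_card.1 hPp
    have hc4 : Nat.card C.Phi = 4 := by
      rw [hm] at h3 hP4 ⊢
      have hm2 : m ≤ 2 := by
        by_contra hcon
        have h5 : 2 ^ 3 ≤ 2 ^ m := Nat.pow_le_pow_right (by norm_num) (by omega)
        omega
      interval_cases m <;> first | rfl | omega
    exact C.caseB hc4 (hWP hw0W) hw01 hw0 hwc
  · -- the fixed-point-free case
    have hAg : ∀ a ∈ W, C.g * a * C.g⁻¹ = a → a = 1 := hA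
    have hr0 : W.relIndex C.Phi ≠ 0 := Subgroup.index_ne_zero_of_finite
    have hr12 : W.relIndex C.Phi = 1 ∨ W.relIndex C.Phi = 2 := by omega
    rcases hr12 with hr | hr
    · have hPW : C.Phi ≤ W := Subgroup.relIndex_eq_one.1 hr
      have hWeq : W = C.Phi := le_antisymm hWP hPW
      rw [hWeq] at hWcen hWexp h16 hAg
      exact C.caseC hWcen hWexp h16 hAg
    · exfalso
      rw [hr, h16] at hcard_mul
      have hP32 : Nat.card C.Phi = 32 := hcard_mul.symm
      haveI : Fact (Nat.Prime 5) := ⟨by norm_num⟩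
      have hmod := card_mod 5 (C.Phi : Set Y) (MulAut.conj C.g).toMonoidHom
        (fun a ha => C.Phi_conj ha C.g) (fun a _ => hg5 a)
      have e0 : (C.Phi : Set Y).ncard = 32 := by
        rw [← Nat.card_coe_set_eq]
        exact hP32
      rw [e0] at hmod
      obtain ⟨z, hzP, hz1, hzg⟩ : ∃ z ∈ C.Phi, z ≠ 1 ∧ C.g * z * C.g⁻¹ = z := by
        by_contra hcon
        push_neg at hcon
        have e1 : {a | a ∈ (C.Phi : Set Y) ∧ (MulAut.conj C.g).toMonoidHom a = a} = {1} := by
          ext a
          simp only [Set.mem_setOf_eq, Set.mem_singleton_iff]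
          constructor
          · rintro ⟨h1, h2⟩
            by_contra hne
            exact hcon a h1 hne h2
          · rintro rfl
            exact ⟨C.Phi.one_mem, map_one _⟩
        rw [e1, Set.ncard_singleton] at hmod
        revert hmod
        decide
      have hzW : z ∉ W := fun h => hz1 (hAg z h hzg)
      have hidx2 : (W.subgroupOf C.Phi).index = 2 := hr
      have hzz : z * z = 1 := by
        have h1 : (⟨z, hzP⟩ * ⟨z, hzP⟩ : C.Phi) ∈ W.subgroupOf C.Phi := by
          rw [Subgroup.mul_mem_iff_of_index_two hidx2]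
        have h3 : z * z ∈ W := h1
        apply hAg _ h3
        calc C.g * (z * z) * C.g⁻¹ = (C.g * z * C.g⁻¹) * (C.g * z * C.g⁻¹) := by group
          _ = z * z := by rw [hzg]
      have hexpP : ∀ f ∈ C.Phi, f * f = 1 := by
        intro f hf
        by_cases hfW : f ∈ W
        · exact hWexp f hfW
        · have h1 : (⟨f, hf⟩ * ⟨z, hzP⟩ : C.Phi) ∈ W.subgroupOf C.Phi := by
            rw [Subgroup.mul_mem_iff_of_index_two hidx2]
            exact iff_of_false hfW hzW
          have h3 : f * z ∈ W := h1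
          obtain ⟨a, ha⟩ : ∃ a, a = f * z := ⟨_, rfl⟩
          rw [← ha] at h3
          have hfa : f = a * z := by
            calc f = f * (z * z) := by rw [hzz, mul_one]
              _ = (f * z) * z := by group
              _ = a * z := by rw [ha]
          rw [hfa]
          calc a * z * (a * z) = a * (z * a) * z := by group
            _ = a * (a * z) * z := by rw [← hWcen a h3 z hzP.1]
            _ = (a * a) * (z * z) := by group
            _ = 1 := by rw [hWexp a h3, hzz, one_mul]
      refine C.hNo C.Phi ⊥ bot_le ?_ ?_ ?_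
      · intro x _ y hy
        rw [Subgroup.mem_bot] at hy ⊢
        rw [hy]
        group
      · intro x hx
        rw [Subgroup.mem_bot]
        exact hexpP x hx
      · rw [Subgroup.relIndex_bot_left, hP32]

/-- The main reduction. -/
theorem card_Phi_le_aux : ∀ (n : ℕ) (Y : Type u) [Group Y] [Finite Y] (C : Ctx Y V),
    Nat.card Y = n → Nat.card C.Phi ≤ 2 := by
  intro n
  induction n using Nat.strong_induction_on with
  | _ n IH =>
    intro Y _ _ C hn
    by_contra hcon
    apply C.no_big _ (by omega)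
    intro N hN hNP hN1
    haveI := hN
    have hlt : Nat.card (Y ⧸ N) < n := by
      rw [← hn, Subgroup.card_eq_card_quotient_mul_card_subgroup N]
      have h1 : Nat.card N ≠ 1 := fun h => hN1 (Subgroup.eq_bot_of_card_eq N h)
      have h0 : Nat.card N ≠ 0 := Nat.card_pos.ne'
      have h3 : 0 < Nat.card (Y ⧸ N) := Nat.card_pos
      have h4 : 2 ≤ Nat.card N := by omega
      nlinarith
    have h := IH _ hlt (Y ⧸ N) (C.quot N hNP) rfl
    rw [C.card_quot_Phi N hNP] at h
    exact h

theorem card_Phi_le : Nat.card C.Phi ≤ 2 := card_Phi_le_aux _ Y C rfl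

end Cfsg.Agent.Lib.Sect4.A5Base.Ctx
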