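import Cfsg.Agent.Lib.Sect4.A5Base

/-!
# Quotients of the context, and the elementary central case
-/

set_option autoImplicit false
set_option linter.unusedSectionVars false
set_option linter.unusedVariables false

namespace Cfsg.Agent.Lib.Sect4.A5Base.Ctx

open Subgroup

universe u v

variable {Y : Type u} {V : Type v} [Group Y] [CommGroup V] (C : Ctx Y V)

theorem c_out (N : Subgroup Y) [hN : N.Normal] (hNP : N ≤ C.Phi) {r : Y} (hr : r ∈ C.R) :
    C.c (Quotient.out ((r : Y ⧸ N))) = C.c r := by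
  have h : ((Quotient.out ((r : Y ⧸ N)) : Y) : Y ⧸ N) = (r : Y ⧸ N) := QuotientGroup.out_eq' _
  have h1 := QuotientGroup.eq.1 h
  have hm := hNP h1
  have hout : Quotient.out ((r : Y ⧸ N)) ∈ C.R := by
    have e : Quotient.out ((r : Y ⧸ N)) =
        r * ((Quotient.out ((r : Y ⧸ N)))⁻¹ * r)⁻¹ := by group
    rw [e]
    exact C.R.mul_mem hr (C.R.inv_mem hm.1)
  exact (C.c_eq_iff hout hr).2 hm

variable [Finite Y]

/-- The quotient context. -/
noncomputable def quot (N : Subgroup Y) [hN : N.Normal] (hNP : N ≤ C.Phi) : Ctx (Y ⧸ N) V where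
  R := C.R.map (QuotientGroup.mk' N)
  hn := Subgroup.Normal.map C.hn _ (QuotientGroup.mk'_surjective N)
  hp := by
    rintro _ ⟨r, hr, rfl⟩
    obtain ⟨k, hk⟩ := C.hp r hr
    exact ⟨k, by rw [← map_pow, hk, map_one]⟩
  c := fun y => C.c (Quotient.out y)
  c_mul := by
    rintro _ ⟨r, hr, rfl⟩ _ ⟨s, hs, rfl⟩
    show C.c (Quotient.out (((r * s : Y)) : Y ⧸ N)) =
      C.c (Quotient.out (r : Y ⧸ N)) * C.c (Quotient.out (s : Y ⧸ N))
    rw [C.c_out N hNP (C.R.mul_mem hr hs), C.c_out N hNP hr, C.c_out N hNP hs, C.c_mul r hr s hs]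
  c_surj := by
    intro v
    obtain ⟨r, hr, rfl⟩ := C.c_surj v
    exact ⟨_, ⟨r, hr, rfl⟩, C.c_out N hNP hr⟩
  α := QuotientGroup.lift N C.α (fun x hx => (C.α_R x).2 (hNP hx).1)
  α_c := by
    rintro x _ ⟨r, hr, rfl⟩
    obtain ⟨x, rfl⟩ := QuotientGroup.mk_surjective x
    show C.α x (C.c (Quotient.out (r : Y ⧸ N))) = C.c (Quotient.out ((x * r * x⁻¹ : Y) : Y ⧸ N))
    rw [C.c_out N hNP hr, C.c_out N hNP (C.conj_mem hr x), C.α_c x r hr]
  α_R := by
    intro x
    obtain ⟨x, rfl⟩ := QuotientGroup.mk_surjective x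
    show C.α x = 1 ↔ _
    rw [C.α_R]
    constructor
    · exact fun h => ⟨x, h, rfl⟩
    · rintro ⟨r, hr, h⟩
      have h1 : r⁻¹ * x ∈ N := QuotientGroup.eq.1 h
      have h3 := C.R.mul_mem hr (hNP h1).1
      simpa using h3
  h2 := C.h2
  h16 := C.h16
  hsq := by
    rintro S hS _ ⟨r, hr, rfl⟩ h1
    have h1' : C.c r = 1 := by
      rw [← C.c_out N hNP hr]
      exact h1
    have h3 := C.hsq (S.comap (QuotientGroup.mk' N))
      (fun a ha => by
        show QuotientGroup.mk' N (a * a) ∈ S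
        rw [map_mul]
        exact hS _ ⟨a, ha, rfl⟩) r hr h1'
    exact h3
  g := (C.g : Y ⧸ N)
  t := (C.t : Y ⧸ N)
  d := (C.d : Y ⧸ N)
  g5 := by rw [← QuotientGroup.mk_pow, C.g5, QuotientGroup.mk_one]
  g1 := by
    intro h
    exact C.notin_R_of_odd (n := 5) (by decide) C.g5 C.g1 (hNP ((QuotientGroup.eq_one_iff _).1 h)).1
  tg := by
    have h := congrArg (QuotientGroup.mk' N) C.tg
    rw [map_mul, map_mul, map_inv, map_inv] at h
    exact h
  t2 := ⟨C.t * C.t, C.t2, rfl⟩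
  d3 := by rw [← QuotientGroup.mk_pow, C.d3, QuotientGroup.mk_one]
  d1 := by
    intro h
    exact C.notin_R_of_odd (n := 3) (by decide) C.d3 C.d1 (hNP ((QuotientGroup.eq_one_iff _).1 h)).1
  hgen := by
    intro D hD hRD hgD
    have h1 := C.hgen (D.comap (QuotientGroup.mk' N)) (hD.comap _)
      (fun r hr => hRD ⟨r, hr, rfl⟩) hgD
    rw [eq_top_iff]
    intro y _
    obtain ⟨y, rfl⟩ := QuotientGroup.mk_surjective y
    have h3 : y ∈ D.comap (QuotientGroup.mk' N) := by
      rw [h1]; exact mem_top _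
    exact h3
  hNo := by
    intro P D hDP hn hs hi
    refine C.hNo (P.comap (QuotientGroup.mk' N)) (D.comap (QuotientGroup.mk' N))
      (Subgroup.comap_mono hDP) ?_ ?_ ?_
    · intro x hx y hy
      show QuotientGroup.mk' N (x * y * x⁻¹) ∈ D
      rw [map_mul, map_mul, map_inv]
      exact hn _ hx _ hy
    · intro x hx
      show QuotientGroup.mk' N (x * x) ∈ D
      rw [map_mul]
      exact hs _ hx
    · rw [Subgroup.relIndex_comap, Subgroup.map_comap_eq_self_of_surjective
        (QuotientGroup.mk'_surjective N)]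
      exact hi

theorem quot_Phi (N : Subgroup Y) [hN : N.Normal] (hNP : N ≤ C.Phi) :
    (C.quot N hNP).Phi = C.Phi.map (QuotientGroup.mk' N) := by
  ext y
  constructor
  · rintro ⟨⟨r, hr, rfl⟩, h⟩
    have h1 : C.c r = 1 := by
      rw [← C.c_out N hNP hr]
      exact h
    exact ⟨r, ⟨hr, h1⟩, rfl⟩
  · rintro ⟨r, ⟨hr, h1⟩, rfl⟩
    refine ⟨⟨r, hr, rfl⟩, ?_⟩
    show C.c (Quotient.out (r : Y ⧸ N)) = 1
    rw [C.c_out N hNP hr, h1]

theorem card_quot_Phi (N : Subgroup Y) [hN : N.Normal] (hNP : N ≤ C.Phi) :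
    Nat.card (C.quot N hNP).Phi = N.relIndex C.Phi := by
  rw [C.quot_Phi N hNP, ← Subgroup.relIndex_ker, QuotientGroup.ker_mk']

variable [Finite V]

/-- The case of a central elementary abelian kernel of order sixteen. -/
theorem caseC (hcen : ∀ f ∈ C.Phi, ∀ r ∈ C.R, f * r = r * f) (hexp : ∀ f ∈ C.Phi, f * f = 1)
    (hcard : Nat.card C.Phi = 16) (hfpf : ∀ f ∈ C.Phi, C.g * f * C.g⁻¹ = f → f = 1) : False := by
  classical
  obtain ⟨t, ht⟩ : ∃ t, t = C.t := ⟨_, rfl⟩
  obtain ⟨g, hgdef⟩ : ∃ g, g = C.g := ⟨_, rfl⟩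
  have htg : t * g * t⁻¹ = g⁻¹ := by rw [ht, hgdef]; exact C.tg
  have htgi : t * g⁻¹ * t⁻¹ = g := by
    have h1 := congrArg (·⁻¹) htg
    simpa [mul_assoc] using h1
  have e1 : g * t = t * g⁻¹ := by
    calc g * t = (t * g⁻¹ * t⁻¹) * t := by rw [htgi]
      _ = t * g⁻¹ := by group
  have e2 : g⁻¹ * t = t * g := by
    calc g⁻¹ * t = (t * g * t⁻¹) * t := by rw [htg]
      _ = t * g := by group
  have hcomm : g * (t * t) * g⁻¹ = t * t := by
    calc g * (t * t) * g⁻¹ = (g * t) * t * g⁻¹ := by group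
      _ = (t * g⁻¹) * t * g⁻¹ := by rw [e1]
      _ = t * (g⁻¹ * t) * g⁻¹ := by group
      _ = t * (t * g) * g⁻¹ := by rw [e2]
      _ = t * t := by group
  have htR : t * t ∈ C.R := by rw [ht]; exact C.t2
  have htP : t * t ∈ C.Phi := by
    refine ⟨htR, C.g_fpf ?_⟩
    rw [C.α_c _ _ htR, ← hgdef, hcomm]
  have htt : t * t = 1 := hfpf _ htP (by rw [← hgdef]; exact hcomm)
  have htinv : t⁻¹ = t := inv_eq_of_mul_eq_one_left htt
  have htnotR : t ∉ C.R := by rw [ht]; exact C.t_notin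
  -- the fixed points in the kernel
  let D : Subgroup Y := C.Phi ⊓ centralizer {t}
  have hD : ∀ f, f ∈ D ↔ f ∈ C.Phi ∧ t * f * t⁻¹ = f := by
    intro f
    show f ∈ C.Phi ∧ f ∈ centralizer {t} ↔ _
    rw [Subgroup.mem_centralizer_singleton_iff]
    constructor
    · rintro ⟨h1, h3⟩
      refine ⟨h1, ?_⟩
      rw [← h3]
      group
    · rintro ⟨h1, h3⟩
      refine ⟨h1, ?_⟩
      calc f * t = (t * f * t⁻¹) * t := by rw [h3]
        _ = t * f := by group
  have hg6 : g * g * (g * g) * (g * g) = g := by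
    have h5 : g ^ 5 = 1 := by rw [hgdef]; exact C.g5
    calc g * g * (g * g) * (g * g) = g ^ 5 * g := by
          simp only [pow_succ, pow_zero, one_mul, mul_assoc]
      _ = g := by rw [h5, one_mul]
  have hkey : ∀ e, e ∈ D → g * e * g⁻¹ ∈ D → e = 1 := by
    intro e he he'
    have h1 := ((hD _).1 he).2
    have h3 := ((hD _).1 he').2
    have h4 : t * (g * e * g⁻¹) * t⁻¹ = g⁻¹ * e * g := by
      calc t * (g * e * g⁻¹) * t⁻¹ = (t * g * t⁻¹) * (t * e * t⁻¹) * (t * g⁻¹ * t⁻¹) := by group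
        _ = g⁻¹ * e * g := by rw [htg, h1, htgi]
    have h5 : (g * g) * e * (g * g)⁻¹ = e := by
      rw [h4] at h3
      calc (g * g) * e * (g * g)⁻¹ = g * (g * e * g⁻¹) * g⁻¹ := by group
        _ = g * (g⁻¹ * e * g) * g⁻¹ := by rw [h3]
        _ = e := by group
    have h6 : g * e * g⁻¹ = e := by
      calc g * e * g⁻¹ = (g * g * (g * g) * (g * g)) * e * (g * g * (g * g) * (g * g))⁻¹ := by rw [hg6]
        _ = (g * g) * ((g * g) * ((g * g) * e * (g * g)⁻¹) * (g * g)⁻¹) * (g * g)⁻¹ := by group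
        _ = e := by rw [h5, h5, h5]
    exact hfpf e ((hD _).1 he).1 (by rw [← hgdef]; exact h6)
  have hPcomm : ∀ a ∈ C.Phi, ∀ b ∈ C.Phi, a * b = b * a := fun a ha b hb => hcen a ha b hb.1
  have hgP : ∀ f ∈ C.Phi, g * f * g⁻¹ ∈ C.Phi := fun f hf => C.Phi_conj hf g
  have hDcard : Nat.card D ≤ 4 := by
    have hinj : Function.Injective (fun p : D × D =>
        (⟨p.1.1 * (g * p.2.1 * g⁻¹), C.Phi.mul_mem ((hD _).1 p.1.2).1 (hgP _ ((hD _).1 p.2.2).1)⟩ :
          C.Phi)) := by
      rintro ⟨⟨a, ha⟩, ⟨b, hb⟩⟩ ⟨⟨a', ha'⟩, ⟨b', hb'⟩⟩ h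
      have h1 : a * (g * b * g⁻¹) = a' * (g * b' * g⁻¹) := congrArg Subtype.val h
      have h3 : g * (b' * b⁻¹) * g⁻¹ = a'⁻¹ * a := by
        have h4 : a = a' * (g * b' * g⁻¹) * (g * b * g⁻¹)⁻¹ := by
          rw [← h1]; group
        rw [h4]
        group
      have h5 : b' * b⁻¹ = 1 := by
        apply hkey _ (D.mul_mem hb' (D.inv_mem hb))
        rw [h3]
        exact D.mul_mem (D.inv_mem ha') ha
      have h6 : b' = b := by
        calc b' = (b' * b⁻¹) * b := by group
          _ = b := by rw [h5, one_mul]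
      have h7 : a' = a := by
        subst h6
        exact (mul_right_cancel h1).symm
      subst h6
      subst h7
      rfl
    have h1 := Nat.card_le_card_of_injective _ hinj
    rw [Nat.card_prod, hcard] at h1
    by_contra hcon
    have h5 : 5 ≤ Nat.card D := by omega
    nlinarith
  have hDP : D ≤ C.Phi := inf_le_left
  have hidx1 : 4 ≤ D.relIndex C.Phi := by
    have h1 := Subgroup.relIndex_mul_relIndex (⊥ : Subgroup Y) D C.Phi bot_le hDP
    rw [Subgroup.relIndex_bot_left, Subgroup.relIndex_bot_left, hcard] at h1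
    by_contra hcon
    have h5 : D.relIndex C.Phi ≤ 3 := by omega
    have h6 : Nat.card D * D.relIndex C.Phi ≤ 4 * 3 := Nat.mul_le_mul hDcard h5
    omega
  -- the action on the section
  have hTT : ∀ v, C.α t (C.α t v) = v := by
    intro v
    rw [← C.mulap, htt, C.oneap]
  let Rt : Subgroup Y :=
    { carrier := {r | r ∈ C.R ∧ C.α t (C.c r) = C.c r}
      one_mem' := ⟨C.R.one_mem, by rw [C.c_one, map_one]⟩
      mul_mem' := by
        rintro a b ⟨ha, ha'⟩ ⟨hb, hb'⟩
        refine ⟨C.R.mul_mem ha hb, ?_⟩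
        rw [C.c_mul a ha b hb, map_mul, ha', hb']
      inv_mem' := by
        rintro a ⟨ha, ha'⟩
        exact ⟨C.R.inv_mem ha, by rw [C.c_inv ha, ha']⟩ }
  have hRt : ∀ r, r ∈ Rt ↔ r ∈ C.R ∧ C.α t (C.c r) = C.c r := fun r => Iff.rfl
  have hPRt : C.Phi ≤ Rt := by
    intro f hf
    refine ⟨hf.1, ?_⟩
    rw [hf.2, map_one]
  -- the number of fixed points on the section
  let NN : V →* V :=
    MonoidHom.mk' (fun v => v * C.α t v) (by
      intro a b
      rw [map_mul]
      simp only [mul_assoc, mul_comm, mul_left_comm])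
  let F : Subgroup V := NN.ker
  have hF : ∀ v, v ∈ F ↔ C.α t v = v := by
    intro v
    show v * C.α t v = 1 ↔ _
    constructor
    · intro h
      have h3 := C.h2 v
      exact (mul_left_cancel (a := v) (by rw [h, h3]))
    · intro h
      rw [h, C.h2]
  have hFcard : 4 ≤ Nat.card F := by
    have h1 := Subgroup.card_mul_index F
    rw [C.card_V] at h1
    have h3 : F.index = Nat.card NN.range := Subgroup.index_ker NN
    have h4 : Nat.card NN.range ≤ Nat.card F := by
      apply Subgroup.card_le_of_le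
      rintro _ ⟨v, rfl⟩
      rw [hF]
      show C.α t (v * C.α t v) = v * C.α t v
      rw [map_mul, hTT, mul_comm]
    rw [h3] at h1
    by_contra hcon
    have h5 : Nat.card F ≤ 3 := by omega
    have h6 : Nat.card NN.range ≤ 3 := by omega
    have h7 : Nat.card F * Nat.card NN.range ≤ 3 * 3 := Nat.mul_le_mul h5 h6
    omega
  have hidx2 : 4 ≤ C.Phi.relIndex Rt := by
    let f : Rt →* V := MonoidHom.mk' (fun r => C.c r.1) (fun a b => C.c_mul _ a.2.1 _ b.2.1)
    have hk : f.ker = C.Phi.subgroupOf Rt := by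
      ext r
      rw [MonoidHom.mem_ker, Subgroup.mem_subgroupOf]
      constructor
      · intro h
        exact ⟨r.2.1, h⟩
      · intro h
        exact h.2
    have h1 : C.Phi.relIndex Rt = Nat.card f.range := by
      rw [← Subgroup.index_ker, hk]
      rfl
    rw [h1]
    refine hFcard.trans (Subgroup.card_le_of_le ?_)
    intro v hv
    obtain ⟨r, hr, rfl⟩ := C.c_surj v
    refine ⟨⟨r, hr, (hF _).1 hv⟩, rfl⟩
  have hconj : ∀ x ∈ Rt, t * x * t⁻¹ ∈ Rt := by
    intro x hx
    have h1 : C.c (t * x * t⁻¹) = C.c x := by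
      rw [← C.α_c t x hx.1, hx.2]
    refine ⟨C.conj_mem hx.1 t, ?_⟩
    rw [h1, hx.2]
  -- the overgroup
  let P : Subgroup Y :=
    { carrier := {p | p ∈ Rt ∨ p * t ∈ Rt}
      one_mem' := Or.inl Rt.one_mem
      mul_mem' := by
        rintro x y (hx | hx) (hy | hy)
        · exact Or.inl (Rt.mul_mem hx hy)
        · right
          rw [mul_assoc]
          exact Rt.mul_mem hx hy
        · right
          have e : x * y * t = (x * t) * (t * y * t⁻¹) := by
            rw [htinv]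
            calc x * y * t = x * (t * t) * y * t := by rw [htt, mul_one]
              _ = _ := by group
          rw [e]
          exact Rt.mul_mem hx (hconj y hy)
        · left
          have e : x * y = (x * t) * (t * (y * t) * t⁻¹) := by
            calc x * y = x * (t * t) * y := by rw [htt, mul_one]
              _ = _ := by group
          rw [e]
          exact Rt.mul_mem hx (hconj _ hy)
      inv_mem' := by
        rintro x (hx | hx)
        · exact Or.inl (Rt.inv_mem hx)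
        · right
          have e : x⁻¹ * t = t * (x * t)⁻¹ * t⁻¹ := by
            calc x⁻¹ * t = x⁻¹ * t⁻¹ := by rw [htinv]
              _ = _ := by group
          rw [e]
          exact hconj _ (Rt.inv_mem hx) }
  have hP : ∀ p, p ∈ P ↔ p ∈ Rt ∨ p * t ∈ Rt := fun p => Iff.rfl
  have hm : ∀ x ∈ Rt, x⁻¹ * (t * x * t⁻¹) ∈ D := by
    intro x hx
    have h1 : C.c x = C.c (t * x * t⁻¹) := by
      rw [← C.α_c t x hx.1, hx.2]
    have hmP : x⁻¹ * (t * x * t⁻¹) ∈ C.Phi := (C.c_eq_iff hx.1 (C.conj_mem hx.1 t)).1 h1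
    rw [hD]
    refine ⟨hmP, ?_⟩
    have h3 : t * (x⁻¹ * (t * x * t⁻¹)) * t⁻¹ = (x⁻¹ * (t * x * t⁻¹))⁻¹ := by
      calc t * (x⁻¹ * (t * x * t⁻¹)) * t⁻¹
          = (t * x * t⁻¹)⁻¹ * ((t * t) * x * (t * t)⁻¹) := by group
        _ = (x⁻¹ * (t * x * t⁻¹))⁻¹ := by
          rw [htt]
          group
    rw [h3]
    exact inv_eq_of_mul_eq_one_left (hexp _ hmP)
  have hxm : ∀ x ∈ Rt, t * x * t⁻¹ = x * (x⁻¹ * (t * x * t⁻¹)) := fun x _ => by group
  have hsqD : ∀ x ∈ Rt, x * x ∈ D := by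
    intro x hx
    rw [hD]
    refine ⟨C.sq_mem hx.1, ?_⟩
    have hmP := ((hD _).1 (hm x hx)).1
    obtain ⟨m, hmdef⟩ : ∃ m, m = x⁻¹ * (t * x * t⁻¹) := ⟨_, rfl⟩
    rw [← hmdef] at hmP
    have h4 : t * x * t⁻¹ = x * m := by rw [hmdef]; group
    have h1 : t * (x * x) * t⁻¹ = (t * x * t⁻¹) * (t * x * t⁻¹) := by group
    rw [h1, h4]
    calc x * m * (x * m) = x * (m * x) * m := by group
      _ = x * (x * m) * m := by rw [hcen m hmP x hx.1]
      _ = x * x * (m * m) := by group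
      _ = x * x := by rw [hexp m hmP, mul_one]
  have hRtP : Rt ≤ P := fun x hx => Or.inl hx
  have htPP : t ∈ P := by
    right
    rw [htt]
    exact Rt.one_mem
  have hDrt : D ≤ Rt := hDP.trans hPRt
  have hidx3 : 2 ≤ Rt.relIndex P := by
    have h1 : Rt.relIndex P ≠ 1 := by
      intro h
      have h3 := Subgroup.relIndex_eq_one.1 h
      exact htnotR (h3 htPP).1
    have h3 : Rt.relIndex P ≠ 0 := Subgroup.index_ne_zero_of_finite
    omega
  refine C.hNo P D (hDrt.trans hRtP) ?_ ?_ ?_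
  · intro p hp y hy
    have hyP := ((hD _).1 hy).1
    have hyt := ((hD _).1 hy).2
    rcases hp with hp | hp
    · have h1 := hcen y hyP p hp.1
      have h3 : p * y * p⁻¹ = y := by
        rw [← h1]; group
      rw [h3]
      exact hy
    · have h1 := hcen y hyP _ hp.1
      have h3 : p * y * p⁻¹ = (p * t) * (t⁻¹ * y * t) * (p * t)⁻¹ := by group
      have h4 : t⁻¹ * y * t = y := by
        rw [htinv]
        nth_rewrite 2 [← htinv]
        exact hyt
      rw [h3, h4]
      have h5 : (p * t) * y * (p * t)⁻¹ = y := by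
        rw [← h1]; group
      rw [h5]
      exact hy
  · intro p hp
    rcases hp with hp | hp
    · exact hsqD p hp
    · have h1 := D.mul_mem (hsqD _ hp) (hm _ hp)
      have h3 : p * p = (p * t) * (p * t) * ((p * t)⁻¹ * (t * (p * t) * t⁻¹)) := by
        have h5 : p = p * (t * t) := by rw [htt, mul_one]
        calc p * p = p * (t * t) * p * (t * t) := by rw [htt]; simp
          _ = _ := by
            rw [htinv]
            group
      rw [h3]
      exact h1
  · have h1 := Subgroup.relIndex_mul_relIndex D C.Phi Rt hDP hPRt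
    have h3 := Subgroup.relIndex_mul_relIndex D Rt P hDrt hRtP
    rw [← h3, ← h1]
    calc 32 = 4 * 4 * 2 := by norm_num
      _ ≤ _ := Nat.mul_le_mul (Nat.mul_le_mul hidx1 hidx2) hidx3

end Cfsg.Agent.Lib.Sect4.A5Base.Ctx
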