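import Mathlib
import Cfsg.Prelude.Def_CaseTheorems
import Cfsg.Agent.S3103

/-!
# The action on the Frattini quotient of `O₂`
-/

set_option autoImplicit false

namespace Cfsg.Agent.Lib.Sect4.Frat

open Subgroup Cfsg
open scoped commutatorElement

universe u

/-- The centralizer of `O₂(X)`. -/
theorem cen_le {X : Type*} [Group X] [Finite X] (hc : Cfsg.IsPConstrained 2 X) (hO : Cfsg.oddCore X = ⊥) :
    centralizer (pCore 2 X : Set X) ≤ pCore 2 X := by
  classical
  haveI h2F : Fact (Nat.Prime 2) := ⟨Nat.prime_two⟩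
  obtain ⟨Q, hQdef⟩ : ∃ Q : Subgroup X, Q = pCore 2 X := ⟨_, rfl⟩
  haveI hQn : Q.Normal := by rw [hQdef]; infer_instance
  have hQp : IsPGroup 2 Q := by rw [hQdef]; exact Cfsg.Agent.Lib.Basic.PCore.pCore_isPGroup 2
  have hleQ : ∀ N : Subgroup X, N.Normal → IsPGroup 2 N → N ≤ Q := fun N h1 h2 => by
    rw [hQdef]; exact Cfsg.Agent.Lib.Basic.PCore.le_pCore h1 h2
  have hPP : pPrimePCore 2 X = Q := by
    apply le_antisymm
    · apply hleQ
      · unfold pPrimePCore
        infer_instance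
      · rintro ⟨y, hy⟩
        have hy' : (QuotientGroup.mk' (pPrimeCore 2 X)) y ∈ pCore 2 (X ⧸ pPrimeCore 2 X) := hy
        obtain ⟨k, hk⟩ := Cfsg.Agent.Lib.Basic.PCore.pCore_isPGroup 2 ⟨_, hy'⟩
        have h1 : (QuotientGroup.mk' (pPrimeCore 2 X)) (y ^ 2 ^ k) = 1 := by
          rw [map_pow]
          simpa using congrArg Subtype.val hk
        have h2 : y ^ 2 ^ k ∈ pPrimeCore 2 X := (QuotientGroup.eq_one_iff _).1 h1
        have h3 : pPrimeCore 2 X = ⊥ := hO
        rw [h3, mem_bot] at h2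
        exact ⟨k, Subtype.ext h2⟩
    · intro x hx
      show (QuotientGroup.mk' (pPrimeCore 2 X)) x ∈ pCore 2 (X ⧸ pPrimeCore 2 X)
      apply Cfsg.Agent.Lib.Basic.PCore.le_pCore (N := Q.map (QuotientGroup.mk' (pPrimeCore 2 X)))
      · exact Subgroup.Normal.map hQn _ (QuotientGroup.mk'_surjective _)
      · exact hQp.map _
      · exact ⟨x, hx, rfl⟩
  have hcen : centralizer (Q : Set X) ≤ Q := by
    have hpg : IsPGroup 2 (pPrimePCore 2 X) := by rw [hPP]; exact hQp
    obtain ⟨P⟩ : Nonempty (Sylow 2 ↥(pPrimePCore 2 X)) := inferInstance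
    have hPt : (P : Subgroup ↥(pPrimePCore 2 X)) = ⊤ :=
      (P.3 (hpg.to_subgroup ⊤) le_top).symm
    have h1 := hc P
    rw [hPt] at h1
    have h2 : ((⊤ : Subgroup ↥(pPrimePCore 2 X)).map (pPrimePCore 2 X).subtype) = Q := by
      rw [← MonoidHom.range_eq_map, Subgroup.range_subtype, hPP]
    rw [h2, hPP] at h1
    exact h1
  subst hQdef
  exact hcen

/-- The action on the Frattini quotient. -/
theorem frattini_data {X : Type u} [Group X] [Finite X] (Q : Subgroup X) [hQn : Q.Normal]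
    (hQp : IsPGroup 2 Q) (hleQ : ∀ N : Subgroup X, N.Normal → IsPGroup 2 N → N ≤ Q)
    (hcen : centralizer (Q : Set X) ≤ Q) (h4 : Cfsg.SectionalPRankLE 2 4 ↥Q) :
    ∃ (V : Type u) (_ : CommGroup V) (_ : Finite V) (cl : Q →* V) (α : X →* MulAut V),
      (∀ v : V, v * v = 1) ∧ Function.Surjective cl ∧
      (∀ (x : X) (r : Q), α x (cl r) = cl (MulAut.conjNormal x r)) ∧
      (∀ x, α x = 1 ↔ x ∈ Q) ∧ Nat.card V ≤ 16 := by
  classical
  haveI h2F : Fact (Nat.Prime 2) := ⟨Nat.prime_two⟩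
  have hcommV : ∀ a b : ↥Q ⧸ frattini ↥Q, a * b = b * a := by
    intro a b
    obtain ⟨u, rfl⟩ := QuotientGroup.mk_surjective a
    obtain ⟨v, rfl⟩ := QuotientGroup.mk_surjective b
    rw [← QuotientGroup.mk_mul, ← QuotientGroup.mk_mul, QuotientGroup.eq]
    have h1 := Cfsg.Agent.Lib.PGroup.Basic.commutatorElement_mem_frattini hQp v⁻¹ u⁻¹
    have h2 : (u * v)⁻¹ * (v * u) = ⁅v⁻¹, u⁻¹⁆ := by
      rw [commutatorElement_def]
      group
    rw [h2]
    exact h1
  have hexpV : ∀ v : ↥Q ⧸ frattini ↥Q, v ^ 2 = 1 := by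
    intro v
    obtain ⟨u, rfl⟩ := QuotientGroup.mk_surjective v
    rw [← QuotientGroup.mk_pow, QuotientGroup.eq_one_iff]
    exact Cfsg.Agent.Lib.PGroup.Basic.pow_mem_frattini hQp u
  let α : X →* MulAut (↥Q ⧸ frattini ↥Q) :=
    { toFun := fun x => QuotientGroup.congr (frattini ↥Q) (frattini ↥Q) (MulAut.conjNormal x)
        (Subgroup.characteristic_iff_map_eq.1 inferInstance _)
      map_one' := by
        ext v
        obtain ⟨u, rfl⟩ := QuotientGroup.mk_surjective v
        simp [QuotientGroup.congr_mk]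
      map_mul' := by
        intro x y
        ext v
        obtain ⟨u, rfl⟩ := QuotientGroup.mk_surjective v
        show ((MulAut.conjNormal (x * y) u : Q) : ↥Q ⧸ frattini ↥Q) =
          ((MulAut.conjNormal x (MulAut.conjNormal y u) : Q) : ↥Q ⧸ frattini ↥Q)
        rw [map_mul]
        rfl }
  have hα : ∀ (x : X) (t : Q), α x (t : ↥Q ⧸ frattini ↥Q) =
      ((MulAut.conjNormal x t : Q) : ↥Q ⧸ frattini ↥Q) := fun x t => rfl
  have hαker : ∀ x : X, α x = 1 ↔ ∀ t : Q, t⁻¹ * (MulAut.conjNormal x t : Q) ∈ frattini ↥Q := by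
    intro x
    constructor
    · intro h t
      have h1 := hα x t
      rw [h] at h1
      exact QuotientGroup.eq.1 h1
    · intro h
      ext v
      obtain ⟨u, rfl⟩ := QuotientGroup.mk_surjective v
      rw [hα]
      exact (QuotientGroup.eq.2 (h u)).symm
  obtain ⟨e, he⟩ := IsPGroup.iff_card.1 (hQp.to_quotient (frattini ↥Q))
  have he4 : e ≤ 4 := by
    have hcq : ∀ a b : ((⊤ : Subgroup ↥Q) ⧸ (frattini ↥Q).subgroupOf ⊤), a * b = b * a := by
      intro a b
      obtain ⟨⟨u, hu⟩, rfl⟩ := QuotientGroup.mk_surjective a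
      obtain ⟨⟨v, hv⟩, rfl⟩ := QuotientGroup.mk_surjective b
      rw [← QuotientGroup.mk_mul, ← QuotientGroup.mk_mul, QuotientGroup.eq, mem_subgroupOf]
      have h1 := Cfsg.Agent.Lib.PGroup.Basic.commutatorElement_mem_frattini hQp v⁻¹ u⁻¹
      have h2 : (u * v)⁻¹ * (v * u) = ⁅v⁻¹, u⁻¹⁆ := by
        rw [commutatorElement_def]
        group
      show (u * v)⁻¹ * (v * u) ∈ _
      rw [h2]
      exact h1
    have h1 := h4 ⊤ ((frattini ↥Q).subgroupOf ⊤) ⊤
      ⟨⟨fun a b => Subtype.ext (hcq a.1 b.1)⟩⟩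
      (by
        intro a _
        obtain ⟨⟨u, hu⟩, rfl⟩ := QuotientGroup.mk_surjective a
        rw [← QuotientGroup.mk_pow, QuotientGroup.eq_one_iff, mem_subgroupOf]
        exact Cfsg.Agent.Lib.PGroup.Basic.pow_mem_frattini hQp u)
    rw [Subgroup.card_top, ← Subgroup.index_eq_card] at h1
    have h3 : ((frattini ↥Q).subgroupOf ⊤).index = (frattini ↥Q).index := by
      show (frattini ↥Q).relIndex ⊤ = _
      exact Subgroup.relIndex_top_right _
    rw [h3, Subgroup.index_eq_card, he] at h1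
    exact (Nat.pow_le_pow_iff_right (by norm_num)).1 h1
  have hQα : ∀ x ∈ Q, α x = 1 := by
    intro x hx
    rw [hαker]
    intro t
    have h1 := Cfsg.Agent.Lib.PGroup.Basic.commutatorElement_mem_frattini hQp t⁻¹ ⟨x, hx⟩
    have h2 : t⁻¹ * (MulAut.conjNormal x t : Q) = ⁅t⁻¹, (⟨x, hx⟩ : Q)⁆ := by
      apply Subtype.ext
      simp only [Subgroup.coe_mul, MulAut.conjNormal_apply, commutatorElement_def,
        InvMemClass.coe_inv]
      group
    rw [h2]
    exact h1
  have hkerα : ∀ x, α x = 1 → x ∈ Q := by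
    have hC : α.ker ≤ Q := by
      apply hleQ _ inferInstance
      apply Cfsg.Agent.Lib.Coprime.Stability.isPGroup_of_forall_coprime Nat.prime_two
      intro y hy hyc
      have hA : zpowers y ≤ centralizer (Q : Set X) := by
        apply Cfsg.Agent.Lib.Coprime.FrattiniAct.le_centralizer_of_frattini hQp
        · rw [normalizer_eq_top]
          exact le_top
        · rw [Nat.card_zpowers]
          exact hyc
        · intro t ht a ha
          have ha' : a ∈ α.ker := (zpowers_le.2 hy) ha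
          have h1 := (hαker a).1 (MonoidHom.mem_ker.1 ha') ⟨t, ht⟩
          refine ⟨_, h1, ?_⟩
          simp
      have hyQ : y ∈ Q := hcen (hA (mem_zpowers y))
      obtain ⟨k, hk⟩ := hQp ⟨y, hyQ⟩
      have h2 : y ^ 2 ^ k = 1 := by simpa using congrArg Subtype.val hk
      have h3 : orderOf y ∣ 2 ^ k := orderOf_dvd_of_pow_eq_one h2
      exact orderOf_eq_one_iff.1 (Nat.Coprime.eq_one_of_dvd (hyc.pow_right k) h3)
    intro x hx
    exact hC (MonoidHom.mem_ker.2 hx)
  letI cg : CommGroup (↥Q ⧸ frattini ↥Q) := { (inferInstance : Group (↥Q ⧸ frattini ↥Q)) with mul_comm := hcommV }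
  refine ⟨↥Q ⧸ frattini ↥Q, cg, inferInstance, QuotientGroup.mk' _, α, ?_, QuotientGroup.mk'_surjective _,
    fun x r => hα x r, fun x => ⟨hkerα x, hQα x⟩, ?_⟩
  · intro v
    rw [← pow_two]
    exact hexpV v
  · rw [he]
    calc 2 ^ e ≤ 2 ^ 4 := Nat.pow_le_pow_right (by norm_num) he4
      _ = 16 := by norm_num

end Cfsg.Agent.Lib.Sect4.Frat
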