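import Mathlib

/-!
# Elementary abelian groups of order at most sixteen with automorphisms of order three

Helpers for the analysis of a faithful action of `S₆` on a group of order sixteen.
-/

set_option autoImplicit false

namespace Cfsg.Agent.Lib.Sect4.VCore

variable {V : Type*} [CommGroup V]

/-- The subgroup of fixed points of an endomorphism. -/
def fixS (A : V →* V) : Subgroup V where
  carrier := {v | A v = v}
  one_mem' := map_one A
  mul_mem' := by
    intro a b ha hb
    show A (a * b) = a * b
    rw [map_mul, show A a = a from ha, show A b = b from hb]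
  inv_mem' := by
    intro a ha
    show A a⁻¹ = a⁻¹
    rw [map_inv, show A a = a from ha]

@[simp] theorem mem_fixS {A : V →* V} {v : V} : v ∈ fixS A ↔ A v = v := Iff.rfl

theorem sqcancel (h2 : ∀ v : V, v * v = 1) (a b : V) : a * (a * b) = b := by
  rw [← mul_assoc, h2, one_mul]

theorem eq_of_mul_eq_one (h2 : ∀ v : V, v * v = 1) {a b : V} (h : a * b = 1) : a = b := by
  have := sqcancel h2 a b
  rw [h, mul_one] at this
  exact this

theorem isPGroup_two [Finite V] (h2 : ∀ v : V, v * v = 1) : IsPGroup 2 V := by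
  intro v
  refine ⟨1, ?_⟩
  rw [pow_one, pow_two, h2]

theorem card_fix_modEq [Finite V] (A : V →* V) (hA : ∀ v, A (A (A v)) = v) :
    Nat.card V ≡ Nat.card (fixS A) [MOD 3] := by
  classical
  letI : Fintype V := Fintype.ofFinite V
  have : Fact (Nat.Prime 3) := ⟨Nat.prime_three⟩
  let f : Function.End V := (A : V → V)
  have hf : f ^ 3 ^ 1 = 1 := by
    funext v
    have : (f ^ 3 ^ 1) v = A (A (A v)) := rfl
    rw [this, hA]
    rfl
  have h := Equiv.Perm.card_fixedPoints_modEq hf
  have e : Nat.card (fixS A) = Fintype.card (Function.fixedPoints f) := by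
    rw [← Nat.card_eq_fintype_card]
    exact Nat.card_congr (Equiv.subtypeEquivRight (fun v => Iff.rfl))
  rw [e, Nat.card_eq_fintype_card]
  exact h

/-- The numerical possibilities. -/
theorem card_cases [Finite V] (h2 : ∀ v : V, v * v = 1) (h16 : Nat.card V ≤ 16) (A : V →* V)
    (hA : ∀ v, A (A (A v)) = v) (hne : ∃ v, A v ≠ v) (hW : fixS A ≠ ⊥) :
    (Nat.card V = 8 ∧ Nat.card (fixS A) = 2) ∨ (Nat.card V = 16 ∧ Nat.card (fixS A) = 4) := by
  have : Fact (Nat.Prime 2) := ⟨Nat.prime_two⟩
  obtain ⟨e, he⟩ := IsPGroup.iff_card.1 (isPGroup_two h2)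
  obtain ⟨f, hf⟩ := IsPGroup.iff_card.1 ((isPGroup_two h2).to_subgroup (fixS A))
  have hmod := card_fix_modEq A hA
  rw [he, hf] at hmod
  have he4 : e ≤ 4 := by
    rw [he] at h16
    by_contra hc
    push Not at hc
    have : 2 ^ 5 ≤ 2 ^ e := Nat.pow_le_pow_right (by norm_num) hc
    omega
  have hf1 : 1 ≤ f := by
    by_contra hc
    have : f = 0 := by omega
    subst this
    rw [pow_zero] at hf
    exact hW (Subgroup.card_eq_one.1 hf)
  have hlt : Nat.card (fixS A) < Nat.card V := by
    obtain ⟨v, hv⟩ := hne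
    have hlt2 : fixS A < ⊤ := by
      refine lt_top_iff_ne_top.2 (fun ht => hv ?_)
      have : v ∈ fixS A := by rw [ht]; trivial
      exact this
    have h3 : Nat.card (fixS A) ≤ Nat.card V := by
      rw [← Subgroup.card_top (G := V)]
      exact Subgroup.card_le_of_le le_top
    refine lt_of_le_of_ne h3 (fun h4 => hlt2.ne ?_)
    exact Subgroup.eq_top_of_card_eq _ h4
  rw [he, hf] at hlt
  have hfe : f < e := (Nat.pow_lt_pow_iff_right (by norm_num)).1 hlt
  have key : (e = 3 ∧ f = 1) ∨ (e = 4 ∧ f = 2) := by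
    interval_cases e <;> interval_cases f <;> first
      | (exfalso; revert hmod; decide)
      | decide
  rcases key with ⟨rfl, rfl⟩ | ⟨rfl, rfl⟩
  · left
    rw [he, hf]
    norm_num
  · right
    rw [he, hf]
    norm_num

/-- The elements of a group of order four with exponent two. -/
theorem four_elems (h2 : ∀ v : V, v * v = 1) {S : Subgroup V} (hS : Nat.card S = 4) {v u : V}
    (hv : v ∈ S) (hv1 : v ≠ 1) (hu : u ∈ S) (hu1 : u ≠ 1) (huv : u ≠ v) {x : V} (hx : x ∈ S) :
    x = 1 ∨ x = v ∨ x = u ∨ x = u * v := by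
  classical
  by_contra hc
  push Not at hc
  obtain ⟨h1, h2', h3, h4⟩ := hc
  have huv1 : u * v ≠ 1 := fun h => huv (eq_of_mul_eq_one h2 h)
  have huv2 : u * v ≠ v := fun h => hu1 (by simpa using h)
  have huv3 : u * v ≠ u := fun h => hv1 (by simpa using h)
  have : Finite S := Nat.finite_of_card_ne_zero (by rw [hS]; norm_num)
  let F : Finset V := {x, 1, v, u, u * v}
  have hFcard : F.card = 5 := by
    simp only [F]
    rw [Finset.card_insert_of_notMem, Finset.card_insert_of_notMem, Finset.card_insert_of_notMem,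
      Finset.card_insert_of_notMem, Finset.card_singleton]
    · simp only [Finset.mem_singleton]
      exact fun h => huv (by 
        have := huv3 
        exact absurd h.symm this)
    · simp only [Finset.mem_insert, Finset.mem_singleton, not_or]
      exact ⟨fun h => huv h.symm, fun h => huv2 h.symm⟩
    · simp only [Finset.mem_insert, Finset.mem_singleton, not_or]
      exact ⟨fun h => hv1 h.symm, fun h => hu1 h.symm, fun h => huv1 h.symm⟩
    · simp only [Finset.mem_insert, Finset.mem_singleton, not_or]
      exact ⟨h1, h2', h3, h4⟩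
  have hsub : (F : Set V) ⊆ (S : Set V) := by
    intro y hy
    simp only [F, Finset.coe_insert, Finset.coe_singleton, Set.mem_insert_iff,
      Set.mem_singleton_iff] at hy
    rcases hy with rfl | rfl | rfl | rfl | rfl
    · exact hx
    · exact S.one_mem
    · exact hv
    · exact hu
    · exact S.mul_mem hu hv
  have hle : (F : Set V).ncard ≤ (S : Set V).ncard :=
    Set.ncard_le_ncard hsub (Set.toFinite _)
  rw [Set.ncard_coe_finset, hFcard, ← Nat.card_coe_set_eq] at hle
  have : Nat.card ↥(S : Set V) = 4 := hS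
  omega

/-- The norm map of an automorphism of order three. -/
def normMap (A : V →* V) : V →* V where
  toFun v := v * A v * A (A v)
  map_one' := by simp
  map_mul' a b := by
    simp only [map_mul]
    simp only [mul_assoc, mul_left_comm, mul_comm]

@[simp] theorem normMap_apply (A : V →* V) (v : V) : normMap A v = v * A v * A (A v) := rfl

section Norm

variable (h2 : ∀ v : V, v * v = 1) {A : V →* V} (hA : ∀ v, A (A (A v)) = v)
include h2 hA

theorem norm_mem_fix (v : V) : normMap A v ∈ fixS A := by
  show A (v * A v * A (A v)) = v * A v * A (A v)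
  simp only [map_mul, hA]
  simp only [mul_assoc, mul_left_comm, mul_comm]

theorem norm_of_fix {w : V} (hw : w ∈ fixS A) : normMap A w = w := by
  have hw' : A w = w := hw
  simp only [normMap_apply, hw', h2, one_mul]

/-- `v * N v` lies in the kernel of the norm. -/
theorem mul_norm_mem_ker (v : V) : v * normMap A v ∈ (normMap A).ker := by
  rw [MonoidHom.mem_ker, map_mul, norm_of_fix h2 hA (norm_mem_fix h2 hA v), h2]

theorem decomp (v : V) : normMap A v * (v * normMap A v) = v := by
  rw [mul_left_comm, h2, mul_one]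

theorem ker_inf_fix {w : V} (hw : w ∈ fixS A) (hk : w ∈ (normMap A).ker) : w = 1 := by
  rw [MonoidHom.mem_ker, norm_of_fix h2 hA hw] at hk
  exact hk

theorem card_ker_mul [Finite V] :
    Nat.card (normMap A).ker * Nat.card (fixS A) = Nat.card V := by
  have hr : (normMap A).range = fixS A := by
    apply le_antisymm
    · rintro _ ⟨v, rfl⟩
      exact norm_mem_fix h2 hA v
    · intro w hw
      exact ⟨w, norm_of_fix h2 hA hw⟩
  rw [← hr, ← Subgroup.index_ker, Subgroup.card_mul_index]

end Norm

/-- An endomorphism agreeing with `F` on the fixed points and on the kernel of the norm. -/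
theorem eq_of_on (h2 : ∀ v : V, v * v = 1) {A B F : V →* V} (hA : ∀ v, A (A (A v)) = v)
    (hW : ∀ w ∈ fixS A, B w = F w) (hK : ∀ x ∈ (normMap A).ker, B x = F x) (v : V) : B v = F v := by
  have h := decomp h2 hA v
  calc B v = B (normMap A v * (v * normMap A v)) := by rw [h]
    _ = F (normMap A v * (v * normMap A v)) := by
      rw [map_mul B, map_mul F, hW _ (norm_mem_fix h2 hA v), hK _ (mul_norm_mem_ker h2 hA v)]
    _ = F v := by rw [h]

/-- The action on the kernel of the norm. -/
theorem on_ker (h2 : ∀ v : V, v * v = 1) {A B : V →* V} (hA : ∀ v, A (A (A v)) = v)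
    (hinj : ∀ v, B v = 1 → v = 1) (hAB : ∀ v, A (B v) = B (A v))
    (hK : Nat.card (normMap A).ker = 4) (hne : ∃ v, A v ≠ v) :
    (∀ x ∈ (normMap A).ker, B x = x) ∨ (∀ x ∈ (normMap A).ker, B x = A x) ∨
      (∀ x ∈ (normMap A).ker, B x = A (A x)) := by
  -- a nontrivial element of the kernel
  obtain ⟨v0, hv0⟩ := hne
  have hv : ∃ v ∈ (normMap A).ker, v ≠ 1 := by
    refine ⟨v0 * normMap A v0, mul_norm_mem_ker h2 hA v0, fun h => hv0 ?_⟩
    have h3 := norm_mem_fix h2 hA v0
    have h4 : v0 = normMap A v0 := eq_of_mul_eq_one h2 h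
    rw [h4]
    exact h3
  obtain ⟨v, hvk, hv1⟩ := hv
  have hkA : ∀ x ∈ (normMap A).ker, A x ∈ (normMap A).ker := by
    intro x hx
    rw [MonoidHom.mem_ker] at hx ⊢
    have : normMap A (A x) = normMap A x := by
      simp only [normMap_apply, hA]
      simp only [mul_assoc, mul_left_comm, mul_comm]
    rw [this, hx]
  have hkB : ∀ x ∈ (normMap A).ker, B x ∈ (normMap A).ker := by
    intro x hx
    rw [MonoidHom.mem_ker] at hx ⊢
    have : normMap A (B x) = B (normMap A x) := by
      simp only [normMap_apply, map_mul, hAB]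
    rw [this, hx, map_one]
  have hAv : A v ≠ v := by
    intro h
    exact hv1 (ker_inf_fix h2 hA h hvk)
  have hAv1 : A v ≠ 1 := by
    intro h
    have h5 : A (A (A v)) = 1 := by rw [h, map_one, map_one]
    rw [hA] at h5
    exact hv1 h5
  have hN : A (A v) = A v * v := by
    have h5 : v * A v * A (A v) = 1 := hvk
    have h6 := eq_of_mul_eq_one h2 h5
    rw [← h6, mul_comm]
  have hall := fun x hx => four_elems h2 hK hvk hv1 (hkA v hvk) hAv1 hAv (x := x) hx
  have hBv := hall (B v) (hkB v hvk)
  have hBv1 : B v ≠ 1 := fun h => hv1 (hinj v h)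
  have hAAA : ∀ k : V, A (A (A k)) = k := hA
  rcases hBv with h | h | h | h
  · exact absurd h hBv1
  · left
    intro x hx
    rcases hall x hx with rfl | rfl | rfl | rfl
    · simp
    · exact h
    · rw [← hAB, h]
    · rw [map_mul, ← hAB, h]
  · right; left
    intro x hx
    rcases hall x hx with rfl | rfl | rfl | rfl
    · simp
    · exact h
    · rw [← hAB, h]
    · simp only [map_mul, ← hAB, h]
  · right; right
    rw [← hN] at h
    intro x hx
    rcases hall x hx with rfl | rfl | rfl | rfl
    · simp
    · exact h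
    · rw [← hAB, h]
    · simp only [map_mul, ← hAB, h]

/-- An automorphism of order three of a group of order four with a nontrivial fixed point is
trivial. -/
theorem triv_of_fix (h2 : ∀ v : V, v * v = 1) {W : Subgroup V} (hW : Nat.card W = 4) {B : V →* V}
    (hB : ∀ v, B (B (B v)) = v) (hinj : ∀ v, B v = 1 → v = 1) (hBW : ∀ x ∈ W, B x ∈ W)
    {w : V} (hw : w ∈ W) (hw1 : w ≠ 1) (hBw : B w = w) : ∀ x ∈ W, B x = x := by
  classical
  by_cases hex : ∃ u ∈ W, u ≠ 1 ∧ u ≠ w
  · obtain ⟨u, hu, hu1, huw⟩ := hex
    have hall := fun x hx => four_elems h2 hW hw hw1 hu hu1 huw (x := x) hx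
    have hBu : B u = u := by
      rcases hall _ (hBW u hu) with h | h | h | h
      · exact absurd (hinj _ h) hu1
      · exfalso
        have h5 : B (u * w⁻¹) = 1 := by
          rw [map_mul, map_inv, h, hBw]
          simp
        have h6 := hinj _ h5
        exact huw (mul_inv_eq_one.1 h6)
      · exact h
      · exfalso
        have h7 : B (B (B u)) = u * w := by
          simp only [h, map_mul, hBw]
          rw [mul_assoc, h2, mul_one]
        rw [hB] at h7
        exact hw1 (by simpa using h7)
    intro x hx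
    rcases hall x hx with rfl | rfl | rfl | rfl
    · simp
    · exact hBw
    · exact hBu
    · rw [map_mul, hBu, hBw]
  · push Not at hex
    intro x hx
    by_cases hx1 : x = 1
    · rw [hx1, map_one]
    · rw [hex x hx hx1, hBw]

/-- The key dichotomy for two commuting automorphisms of order three. -/
theorem star [Finite V] (h2 : ∀ v : V, v * v = 1) (h16 : Nat.card V ≤ 16) {A B : V →* V}
    (hA : ∀ v, A (A (A v)) = v) (hB : ∀ v, B (B (B v)) = v) (hAB : ∀ v, A (B v) = B (A v))
    (hAne : ∃ v, A v ≠ v) (h0 : ∃ v, B v ≠ v) (h1 : ∃ v, B v ≠ A v) (h3 : ∃ v, B v ≠ A (A v))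
    (hW : fixS A ≠ ⊥) (hcard : Nat.card (fixS A) = Nat.card (fixS B)) :
    Nat.card V = 16 ∧ Nat.card (fixS A) = 4 ∧ Nat.card (fixS B) = 4 ∧ fixS A ⊓ fixS B = ⊥ := by
  have hBinj : ∀ v, B v = 1 → v = 1 := by
    intro v hv
    have : B (B (B v)) = 1 := by rw [hv, map_one, map_one]
    rwa [hB] at this
  have hWB : ∀ x ∈ fixS A, B x ∈ fixS A := by
    intro x hx
    show A (B x) = B x
    rw [hAB, show A x = x from hx]
  have hKcard : ∀ {a b : ℕ}, Nat.card V = a * b → Nat.card (fixS A) = b → 0 < b →
      Nat.card (normMap A).ker = a := by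
    intro a b h1 h2' hb
    have := card_ker_mul h2 hA
    rw [h1, h2'] at this
    exact Nat.eq_of_mul_eq_mul_right hb this
  -- the contradiction when `B` acts trivially on the fixed points of `A`
  have hcontra : Nat.card (normMap A).ker = 4 → (∀ x ∈ fixS A, B x = x) → False := by
    intro hK hBW
    rcases on_ker h2 hA hBinj hAB hK hAne with h | h | h
    · obtain ⟨v, hv⟩ := h0
      exact hv (eq_of_on (F := MonoidHom.id V) h2 hA (fun w hw => hBW w hw) h v)
    · obtain ⟨v, hv⟩ := h1
      exact hv (eq_of_on (F := A) h2 hA (fun w hw => by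
        rw [hBW w hw]; exact (show A w = w from hw).symm) h v)
    · obtain ⟨v, hv⟩ := h3
      exact hv (eq_of_on (F := A.comp A) h2 hA (fun w hw => by
        rw [hBW w hw]
        show w = A (A w)
        rw [show A w = w from hw, show A w = w from hw]) h v)
  rcases card_cases h2 h16 A hA hAne hW with ⟨h8, hc⟩ | ⟨h8, hc⟩
  · exfalso
    have hK : Nat.card (normMap A).ker = 4 := hKcard (a := 4) (b := 2) (by rw [h8]) hc (by norm_num)
    apply hcontra hK
    intro x hx
    by_cases hx1 : x = 1
    · rw [hx1, map_one]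
    · have hex := (Nat.card_eq_two_iff' (1 : fixS A)).1 hc
      obtain ⟨y, -, hy⟩ := hex
      have e1 : (⟨x, hx⟩ : fixS A) = y := hy _ (fun h => hx1 (congrArg Subtype.val h))
      have e2 : (⟨B x, hWB x hx⟩ : fixS A) = y :=
        hy _ (fun h => hx1 (hBinj x (congrArg Subtype.val h)))
      have := congrArg Subtype.val (e2.trans e1.symm)
      exact this
  · have hK : Nat.card (normMap A).ker = 4 := hKcard (a := 4) (b := 4) (by rw [h8]) hc (by norm_num)
    refine ⟨h8, hc, hcard ▸ hc, ?_⟩
    by_contra hne
    obtain ⟨w, hw, hw1⟩ := (Subgroup.bot_or_exists_ne_one (fixS A ⊓ fixS B)).resolve_left hne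
    exact hcontra hK (triv_of_fix h2 hc hB hBinj hWB hw.1 hw1 hw.2)

theorem five (h2 : ∀ v : V, v * v = 1) {v p q r s a b : V} (E1 : v * p * q = 1) (E2 : v * r * s = 1)
    (E3 : a * p * r = 1) (E4 : b * s * q = 1) (E5 : v * a * b = 1) : v = 1 := by
  have hq := sqcancel h2
  have key : v = (v * p * q) * (v * r * s) * (a * p * r) * (b * s * q) * (v * a * b) := by
    simp only [mul_assoc, mul_left_comm, mul_comm, h2, hq, mul_one, one_mul]
  rw [key, E1, E2, E3, E4, E5]
  simp

/-- If two commuting automorphisms of order three have no fixed points, then one of their two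
"diagonal" products has fixed points. -/
theorem fpf_sum (h2 : ∀ v : V, v * v = 1) {A B : V →* V}
    (hA : ∀ v, A (A (A v)) = v) (hB : ∀ v, B (B (B v)) = v) (hAB : ∀ v, A (B v) = B (A v))
    (hWA : fixS A = ⊥) (hWB : fixS B = ⊥) (hG : fixS (A.comp B) = ⊥) (hH : fixS (A.comp (B.comp B)) = ⊥)
    (v : V) : v = 1 := by
  have hNA : ∀ x, x * A x * A (A x) = 1 := fun x => by
    have := norm_mem_fix h2 hA x
    rw [hWA, Subgroup.mem_bot] at this
    exact this
  have hNB : ∀ x, x * B x * B (B x) = 1 := fun x => by
    have := norm_mem_fix h2 hB x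
    rw [hWB, Subgroup.mem_bot] at this
    exact this
  have hG3 : ∀ x, (A.comp B) ((A.comp B) ((A.comp B) x)) = x := by
    intro x
    show A (B (A (B (A (B x))))) = x
    simp only [← hAB, hB, hA]
  have hH3 : ∀ x, (A.comp (B.comp B)) ((A.comp (B.comp B)) ((A.comp (B.comp B)) x)) = x := by
    intro x
    show A (B (B (A (B (B (A (B (B x)))))))) = x
    simp only [← hAB, hB, hA]
  have E1 : v * A (B v) * A (A (B (B v))) = 1 := by
    have := norm_mem_fix h2 hG3 v
    rw [hG, Subgroup.mem_bot] at this
    have e : (normMap (A.comp B)) v = v * A (B v) * A (B (A (B v))) := rfl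
    rw [e] at this
    simpa only [← hAB] using this
  have E2 : v * A (B (B v)) * A (A (B v)) = 1 := by
    have := norm_mem_fix h2 hH3 v
    rw [hH, Subgroup.mem_bot] at this
    have e : (normMap (A.comp (B.comp B))) v = v * A (B (B v)) * A (B (B (A (B (B v))))) := rfl
    rw [e] at this
    simpa only [← hAB, hB] using this
  have E3 : A v * A (B v) * A (B (B v)) = 1 := by
    have := hNB (A v)
    simpa only [← hAB] using this
  have E4 : A (A v) * A (A (B v)) * A (A (B (B v))) = 1 := by
    have := hNB (A (A v))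
    simpa only [← hAB] using this
  have E5 := hNA v
  exact five h2 E1 E2 E3 E4 E5

end Cfsg.Agent.Lib.Sect4.VCore
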