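import Mathlib
import Cfsg.Agent.Lib.Sect4.VCore

/-!
# The configuration inside `S₆` acting on a group of order sixteen

Three commuting involutions whose commutators and "squares" lie in a subgroup of index four.
-/

set_option autoImplicit false

namespace Cfsg.Agent.Lib.Sect4.Config

open Cfsg.Agent.Lib.Sect4.VCore

variable {V : Type*} [CommGroup V]

/-- An involution commuting with a fixed-point-free automorphism of order three of a group of
order four acts trivially. -/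
theorem invol_trivial (h2 : ∀ v : V, v * v = 1) {W : Subgroup V} (hW : Nat.card W = 4) {B T : V →* V}
    (hB : ∀ v, B (B (B v)) = v) (hBW : ∀ x ∈ W, B x ∈ W) (hfp : ∀ x ∈ W, B x = x → x = 1)
    (hTW : ∀ x ∈ W, T x ∈ W) (hTB : ∀ v, T (B v) = B (T v)) (hT2 : ∀ v, T (T v) = v) :
    ∀ w ∈ W, T w = w := by
  intro w hw
  by_cases hw1 : w = 1
  · rw [hw1, map_one]
  have hBw1 : B w ≠ 1 := by
    intro h
    have : B (B (B w)) = 1 := by rw [h, map_one, map_one]
    rw [hB] at this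
    exact hw1 this
  have hBww : B w ≠ w := fun h => hw1 (hfp w hw h)
  have hN : w * B w * B (B w) = 1 := by
    have h3 := hfp _ (W.mul_mem (W.mul_mem hw (hBW w hw)) (hBW _ (hBW w hw)))
    apply h3
    simp only [map_mul, hB]
    simp only [mul_left_comm, mul_comm]
  have hBB : B (B w) = B w * w := by
    have h6 := eq_of_mul_eq_one h2 hN
    rw [← h6, mul_comm]
  rcases four_elems h2 hW hw hw1 (hBW w hw) hBw1 hBww (hTW w hw) with h | h | h | h
  · exfalso
    have := hT2 w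
    rw [h, map_one] at this
    exact hw1 this.symm
  · exact h
  · exfalso
    have h3 := hT2 w
    rw [h, hTB, h] at h3
    -- `B (B w) = w`
    have h4 : B (B (B w)) = B w := by rw [h3]
    rw [hB] at h4
    exact hBww h4.symm
  · exfalso
    rw [← hBB] at h
    have h3 := hT2 w
    rw [h, hTB, hTB, h, hB] at h3
    exact hBww h3

/-- An involution inverting a fixed-point-free automorphism of order three of a group of order four. -/
theorem invol_nontrivial (h2 : ∀ v : V, v * v = 1) {W : Subgroup V} (hW : Nat.card W = 4) {A T : V →* V}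
    (hA : ∀ v, A (A (A v)) = v) (hAW : ∀ x ∈ W, A x ∈ W) (hfp : ∀ x ∈ W, A x = x → x = 1)
    (hTW : ∀ x ∈ W, T x ∈ W) (hTA : ∀ v, T (A v) = A (A (T v))) (hT2 : ∀ v, T (T v) = v) :
    ∃ v1 ∈ W, v1 ≠ 1 ∧ T v1 = v1 ∧ (∃ y, T y * y = v1 ∧ y ∈ W) ∧
      (∀ u ∈ W, T u * u = 1 ∨ T u * u = v1) ∧ (∀ u ∈ W, T u = u → u = 1 ∨ u = v1) := by
  have hWne : W ≠ ⊥ := by
    intro h
    rw [h, Subgroup.card_bot] at hW
    norm_num at hW
  obtain ⟨x, hx, hx1⟩ := (Subgroup.bot_or_exists_ne_one W).resolve_left hWne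
  have hAinj : ∀ a b, A a = A b → a = b := by
    intro a b h
    have := congrArg (fun z => A (A z)) h
    simpa only [hA] using this
  have hex : ∃ y ∈ W, T y ≠ y := by
    by_contra hc
    push Not at hc
    have h3 := hTA x
    rw [hc x hx, hc _ (hAW x hx)] at h3
    exact hx1 (hfp x hx (hAinj _ _ h3).symm)
  obtain ⟨y, hy, hTy⟩ := hex
  have hy1 : y ≠ 1 := by
    rintro rfl
    exact hTy (map_one T)
  set v1 := T y * y with hv1
  have hv1W : v1 ∈ W := W.mul_mem (hTW y hy) hy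
  have hv1ne : v1 ≠ 1 := fun h => hTy (eq_of_mul_eq_one h2 h)
  have hTv1 : T v1 = v1 := by
    rw [hv1, map_mul, hT2, mul_comm]
  have hyv : y ≠ v1 := by
    intro h
    apply hTy
    rw [h, hTv1]
  have hTy' : T y = v1 * y := by
    rw [hv1, mul_assoc, h2, mul_one]
  have hall := fun z hz => four_elems h2 hW hv1W hv1ne hy hy1 hyv (x := z) hz
  refine ⟨v1, hv1W, hv1ne, hTv1, ⟨y, rfl, hy⟩, ?_, ?_⟩
  · intro u hu
    rcases hall u hu with rfl | rfl | rfl | rfl
    · left; simp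
    · left; rw [hTv1, h2]
    · right; rfl
    · right
      rw [map_mul, hTv1, hTy']
      have hq := sqcancel h2
      simp only [mul_assoc, mul_left_comm, mul_comm, h2, hq, mul_one, one_mul]
  · intro u hu hTu
    rcases hall u hu with rfl | rfl | rfl | rfl
    · left; rfl
    · right; rfl
    · exact absurd hTu hTy
    · exfalso
      rw [map_mul, hTv1] at hTu
      exact hTy (mul_right_cancel hTu)

/-- A square class is in the first summand. -/
theorem sq_aux (h2 : ∀ v : V, v * v = 1) {W1 W2 : Subgroup V} (hinf : W1 ⊓ W2 = ⊥)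
    (hdec : ∀ x : V, ∃ u ∈ W1, ∃ w ∈ W2, x = u * w) {B T : V →* V} (hB1 : ∀ u ∈ W1, B u = u)
    (hBW : ∀ x ∈ W2, B x ∈ W2) (hfp : ∀ x ∈ W2, B x = x → x = 1) {v1 : V} (hv1 : v1 ∈ W1)
    (hv1ne : v1 ≠ 1)
    (hT : ∀ v, T v * v = 1 ∨ T v * v = v1) {c : V} (hc : ∃ v, B c = c * (T v * v)) : c ∈ W1 := by
  obtain ⟨v, hv⟩ := hc
  obtain ⟨u, hu, w, hw, rfl⟩ := hdec c
  have hdisj : ∀ z, z ∈ W1 → z ∈ W2 → z = 1 := by
    intro z h1 h3
    have : z ∈ W1 ⊓ W2 := ⟨h1, h3⟩
    rw [hinf] at this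
    exact this
  have hBw := hBW w hw
  rw [map_mul, hB1 u hu] at hv
  have h5 : B w = w * (T v * v) := by
    have : u * B w = u * (w * (T v * v)) := by rw [hv, mul_assoc]
    exact mul_left_cancel this
  rcases hT v with h | h
  · rw [h, mul_one] at h5
    rw [hfp w hw h5, mul_one]
    exact hu
  · exfalso
    rw [h] at h5
    have h6 : v1 = w * B w := by
      rw [h5, ← mul_assoc, h2, one_mul]
    exact hv1ne (hdisj v1 hv1 (h6 ▸ W2.mul_mem hw hBw))

/-- The heart of the configuration, for endomorphisms of a group of order sixteen. -/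
theorem core_V [Finite V] (h2 : ∀ v : V, v * v = 1) {A B T1 T2 T3 L Li : V →* V}
    (hA : ∀ v, A (A (A v)) = v) (hB : ∀ v, B (B (B v)) = v) (hAB : ∀ v, A (B v) = B (A v))
    (hT1 : ∀ v, T1 (T1 v) = v) (hT2 : ∀ v, T2 (T2 v) = v) (hT3 : ∀ v, T3 (T3 v) = v)
    (h12 : ∀ v, T1 (T2 v) = T2 (T1 v)) (h13 : ∀ v, T1 (T3 v) = T3 (T1 v))
    (h23 : ∀ v, T2 (T3 v) = T3 (T2 v))
    (h1B : ∀ v, T1 (B v) = B (T1 v)) (h1A : ∀ v, T1 (A v) = A (A (T1 v)))
    (h2A : ∀ v, T2 (A v) = A (T2 v)) (h2B : ∀ v, T2 (B v) = B (B (T2 v)))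
    (hL1 : ∀ v, L (T1 v) = T2 (L v)) (hL2 : ∀ v, L (T2 v) = T3 (L v))
    (hLi : ∀ v, L (Li v) = v) (hiL : ∀ v, Li (L v) = v)
    (hV : Nat.card V = 16) (hcA : Nat.card (fixS A) = 4) (hcB : Nat.card (fixS B) = 4)
    (hinf : fixS A ⊓ fixS B = ⊥) :
    ∃ U : Subgroup V, Nat.card U ≤ 4 ∧ (∀ u ∈ U, T1 u ∈ U) ∧ (∀ u ∈ U, T2 u ∈ U) ∧ (∀ u ∈ U, T3 u ∈ U) ∧
      (∀ u ∈ U, L u ∈ U) ∧
      (∀ c, T1 c = c → (∃ v, B c = c * (T1 v * v)) → c ∈ U) ∧
      (∀ c, T2 c = c → (∃ v, A c = c * (T2 v * v)) → c ∈ U) ∧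
      (∀ c, T1 (T2 c) = c → c ∈ U) := by
  classical
  have hdisj : ∀ z, z ∈ fixS B → z ∈ fixS A → z = 1 := by
    intro z h1 h3
    have : z ∈ fixS A ⊓ fixS B := ⟨h3, h1⟩
    rw [hinf] at this
    exact this
  have hdec : ∀ x : V, ∃ u ∈ fixS B, ∃ w ∈ fixS A, x = u * w := by
    intro x
    have hc : Subgroup.IsComplement' (fixS B) (fixS A) := by
      apply Subgroup.isComplement'_of_card_mul_and_disjoint
      · rw [hcA, hcB, hV]
      · rw [Subgroup.disjoint_def]
        intro z h1 h3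
        exact hdisj z h1 h3
    have h3 : x ∈ fixS B ⊔ fixS A := by
      rw [hc.sup_eq_top]
      trivial
    obtain ⟨u, hu, w, hw, e⟩ := Subgroup.mem_sup.1 h3
    exact ⟨u, hu, w, hw, e.symm⟩
  -- preservation
  have hAW1 : ∀ x ∈ fixS B, A x ∈ fixS B := by
    intro x hx
    show B (A x) = A x
    rw [← hAB, show B x = x from hx]
  have hBW2 : ∀ x ∈ fixS A, B x ∈ fixS A := by
    intro x hx
    show A (B x) = B x
    rw [hAB, show A x = x from hx]
  have hfpA : ∀ x ∈ fixS B, A x = x → x = 1 := fun x hx h => hdisj x hx h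
  have hfpB : ∀ x ∈ fixS A, B x = x → x = 1 := fun x hx h => hdisj x h hx
  have h1W1 : ∀ x ∈ fixS B, T1 x ∈ fixS B := by
    intro x hx
    show B (T1 x) = T1 x
    rw [← h1B, show B x = x from hx]
  have h2W2 : ∀ x ∈ fixS A, T2 x ∈ fixS A := by
    intro x hx
    show A (T2 x) = T2 x
    rw [← h2A, show A x = x from hx]
  have h1W2 : ∀ x ∈ fixS A, T1 x ∈ fixS A := by
    intro x hx
    show A (T1 x) = T1 x
    have h3 := h1A x
    rw [show A x = x from hx] at h3
    -- `T1 x = A (A (T1 x))`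
    have h4 : A (T1 x) = A (A (A (T1 x))) := by rw [← h3]
    rw [hA] at h4
    exact h4
  have h2W1 : ∀ x ∈ fixS B, T2 x ∈ fixS B := by
    intro x hx
    show B (T2 x) = T2 x
    have h3 := h2B x
    rw [show B x = x from hx] at h3
    have h4 : B (T2 x) = B (B (B (T2 x))) := by rw [← h3]
    rw [hB] at h4
    exact h4
  have h1triv : ∀ w ∈ fixS A, T1 w = w :=
    invol_trivial h2 hcA hB hBW2 hfpB h1W2 h1B hT1
  have h2triv : ∀ u ∈ fixS B, T2 u = u :=
    invol_trivial h2 hcB hA hAW1 hfpA h2W1 h2A hT2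
  obtain ⟨v1, hv1W, hv1ne, hTv1, ⟨y1, hy1, hy1W⟩, hv1a, hv1b⟩ :=
    invol_nontrivial h2 hcB hA hAW1 hfpA h1W1 h1A hT1
  obtain ⟨v2, hv2W, hv2ne, hTv2, ⟨y2, hy2, hy2W⟩, hv2a, hv2b⟩ :=
    invol_nontrivial h2 hcA hB hBW2 hfpB h2W2 h2B hT2
  -- global commutators
  have hcomm1 : ∀ x, T1 x * x = 1 ∨ T1 x * x = v1 := by
    intro x
    obtain ⟨u, hu, w, hw, rfl⟩ := hdec x
    have e : T1 (u * w) * (u * w) = T1 u * u := by
      rw [map_mul, h1triv w hw]
      have hq := sqcancel h2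
      simp only [mul_assoc, mul_left_comm, mul_comm, h2, hq, mul_one, one_mul]
    rw [e]
    exact hv1a u hu
  have hcomm2 : ∀ x, T2 x * x = 1 ∨ T2 x * x = v2 := by
    intro x
    obtain ⟨u, hu, w, hw, rfl⟩ := hdec x
    have e : T2 (u * w) * (u * w) = T2 w * w := by
      rw [map_mul, h2triv u hu]
      have hq := sqcancel h2
      simp only [mul_assoc, mul_left_comm, mul_comm, h2, hq, mul_one, one_mul]
    rw [e]
    exact hv2a w hw
  -- the subgroup
  let U : Subgroup V := fixS T1 ⊓ fixS T2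
  have hU : ∀ x, x ∈ U ↔ T1 x = x ∧ T2 x = x := fun x => Iff.rfl
  have hUelts : ∀ x ∈ U, x = 1 ∨ x = v1 ∨ x = v2 ∨ x = v1 * v2 := by
    intro x hx
    obtain ⟨u, hu, w, hw, rfl⟩ := hdec x
    obtain ⟨e1, e2⟩ := (hU _).1 hx
    rw [map_mul, h1triv w hw] at e1
    rw [map_mul, h2triv u hu] at e2
    have e3 : T1 u = u := mul_right_cancel e1
    have e4 : T2 w = w := mul_left_cancel e2
    rcases hv1b u hu e3 with rfl | rfl <;> rcases hv2b w hw e4 with rfl | rfl <;> simp
  have hcardU : Nat.card U ≤ 4 := by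
    let F : Finset V := {1, v1, v2, v1 * v2}
    have hsub : (U : Set V) ⊆ (F : Set V) := by
      intro x hx
      simp only [F, Finset.coe_insert, Finset.coe_singleton, Set.mem_insert_iff,
        Set.mem_singleton_iff]
      exact hUelts x hx
    have h3 := Set.ncard_le_ncard hsub (Set.toFinite _)
    rw [Set.ncard_coe_finset, ← Nat.card_coe_set_eq] at h3
    have h4 : F.card ≤ 4 := Finset.card_le_four
    have h5 : Nat.card ↥(U : Set V) = Nat.card U := rfl
    omega
  have hv1U : v1 ∈ U := (hU _).2 ⟨hTv1, h2triv _ hv1W⟩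
  have hv2U : v2 ∈ U := (hU _).2 ⟨h1triv _ hv2W, hTv2⟩
  -- the third involution
  have hLinj : ∀ x, L x = 1 → x = 1 := by
    intro x hx
    have := hiL x
    rw [hx, map_one] at this
    exact this.symm
  have hL1' : L v1 = v2 := by
    have e : L v1 = T2 (L y1) * L y1 := by
      rw [← hy1, map_mul, hL1]
    rcases hcomm2 (L y1) with h | h
    · rw [h] at e
      exact absurd (hLinj _ e) hv1ne
    · rw [h] at e
      exact e
  set v3 := L v2 with hv3
  have hv3ne : v3 ≠ 1 := fun h => hv2ne (hLinj _ h)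
  have hv3eq : v3 = T3 (L y2) * L y2 := by
    rw [hv3, ← hy2, map_mul, hL2]
  have hcomm3 : ∀ x, T3 x * x = 1 ∨ T3 x * x = v3 := by
    intro x
    have e : T3 x * x = L (T2 (Li x) * Li x) := by
      rw [map_mul, hL2, hLi]
    rw [e]
    rcases hcomm2 (Li x) with h | h
    · left; rw [h, map_one]
    · right; rw [h]
  have hv3U : v3 ∈ U := by
    refine (hU _).2 ⟨?_, ?_⟩
    · have e : T1 v3 = T3 (T1 (L y2)) * T1 (L y2) := by
        rw [hv3eq, map_mul, h13]
      rcases hcomm3 (T1 (L y2)) with h | h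
      · rw [h] at e
        exfalso
        apply hv3ne
        have := hT1 v3
        rw [e, map_one] at this
        exact this.symm
      · rw [h] at e
        exact e
    · have e : T2 v3 = T3 (T2 (L y2)) * T2 (L y2) := by
        rw [hv3eq, map_mul, h23]
      rcases hcomm3 (T2 (L y2)) with h | h
      · rw [h] at e
        exfalso
        apply hv3ne
        have := hT2 v3
        rw [e, map_one] at this
        exact this.symm
      · rw [h] at e
        exact e
  refine ⟨U, hcardU, ?_, ?_, ?_, ?_, ?_, ?_, ?_⟩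
  · intro u hu
    obtain ⟨e1, -⟩ := (hU _).1 hu
    rw [e1]
    exact hu
  · intro u hu
    obtain ⟨-, e2⟩ := (hU _).1 hu
    rw [e2]
    exact hu
  · intro u hu
    obtain ⟨e1, e2⟩ := (hU _).1 hu
    refine (hU _).2 ⟨?_, ?_⟩
    · rw [h13, e1]
    · rw [h23, e2]
  · intro u hu
    rcases hUelts u hu with rfl | rfl | rfl | rfl
    · rw [map_one]
      exact U.one_mem
    · rw [hL1']
      exact hv2U
    · exact hv3U
    · rw [map_mul, hL1']
      exact U.mul_mem hv2U hv3U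
  · intro c h1 h3
    have hc := sq_aux h2 (W1 := fixS B) (W2 := fixS A) (by rw [inf_comm]; exact hinf) hdec
      (fun u hu => hu) hBW2 hfpB hv1W hv1ne hcomm1 h3
    exact (hU _).2 ⟨h1, h2triv c hc⟩
  · intro c h1 h3
    have hc := sq_aux h2 (W1 := fixS A) (W2 := fixS B) hinf
      (fun x => by
        obtain ⟨u, hu, w, hw, e⟩ := hdec x
        exact ⟨w, hw, u, hu, by rw [e, mul_comm]⟩)
      (fun u hu => hu) hAW1 hfpA hv2W hv2ne hcomm2 h3
    exact (hU _).2 ⟨h1triv c hc, h1⟩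
  · intro c h1
    obtain ⟨u, hu, w, hw, rfl⟩ := hdec c
    rw [map_mul, map_mul, h2triv u hu, h1triv _ (h2W2 w hw)] at h1
    have h3 : T1 u * u = w * T2 w := by
      have hq := sqcancel h2
      have e : T1 u * u * (w * T2 w) = (T1 u * T2 w) * (u * w) := by
        simp only [mul_assoc, mul_left_comm, mul_comm]
      have e2 : T1 u * u * (w * T2 w) = 1 := by
        rw [e, h1, h2]
      exact eq_of_mul_eq_one h2 e2
    have h4 : T1 u * u = 1 := hdisj _ ((fixS B).mul_mem (h1W1 u hu) hu) (by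
        rw [h3]; exact (fixS A).mul_mem hw (h2W2 w hw))
    have h5 : w * T2 w = 1 := by rw [← h3, h4]
    have e1 : T1 u = u := eq_of_mul_eq_one h2 h4
    have e2 : T2 w = w := (eq_of_mul_eq_one h2 h5).symm
    refine (hU _).2 ⟨?_, ?_⟩
    · rw [map_mul, e1, h1triv w hw]
    · rw [map_mul, h2triv u hu, e2]

end Cfsg.Agent.Lib.Sect4.Config
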