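import Mathlib
import Cfsg.Prelude.Def_CaseTheorems
import Cfsg.Agent.Lib.Sect4.Config

/-!
# A section of rank five

A faithful action of `S₆` on a group of order sixteen, lifted to an extension, gives an elementary
abelian section of order at least thirty-two.
-/

set_option autoImplicit false

namespace Cfsg.Agent.Lib.Sect4.Section

open Cfsg.Agent.Lib.Sect4.VCore Cfsg.Agent.Lib.Sect4.Config

section Abstract

variable {V Y : Type*} [CommGroup V] [Group Y]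

/-- The abstract form: data of square classes. -/
theorem config_sq [Finite V] (h2 : ∀ v : V, v * v = 1) (ρ : Y →* MulAut V) {a b t1 t2 t3 l : Y}
    (ha3 : a * (a * a) = 1) (hb3 : b * (b * b) = 1) (hab : a * b = b * a)
    (ht1 : t1 * t1 = 1) (ht2 : t2 * t2 = 1) (ht3 : t3 * t3 = 1)
    (h12 : t1 * t2 = t2 * t1) (h13 : t1 * t3 = t3 * t1) (h23 : t2 * t3 = t3 * t2)
    (h1b : t1 * b = b * t1) (h1a : t1 * a = a * (a * t1)) (h2a : t2 * a = a * t2)
    (h2b : t2 * b = b * (b * t2)) (hl1 : l * t1 = t2 * l) (hl2 : l * t2 = t3 * l)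
    (hl3 : l * t3 = t1 * l)
    (hV : Nat.card V = 16) (hcA : Nat.card (fixS (ρ a).toMonoidHom) = 4)
    (hcB : Nat.card (fixS (ρ b).toMonoidHom) = 4)
    (hinf : fixS (ρ a).toMonoidHom ⊓ fixS (ρ b).toMonoidHom = ⊥)
    (Sq : Y → Set V)
    (S1 : ∀ x, x * x = 1 → ∀ c ∈ Sq x, ρ x c = c)
    (S2 : ∀ x, ∀ c ∈ Sq x, ∀ c' ∈ Sq x, ∃ v, c' = c * (ρ x v * v))
    (S3 : ∀ x g, ∀ c ∈ Sq x, ρ g c ∈ Sq (g * x * g⁻¹)) :
    ∃ U : Subgroup V, Nat.card U ≤ 4 ∧ (∀ u ∈ U, ρ t1 u ∈ U) ∧ (∀ u ∈ U, ρ t2 u ∈ U) ∧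
      (∀ u ∈ U, ρ t3 u ∈ U) ∧
      (∀ c ∈ Sq t1, c ∈ U) ∧ (∀ c ∈ Sq t2, c ∈ U) ∧ (∀ c ∈ Sq t3, c ∈ U) ∧
      (∀ c ∈ Sq (t1 * t2), c ∈ U) ∧ (∀ c ∈ Sq (t1 * t3), c ∈ U) ∧ (∀ c ∈ Sq (t2 * t3), c ∈ U) := by
  have mulap : ∀ (x y : Y) (v : V), ρ (x * y) v = ρ x (ρ y v) := by
    intro x y v
    rw [map_mul]
    rfl
  have oneap : ∀ v : V, ρ 1 v = v := by
    intro v
    rw [map_one]
    rfl
  have rel : ∀ {x y z w : Y}, x * y = z * w → ∀ v, ρ x (ρ y v) = ρ z (ρ w v) := by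
    intro x y z w h v
    rw [← mulap, ← mulap, h]
  have rel3 : ∀ {x y z w u : Y}, x * y = z * (w * u) → ∀ v, ρ x (ρ y v) = ρ z (ρ w (ρ u v)) := by
    intro x y z w u h v
    rw [← mulap x y, ← mulap w u, ← mulap z (w * u), h]
  have rel1 : ∀ {x y : Y}, x * y = 1 → ∀ v, ρ x (ρ y v) = v := by
    intro x y h v
    rw [← mulap, h, oneap]
  have ap3 : ∀ {x : Y}, x * (x * x) = 1 → ∀ v, ρ x (ρ x (ρ x v)) = v := by
    intro x h v
    rw [← mulap x x v, ← mulap x (x * x) v, h, oneap]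
  have hli : ∀ v, ρ l (ρ l⁻¹ v) = v := rel1 (mul_inv_cancel l)
  have hil : ∀ v, ρ l⁻¹ (ρ l v) = v := rel1 (inv_mul_cancel l)
  have e4 : ∀ x c, c ∈ Sq (l * x * l⁻¹) → ρ l⁻¹ c ∈ Sq x := by
    intro x c hc
    have := S3 _ l⁻¹ c hc
    have e : l⁻¹ * (l * x * l⁻¹) * l⁻¹⁻¹ = x := by group
    rwa [e] at this
  obtain ⟨U, hcard, h1U, h2U, h3U, hLU, hS1, hS2, hS12⟩ := core_V (V := V) h2
    (A := (ρ a).toMonoidHom) (B := (ρ b).toMonoidHom) (T1 := (ρ t1).toMonoidHom)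
    (T2 := (ρ t2).toMonoidHom) (T3 := (ρ t3).toMonoidHom) (L := (ρ l).toMonoidHom)
    (Li := (ρ l⁻¹).toMonoidHom)
    (ap3 ha3) (ap3 hb3) (rel hab) (rel1 ht1) (rel1 ht2) (rel1 ht3) (rel h12) (rel h13) (rel h23)
    (rel h1b) (rel3 h1a) (rel h2a) (rel3 h2b) (rel hl1) (rel hl2) hli hil hV hcA hcB hinf
  have hmemL : ∀ c, ρ l⁻¹ c ∈ U → c ∈ U := by
    intro c hc
    have := hLU _ hc
    have e : (ρ l).toMonoidHom (ρ l⁻¹ c) = c := hli c
    rwa [e] at this
  have hSq1 : ∀ c ∈ Sq t1, c ∈ U := by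
    intro c hc
    apply hS1 c (S1 t1 ht1 c hc)
    have h3 := S3 t1 b c hc
    have e : b * t1 * b⁻¹ = t1 := by rw [← h1b]; group
    rw [e] at h3
    exact S2 t1 c hc _ h3
  have hSq2 : ∀ c ∈ Sq t2, c ∈ U := by
    intro c hc
    apply hS2 c (S1 t2 ht2 c hc)
    have h3 := S3 t2 a c hc
    have e : a * t2 * a⁻¹ = t2 := by rw [← h2a]; group
    rw [e] at h3
    exact S2 t2 c hc _ h3
  have hSq12 : ∀ c ∈ Sq (t1 * t2), c ∈ U := by
    intro c hc
    apply hS12 c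
    have hinv : (t1 * t2) * (t1 * t2) = 1 := by
      calc (t1 * t2) * (t1 * t2) = t1 * (t2 * t1) * t2 := by group
        _ = t1 * (t1 * t2) * t2 := by rw [h12]
        _ = (t1 * t1) * (t2 * t2) := by group
        _ = 1 := by rw [ht1, ht2, one_mul]
    have := S1 _ hinv c hc
    rw [mulap] at this
    exact this
  have hl3' : ∀ x y, l * (x * y) * l⁻¹ = (l * x * l⁻¹) * (l * y * l⁻¹) := by
    intro x y
    group
  have c1 : l * t1 * l⁻¹ = t2 := by rw [hl1]; group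
  have c2 : l * t2 * l⁻¹ = t3 := by rw [hl2]; group
  have c3 : l * t3 * l⁻¹ = t1 := by rw [hl3]; group
  have hSq3 : ∀ c ∈ Sq t3, c ∈ U := by
    intro c hc
    apply hmemL
    apply hSq2
    apply e4
    rw [c2]
    exact hc
  have hSq23 : ∀ c ∈ Sq (t2 * t3), c ∈ U := by
    intro c hc
    apply hmemL
    apply hSq12
    apply e4
    rw [hl3', c1, c2]
    exact hc
  have hSq13 : ∀ c ∈ Sq (t1 * t3), c ∈ U := by
    intro c hc
    apply hmemL
    apply hSq23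
    apply e4
    rw [hl3', c2, c3, ← h13]
    exact hc
  exact ⟨U, hcard, h1U, h2U, h3U, hSq1, hSq2, hSq3, hSq12, hSq13, hSq23⟩

end Abstract

section Ext

variable {X V Y : Type*} [Group X] [Finite X] [CommGroup V] [Group Y]

/-- Three elements with commuting involutive images. -/
theorem three_sq {Z : Type*} [Group Z] {a b c : Z} (ha : a * a = 1) (hb : b * b = 1) (hc : c * c = 1)
    (hab : (a * b) * (a * b) = 1) (hac : (a * c) * (a * c) = 1) (hbc : (b * c) * (b * c) = 1) :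
    (a * b * c) * (a * b * c) = 1 := by
  have comm : ∀ {x y : Z}, x * x = 1 → y * y = 1 → (x * y) * (x * y) = 1 → x * y = y * x := by
    intro x y hx hy hxy
    have h1 : x * y = (x * y)⁻¹ := eq_inv_of_mul_eq_one_left hxy
    rw [h1, mul_inv_rev, inv_eq_of_mul_eq_one_left hx, inv_eq_of_mul_eq_one_left hy]
  have e1 := comm ha hb hab
  have e2 := comm ha hc hac
  have e3 := comm hb hc hbc
  calc (a * b * c) * (a * b * c) = a * b * (c * a) * b * c := by group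
    _ = a * b * (a * c) * b * c := by rw [e2]
    _ = a * (b * a) * c * b * c := by group
    _ = a * (a * b) * c * b * c := by rw [e1]
    _ = (a * a) * b * (c * b) * c := by group
    _ = (a * a) * b * (b * c) * c := by rw [e3]
    _ = (a * a) * (b * b) * (c * c) := by group
    _ = 1 := by rw [ha, hb, hc]; simp

/-- An elementary abelian section of order at least `32` contradicts the sectional rank. -/
theorem not_sectional {P D : Subgroup X} (hDP : D ≤ P) (hn : ∀ x ∈ P, ∀ y ∈ D, x * y * x⁻¹ ∈ D)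
    (hsq : ∀ x ∈ P, x * x ∈ D) (hidx : 32 ≤ D.relIndex P) (h4 : Cfsg.SectionalPRankLE 2 4 X) : False := by
  haveI hN : (D.subgroupOf P).Normal := by
    refine ⟨fun n hn' g => ?_⟩
    rw [Subgroup.mem_subgroupOf] at hn' ⊢
    exact hn g.1 g.2 n.1 hn'
  have hexp : ∀ z : ↥P ⧸ D.subgroupOf P, z * z = 1 := by
    intro z
    obtain ⟨x, rfl⟩ := QuotientGroup.mk_surjective z
    rw [← QuotientGroup.mk_mul, QuotientGroup.eq_one_iff, Subgroup.mem_subgroupOf]
    exact hsq x.1 x.2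
  have hcomm : ∀ a b : ↥P ⧸ D.subgroupOf P, a * b = b * a := by
    intro a b
    have h1 : a * b = (a * b)⁻¹ := eq_inv_of_mul_eq_one_left (hexp _)
    rw [h1, mul_inv_rev, inv_eq_of_mul_eq_one_left (hexp a), inv_eq_of_mul_eq_one_left (hexp b)]
  have h1 := h4 P (D.subgroupOf P) ⊤ ⟨⟨fun a b => Subtype.ext (hcomm a.1 b.1)⟩⟩
    (by
      intro a _
      rw [pow_two]
      exact hexp a)
  rw [Subgroup.card_top, ← Subgroup.index_eq_card] at h1
  have h5 : (D.subgroupOf P).index = D.relIndex P := rfl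
  rw [h5] at h1
  omega

/-- The main construction. -/
theorem ext_main [Finite V] (R : Subgroup X) [hRn : R.Normal] (h2 : ∀ v : V, v * v = 1) (cl : R →* V)
    (hcl : Function.Surjective cl) (α : X →* MulAut V)
    (hα : ∀ (x : X) (r : R), α x (cl r) = cl (MulAut.conjNormal x r))
    (ι : Y →* X ⧸ R) (hι : Function.Injective ι) (ρ : Y →* MulAut V)
    (hρ : ∀ (g : Y) (x : X), ((x : X ⧸ R)) = ι g → ρ g = α x)
    {a b t1 t2 t3 l : Y}
    (ha3 : a * (a * a) = 1) (hb3 : b * (b * b) = 1) (hab : a * b = b * a)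
    (ht1 : t1 * t1 = 1) (ht2 : t2 * t2 = 1) (ht3 : t3 * t3 = 1)
    (h12 : t1 * t2 = t2 * t1) (h13 : t1 * t3 = t3 * t1) (h23 : t2 * t3 = t3 * t2)
    (h1b : t1 * b = b * t1) (h1a : t1 * a = a * (a * t1)) (h2a : t2 * a = a * t2)
    (h2b : t2 * b = b * (b * t2)) (hl1 : l * t1 = t2 * l) (hl2 : l * t2 = t3 * l)
    (hl3 : l * t3 = t1 * l)
    (hV : Nat.card V = 16) (hcA : Nat.card (fixS (ρ a).toMonoidHom) = 4)
    (hcB : Nat.card (fixS (ρ b).toMonoidHom) = 4)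
    (hinf : fixS (ρ a).toMonoidHom ⊓ fixS (ρ b).toMonoidHom = ⊥)
    (E : Subgroup Y)
    (hE : ∀ g ∈ E, g = 1 ∨ g = t1 ∨ g = t2 ∨ g = t3 ∨ g = t1 * t2 ∨ g = t1 * t3 ∨ g = t2 * t3 ∨
      g = t1 * t2 * t3)
    (ht1E : t1 ∈ E) (ht2E : t2 ∈ E) (ht3E : t3 ∈ E)
    (hEcard : 8 ≤ Nat.card E) (h4 : Cfsg.SectionalPRankLE 2 4 X) : False := by
  classical
  let Sq : Y → Set V := fun x => {c | ∃ s : X, ((s : X ⧸ R)) = ι x ∧ ∃ r : R, s * s = (r : X) ∧ c = cl r}
  have S1 : ∀ x, x * x = 1 → ∀ c ∈ Sq x, ρ x c = c := by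
    rintro x - c ⟨s, hs, r, hr, rfl⟩
    rw [hρ x s hs, hα]
    congr 1
    apply Subtype.ext
    show s * (r : X) * s⁻¹ = r
    rw [← hr]
    group
  have S2 : ∀ x, ∀ c ∈ Sq x, ∀ c' ∈ Sq x, ∃ v, c' = c * (ρ x v * v) := by
    rintro x c ⟨s, hs, r, hr, rfl⟩ c' ⟨s', hs', r', hr', rfl⟩
    have ht : s⁻¹ * s' ∈ R := QuotientGroup.eq.1 (hs.trans hs'.symm)
    let tR : R := ⟨s⁻¹ * s', ht⟩
    refine ⟨cl (MulAut.conjNormal s⁻¹ tR), ?_⟩
    have e1 : ρ x (cl (MulAut.conjNormal s⁻¹ tR)) = cl tR := by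
      rw [hρ x s hs, hα]
      congr 1
      apply Subtype.ext
      show s * (s⁻¹ * (s⁻¹ * s') * s⁻¹⁻¹) * s⁻¹ = s⁻¹ * s'
      group
    rw [e1]
    have e2 : r' = r * (MulAut.conjNormal s⁻¹ tR) * tR := by
      apply Subtype.ext
      show (r' : X) = (r : X) * (s⁻¹ * (s⁻¹ * s') * s⁻¹⁻¹) * (s⁻¹ * s')
      rw [← hr, ← hr']
      group
    rw [e2, map_mul, map_mul]
    simp only [mul_assoc, mul_comm, mul_left_comm]
  have S3 : ∀ x g, ∀ c ∈ Sq x, ρ g c ∈ Sq (g * x * g⁻¹) := by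
    rintro x g c ⟨s, hs, r, hr, rfl⟩
    obtain ⟨y, hy⟩ := QuotientGroup.mk_surjective (ι g)
    refine ⟨y * s * y⁻¹, ?_, MulAut.conjNormal y r, ?_, ?_⟩
    · rw [map_mul, map_mul, map_inv, QuotientGroup.mk_mul, QuotientGroup.mk_mul, QuotientGroup.mk_inv, hs]
      rw [show ((y : X ⧸ R)) = ι g from hy]
    · show y * s * y⁻¹ * (y * s * y⁻¹) = y * (r : X) * y⁻¹
      rw [← hr]
      group
    · rw [hρ g y hy, hα]
  obtain ⟨U, hUcard, h1U, h2U, h3U, hS1, hS2, hS3, hS12, hS13, hS23⟩ :=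
    config_sq h2 ρ ha3 hb3 hab ht1 ht2 ht3 h12 h13 h23 h1b h1a h2a h2b hl1 hl2 hl3 hV hcA hcB hinf
      Sq S1 S2 S3
  have hpres : ∀ g ∈ E, ∀ u ∈ U, ρ g u ∈ U := by
    intro g hg u hu
    rcases hE g hg with rfl | rfl | rfl | rfl | rfl | rfl | rfl | rfl
    · rw [map_one]
      exact hu
    · exact h1U u hu
    · exact h2U u hu
    · exact h3U u hu
    · rw [map_mul]
      exact h1U _ (h2U u hu)
    · rw [map_mul]
      exact h1U _ (h3U u hu)
    · rw [map_mul]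
      exact h2U _ (h3U u hu)
    · rw [map_mul, map_mul]
      exact h1U _ (h2U _ (h3U u hu))
  let P : Subgroup X := (E.map ι).comap (QuotientGroup.mk' R)
  let D : Subgroup X := (U.comap cl).map R.subtype
  have hmemP : ∀ x, x ∈ P ↔ ∃ g ∈ E, ι g = (x : X ⧸ R) := fun x => Iff.rfl
  have hmemD : ∀ x, x ∈ D ↔ ∃ r : R, cl r ∈ U ∧ (r : X) = x := by
    intro x
    constructor
    · rintro ⟨r, hr, rfl⟩
      exact ⟨r, hr, rfl⟩
    · rintro ⟨r, hr, rfl⟩
      exact ⟨r, hr, rfl⟩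
  have hRP : R ≤ P := by
    intro x hx
    refine (hmemP x).2 ⟨1, E.one_mem, ?_⟩
    rw [map_one]
    exact ((QuotientGroup.eq_one_iff x).2 hx).symm
  have hDR : D ≤ R := by
    intro x hx
    obtain ⟨r, -, rfl⟩ := (hmemD x).1 hx
    exact r.2
  have hDP : D ≤ P := hDR.trans hRP
  have hn : ∀ x ∈ P, ∀ y ∈ D, x * y * x⁻¹ ∈ D := by
    intro x hx y hy
    obtain ⟨g, hg, hgx⟩ := (hmemP x).1 hx
    obtain ⟨r, hr, rfl⟩ := (hmemD y).1 hy
    refine (hmemD _).2 ⟨MulAut.conjNormal x r, ?_, rfl⟩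
    rw [← hα, ← hρ g x hgx.symm]
    exact hpres g hg _ hr
  have hsqg : ∀ g, g * g = 1 → (∀ c ∈ Sq g, c ∈ U) → ∀ x : X, ((x : X ⧸ R)) = ι g → x * x ∈ D := by
    intro g hgg hS x hx
    have h3 : x * x ∈ R := by
      rw [← QuotientGroup.eq_one_iff, QuotientGroup.mk_mul, hx, ← map_mul, hgg, map_one]
    exact (hmemD _).2 ⟨⟨x * x, h3⟩, hS _ ⟨x, hx, ⟨x * x, h3⟩, rfl, rfl⟩, rfl⟩
  have hS0 : ∀ c ∈ Sq 1, c ∈ U := by
    rintro c ⟨s, hs, r, hr, rfl⟩
    have hsR : s ∈ R := by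
      rw [← QuotientGroup.eq_one_iff, hs, map_one]
    have e : r = (⟨s, hsR⟩ : R) * ⟨s, hsR⟩ := Subtype.ext hr.symm
    rw [e, map_mul, h2]
    exact U.one_mem
  have hpair : ∀ {x y : Y}, x * x = 1 → y * y = 1 → x * y = y * x → (x * y) * (x * y) = 1 := by
    intro x y hx hy hxy
    calc (x * y) * (x * y) = x * (y * x) * y := by group
      _ = x * (x * y) * y := by rw [hxy]
      _ = (x * x) * (y * y) := by group
      _ = 1 := by rw [hx, hy, one_mul]
  have hlift : ∀ g : Y, ∃ s : X, ((s : X ⧸ R)) = ι g := fun g => QuotientGroup.mk_surjective (ι g)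
  have hliftP : ∀ g ∈ E, ∀ s : X, ((s : X ⧸ R)) = ι g → s ∈ P := by
    intro g hg s hs
    exact (hmemP s).2 ⟨g, hg, hs.symm⟩
  have hsq : ∀ x ∈ P, x * x ∈ D := by
    intro x hx
    obtain ⟨g, hg, hgx⟩ := (hmemP x).1 hx
    rcases hE g hg with rfl | rfl | rfl | rfl | rfl | rfl | rfl | rfl
    · exact hsqg 1 (one_mul 1) hS0 x hgx.symm
    · exact hsqg _ ht1 hS1 x hgx.symm
    · exact hsqg _ ht2 hS2 x hgx.symm
    · exact hsqg _ ht3 hS3 x hgx.symm
    · exact hsqg _ (hpair ht1 ht2 h12) hS12 x hgx.symm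
    · exact hsqg _ (hpair ht1 ht3 h13) hS13 x hgx.symm
    · exact hsqg _ (hpair ht2 ht3 h23) hS23 x hgx.symm
    · obtain ⟨s1, hs1⟩ := hlift t1
      obtain ⟨s2, hs2⟩ := hlift t2
      let s3 := s2⁻¹ * (s1⁻¹ * x)
      have hs3 : ((s3 : X ⧸ R)) = ι t3 := by
        show ((s2⁻¹ * (s1⁻¹ * x) : X) : X ⧸ R) = ι t3
        rw [QuotientGroup.mk_mul, QuotientGroup.mk_mul, QuotientGroup.mk_inv, QuotientGroup.mk_inv,
          hs1, hs2, ← hgx, map_mul, map_mul]
        group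
      have hP1 := hliftP _ ht1E s1 hs1
      have hP2 := hliftP _ ht2E s2 hs2
      have hP3 := hliftP _ ht3E s3 hs3
      have hs12 : ((s1 * s2 : X) : X ⧸ R) = ι (t1 * t2) := by
        rw [QuotientGroup.mk_mul, hs1, hs2, map_mul]
      have hs13 : ((s1 * s3 : X) : X ⧸ R) = ι (t1 * t3) := by
        rw [QuotientGroup.mk_mul, hs1, hs3, map_mul]
      have hs23 : ((s2 * s3 : X) : X ⧸ R) = ι (t2 * t3) := by
        rw [QuotientGroup.mk_mul, hs2, hs3, map_mul]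
      haveI hN : (D.subgroupOf P).Normal := by
        refine ⟨fun n hn' g => ?_⟩
        rw [Subgroup.mem_subgroupOf] at hn' ⊢
        exact hn g.1 g.2 n.1 hn'
      have hZ : ∀ u v : P, (u : X) * v ∈ D → ((u : ↥P ⧸ D.subgroupOf P)) * (v : ↥P ⧸ D.subgroupOf P) = 1 := by
        intro u v huv
        rw [← QuotientGroup.mk_mul, QuotientGroup.eq_one_iff, Subgroup.mem_subgroupOf]
        exact huv
      have hT := three_sq (a := ((⟨s1, hP1⟩ : P) : ↥P ⧸ D.subgroupOf P))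
        (b := ((⟨s2, hP2⟩ : P) : ↥P ⧸ D.subgroupOf P)) (c := ((⟨s3, hP3⟩ : P) : ↥P ⧸ D.subgroupOf P))
        (hZ _ _ (hsqg _ ht1 hS1 s1 hs1)) (hZ _ _ (hsqg _ ht2 hS2 s2 hs2)) (hZ _ _ (hsqg _ ht3 hS3 s3 hs3))
        (by
          rw [← QuotientGroup.mk_mul]
          exact hZ _ _ (hsqg _ (hpair ht1 ht2 h12) hS12 _ hs12))
        (by
          rw [← QuotientGroup.mk_mul]
          exact hZ _ _ (hsqg _ (hpair ht1 ht3 h13) hS13 _ hs13))
        (by
          rw [← QuotientGroup.mk_mul]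
          exact hZ _ _ (hsqg _ (hpair ht2 ht3 h23) hS23 _ hs23))
      rw [← QuotientGroup.mk_mul, ← QuotientGroup.mk_mul, ← QuotientGroup.mk_mul,
        QuotientGroup.eq_one_iff, Subgroup.mem_subgroupOf] at hT
      have e : ((⟨s1, hP1⟩ : P) * ⟨s2, hP2⟩ * ⟨s3, hP3⟩ : P) = ⟨x, hx⟩ := by
        apply Subtype.ext
        show s1 * s2 * (s2⁻¹ * (s1⁻¹ * x)) = x
        group
      rw [e] at hT
      exact hT
  -- the index
  have hidx : 32 ≤ D.relIndex P := by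
    have h3 := Subgroup.relIndex_mul_relIndex D R P hDR hRP
    have h5 : R.relIndex P = Nat.card (E.map ι) := by
      have h5a : ((QuotientGroup.mk' R).ker).relIndex P = Nat.card (P.map (QuotientGroup.mk' R)) :=
        Subgroup.relIndex_ker _ _
      rw [QuotientGroup.ker_mk'] at h5a
      rw [h5a]
      have e : P.map (QuotientGroup.mk' R) = E.map ι :=
        Subgroup.map_comap_eq_self_of_surjective (QuotientGroup.mk'_surjective R) _
      rw [e]
    have h6 : Nat.card (E.map ι) = Nat.card E :=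
      Nat.card_congr (E.equivMapOfInjective ι hι).toEquiv.symm
    have h7 : D.relIndex R = U.index := by
      show (D.subgroupOf R).index = _
      have e : D.subgroupOf R = U.comap cl := by
        ext r
        rw [Subgroup.mem_subgroupOf]
        constructor
        · intro h
          obtain ⟨r', hr', e'⟩ := (hmemD _).1 h
          have : r' = r := Subtype.ext e'
          rw [← this]
          exact hr'
        · intro h
          exact (hmemD _).2 ⟨r, h, rfl⟩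
      rw [e, Subgroup.index_comap_of_surjective _ hcl]
    have h8 := Subgroup.card_mul_index U
    rw [hV] at h8
    have h9 : 4 ≤ U.index := by
      by_contra hc
      push Not at hc
      have : Nat.card U * U.index ≤ 4 * 3 := Nat.mul_le_mul hUcard (by omega)
      omega
    rw [← h3, h7, h5, h6]
    calc 32 = 4 * 8 := by norm_num
      _ ≤ _ := Nat.mul_le_mul h9 hEcard
  exact not_sectional hDP hn hsq hidx h4

end Ext

end Cfsg.Agent.Lib.Sect4.Section
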