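import Mathlib
import Cfsg.Prelude.Def_CaseTheorems
import Cfsg.Agent.Lib.Sect4.Section
import Cfsg.Agent.Lib.Sect4.Frat
import Cfsg.Agent.Lib.Sect4.A5Ident

/-!
# From the two-constrained group to the context
-/

set_option autoImplicit false
set_option linter.unusedSectionVars false
set_option linter.unusedVariables false

namespace Cfsg.Agent.Lib.Sect4.A5Top

open Subgroup Cfsg
open scoped commutatorElement

universe u

/-- The action on the Frattini quotient. -/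
theorem frattini_data2 {X : Type u} [Group X] [Finite X] (Q : Subgroup X) [hQn : Q.Normal]
    (hQp : IsPGroup 2 Q) (hleQ : ∀ N : Subgroup X, N.Normal → IsPGroup 2 N → N ≤ Q)
    (hcen : centralizer (Q : Set X) ≤ Q) (h4 : Cfsg.SectionalPRankLE 2 4 X) :
    ∃ (V : Type u) (_ : CommGroup V) (_ : Finite V) (cl : Q →* V) (α : X →* MulAut V),
      (∀ v : V, v * v = 1) ∧ Function.Surjective cl ∧
      (∀ (x : X) (r : Q), α x (cl r) = cl (MulAut.conjNormal x r)) ∧
      (∀ x, α x = 1 ↔ x ∈ Q) ∧ Nat.card V ≤ 16 ∧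
      (∀ S : Subgroup Q, (∀ r : Q, r * r ∈ S) → ∀ r : Q, cl r = 1 → r ∈ S) := by
  classical
  haveI h2F : Fact (Nat.Prime 2) := ⟨Nat.prime_two⟩
  have hcommV : ∀ a b : ↥Q ⧸ frattini ↥Q, a * b = b * a := by
    intro a b
    obtain ⟨u, rfl⟩ := QuotientGroup.mk_surjective a
    obtain ⟨v, rfl⟩ := QuotientGroup.mk_surjective b
    rw [← QuotientGroup.mk_mul, ← QuotientGroup.mk_mul, QuotientGroup.eq]
    have h1 := Cfsg.Agent.Lib.PGroup.Basic.commutatorElement_mem_frattini hQp v⁻¹ u⁻¹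
    have h2 : (u * v)⁻¹ * (v * u) = ⁅v⁻¹, u⁻¹⁆ := by
      rw [commutatorElement_def]
      group
    rw [h2]
    exact h1
  have hexpV : ∀ v : ↥Q ⧸ frattini ↥Q, v ^ 2 = 1 := by
    intro v
    obtain ⟨u, rfl⟩ := QuotientGroup.mk_surjective v
    rw [← QuotientGroup.mk_pow, QuotientGroup.eq_one_iff]
    exact Cfsg.Agent.Lib.PGroup.Basic.pow_mem_frattini hQp u
  let α : X →* MulAut (↥Q ⧸ frattini ↥Q) :=
    { toFun := fun x => QuotientGroup.congr (frattini ↥Q) (frattini ↥Q) (MulAut.conjNormal x)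
        (Subgroup.characteristic_iff_map_eq.1 inferInstance _)
      map_one' := by
        ext v
        obtain ⟨u, rfl⟩ := QuotientGroup.mk_surjective v
        simp [QuotientGroup.congr_mk]
      map_mul' := by
        intro x y
        ext v
        obtain ⟨u, rfl⟩ := QuotientGroup.mk_surjective v
        show ((MulAut.conjNormal (x * y) u : Q) : ↥Q ⧸ frattini ↥Q) =
          ((MulAut.conjNormal x (MulAut.conjNormal y u) : Q) : ↥Q ⧸ frattini ↥Q)
        rw [map_mul]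
        rfl }
  have hα : ∀ (x : X) (t : Q), α x (t : ↥Q ⧸ frattini ↥Q) =
      ((MulAut.conjNormal x t : Q) : ↥Q ⧸ frattini ↥Q) := fun x t => rfl
  have hαker : ∀ x : X, α x = 1 ↔ ∀ t : Q, t⁻¹ * (MulAut.conjNormal x t : Q) ∈ frattini ↥Q := by
    intro x
    constructor
    · intro h t
      have h1 := hα x t
      rw [h] at h1
      exact QuotientGroup.eq.1 h1
    · intro h
      ext v
      obtain ⟨u, rfl⟩ := QuotientGroup.mk_surjective v
      rw [hα]
      exact (QuotientGroup.eq.2 (h u)).symm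
  obtain ⟨e, he⟩ := IsPGroup.iff_card.1 (hQp.to_quotient (frattini ↥Q))
  have he4 : e ≤ 4 := by
    by_contra hcon
    have h5 : 2 ^ 5 ≤ 2 ^ e := Nat.pow_le_pow_right (by norm_num) (by omega)
    rw [← he] at h5
    have hidx : ((frattini ↥Q).map Q.subtype).relIndex ((⊤ : Subgroup ↥Q).map Q.subtype) =
        Nat.card (↥Q ⧸ frattini ↥Q) := by
      rw [Subgroup.relIndex_map_map_of_injective _ _ Q.subtype_injective, Subgroup.relIndex_top_right]
      rfl
    refine Cfsg.Agent.Lib.Sect4.Section.not_sectional (P := (⊤ : Subgroup ↥Q).map Q.subtype)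
      (D := (frattini ↥Q).map Q.subtype) (Subgroup.map_mono le_top) ?_ ?_ ?_ h4
    · rintro _ ⟨x, -, rfl⟩ _ ⟨y, hy, rfl⟩
      refine ⟨x * y * x⁻¹, ?_, rfl⟩
      haveI : (frattini ↥Q).Normal := Subgroup.normal_of_characteristic _
      exact Subgroup.Normal.conj_mem inferInstance y hy x
    · rintro _ ⟨x, -, rfl⟩
      refine ⟨x * x, ?_, rfl⟩
      rw [← pow_two]
      exact Cfsg.Agent.Lib.PGroup.Basic.pow_mem_frattini hQp x
    · rw [hidx]
      omega
  have hQα : ∀ x ∈ Q, α x = 1 := by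
    intro x hx
    rw [hαker]
    intro t
    have h1 := Cfsg.Agent.Lib.PGroup.Basic.commutatorElement_mem_frattini hQp t⁻¹ ⟨x, hx⟩
    have h2 : t⁻¹ * (MulAut.conjNormal x t : Q) = ⁅t⁻¹, (⟨x, hx⟩ : Q)⁆ := by
      apply Subtype.ext
      simp only [Subgroup.coe_mul, MulAut.conjNormal_apply, commutatorElement_def,
        InvMemClass.coe_inv]
      group
    rw [h2]
    exact h1
  have hkerα : ∀ x, α x = 1 → x ∈ Q := by
    have hC : α.ker ≤ Q := by
      apply hleQ _ inferInstance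
      apply Cfsg.Agent.Lib.Coprime.Stability.isPGroup_of_forall_coprime Nat.prime_two
      intro y hy hyc
      have hA : zpowers y ≤ centralizer (Q : Set X) := by
        apply Cfsg.Agent.Lib.Coprime.FrattiniAct.le_centralizer_of_frattini hQp
        · rw [normalizer_eq_top]
          exact le_top
        · rw [Nat.card_zpowers]
          exact hyc
        · intro t ht a ha
          have ha' : a ∈ α.ker := (zpowers_le.2 hy) ha
          have h1 := (hαker a).1 (MonoidHom.mem_ker.1 ha') ⟨t, ht⟩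
          refine ⟨_, h1, ?_⟩
          simp
      have hyQ : y ∈ Q := hcen (hA (mem_zpowers y))
      obtain ⟨k, hk⟩ := hQp ⟨y, hyQ⟩
      have h2 : y ^ 2 ^ k = 1 := by simpa using congrArg Subtype.val hk
      have h3 : orderOf y ∣ 2 ^ k := orderOf_dvd_of_pow_eq_one h2
      exact orderOf_eq_one_iff.1 (Nat.Coprime.eq_one_of_dvd (hyc.pow_right k) h3)
    intro x hx
    exact hC (MonoidHom.mem_ker.2 hx)
  letI cg : CommGroup (↥Q ⧸ frattini ↥Q) := { (inferInstance : Group (↥Q ⧸ frattini ↥Q)) with mul_comm := hcommV }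
  refine ⟨↥Q ⧸ frattini ↥Q, cg, inferInstance, QuotientGroup.mk' _, α, ?_, QuotientGroup.mk'_surjective _,
    fun x r => hα x r, fun x => ⟨hkerα x, hQα x⟩, ?_, ?_⟩
  · intro v
    rw [← pow_two]
    exact hexpV v
  · rw [he]
    calc 2 ^ e ≤ 2 ^ 4 := Nat.pow_le_pow_right (by norm_num) he4
      _ = 16 := by norm_num
  · intro S hS r hr
    have h1 : frattini ↥Q ≤ S := by
      rw [Cfsg.Agent.Lib.PGroup.Basic.frattini_le_iff hQp]
      constructor
      · intro a
        rw [pow_two]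
        exact hS a
      · intro a b
        have e : ⁅a, b⁆ = (a * a) * ((a⁻¹ * b) * (a⁻¹ * b)) * ((b⁻¹ * b⁻¹)) := by
          rw [commutatorElement_def]
          group
        rw [e]
        exact S.mul_mem (S.mul_mem (hS a) (hS _)) (hS _)
    exact h1 ((QuotientGroup.eq_one_iff _).1 hr)

theorem conj5 {G : Type*} [Group G] [Finite G] {m : ℕ} (hc : Nat.card G = 2 ^ m * 5) {a b : G}
    (ha5 : a ^ 5 = 1) (ha1 : a ≠ 1) (hb5 : b ^ 5 = 1) (hb1 : b ≠ 1) :
    ∃ s : G, s * a * s⁻¹ ∈ zpowers b := by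
  classical
  haveI : Fact (Nat.Prime 5) := ⟨by norm_num⟩
  have ordA : orderOf a = 5 := orderOf_eq_prime ha5 ha1
  have ordB : orderOf b = 5 := orderOf_eq_prime hb5 hb1
  have hPa : IsPGroup 5 (zpowers a) := IsPGroup.of_card (n := 1) (by
    rw [Nat.card_zpowers, ordA]; norm_num)
  have hPb : IsPGroup 5 (zpowers b) := IsPGroup.of_card (n := 1) (by
    rw [Nat.card_zpowers, ordB]; norm_num)
  obtain ⟨S1, hS1⟩ := hPa.exists_le_sylow
  obtain ⟨S2, hS2⟩ := hPb.exists_le_sylow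
  obtain ⟨s, hs⟩ := Cfsg.Agent.Lib.Basic.SylowUtil.exists_conj_smul_eq S1 S2
  have hcard : Nat.card S2 = 5 := by
    rw [S2.card_eq_multiplicity, hc]
    have hf : (2 ^ m * 5).factorization 5 = 1 := by
      rw [Nat.factorization_mul (by positivity) (by norm_num), Nat.factorization_pow,
        Nat.Prime.factorization (by norm_num : Nat.Prime 2),
        Nat.Prime.factorization (by norm_num : Nat.Prime 5)]
      simp
    rw [hf, pow_one]
  have hle : zpowers b = (S2 : Subgroup G) :=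
    Subgroup.eq_of_le_of_card_ge hS2 (by rw [hcard, Nat.card_zpowers, ordB])
  refine ⟨s, ?_⟩
  rw [hle, ← hs]
  exact Cfsg.Agent.Lib.Basic.Conj.conj_mem_conj_smul (hS1 (mem_zpowers a))

theorem a5_elems : ∃ g0 t0 d0 : alternatingGroup (Fin 5), g0 ^ 5 = 1 ∧ g0 ≠ 1 ∧
    t0 * g0 * t0⁻¹ = g0⁻¹ ∧ t0 * t0 = 1 ∧ d0 ^ 3 = 1 ∧ d0 ≠ 1 := by
  refine ⟨⟨Equiv.swap 0 1 * Equiv.swap 1 2 * Equiv.swap 2 3 * Equiv.swap 3 4, by
      rw [Equiv.Perm.mem_alternatingGroup]; decide +kernel⟩,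
    ⟨Equiv.swap 1 4 * Equiv.swap 2 3, by rw [Equiv.Perm.mem_alternatingGroup]; decide +kernel⟩,
    ⟨Equiv.swap 0 1 * Equiv.swap 1 2, by rw [Equiv.Perm.mem_alternatingGroup]; decide +kernel⟩,
    ?_, ?_, ?_, ?_, ?_, ?_⟩ <;> decide +kernel

theorem make_gtd {Y : Type*} [Group Y] [Finite Y] (π : Y →* alternatingGroup (Fin 5))
    (hs : Function.Surjective π) (hR : ∀ r, π r = 1 → ∃ k : ℕ, r ^ 2 ^ k = 1) :
    ∃ g t d : Y, g ^ 5 = 1 ∧ g ≠ 1 ∧ π g ≠ 1 ∧ t * g * t⁻¹ = g⁻¹ ∧ π (t * t) = 1 ∧ d ^ 3 = 1 ∧ d ≠ 1 := by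
  classical
  haveI h5F : Fact (Nat.Prime 5) := ⟨by norm_num⟩
  haveI h3F : Fact (Nat.Prime 3) := ⟨by norm_num⟩
  haveI h2F : Fact (Nat.Prime 2) := ⟨Nat.prime_two⟩
  obtain ⟨g0, t0, d0, hg5, hg1, htg, htt, hd3, hd1⟩ := a5_elems
  have lift : ∀ (u : alternatingGroup (Fin 5)) (n : ℕ) [Fact n.Prime], n ≠ 2 → u ^ n = 1 → u ≠ 1 →
      ∃ (h : Y) (k : ℕ), h ^ n = 1 ∧ π h = u ^ (2 ^ k) ∧ π h ≠ 1 := by
    intro u n _ hn2 hun hu1
    obtain ⟨h1, rfl⟩ := hs u
    obtain ⟨k, hk⟩ := hR (h1 ^ n) (by rw [map_pow, hun])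
    refine ⟨h1 ^ (2 ^ k), k, ?_, map_pow _ _ _, ?_⟩
    · rw [← pow_mul, mul_comm, pow_mul, hk]
    · intro h
      rw [map_pow] at h
      have hord : orderOf (π h1) = n := orderOf_eq_prime hun hu1
      have h3 := orderOf_dvd_of_pow_eq_one h
      rw [hord] at h3
      have h4 : n ∣ 2 := (Fact.out : n.Prime).dvd_of_dvd_pow h3
      exact hn2 ((Nat.prime_dvd_prime_iff_eq Fact.out Nat.prime_two).1 h4)
  obtain ⟨g, K, hg5', hgK, hg1'⟩ := lift g0 5 (by norm_num) hg5 hg1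
  obtain ⟨d, _, hd3', _, hd1'⟩ := lift d0 3 (by norm_num) hd3 hd1
  have hgne : g ≠ 1 := by
    rintro rfl
    exact hg1' (map_one π)
  have hdne : d ≠ 1 := by
    rintro rfl
    exact hd1' (map_one π)
  obtain ⟨g', hg'⟩ : ∃ g', g' = π g := ⟨_, rfl⟩
  have hg'5 : g' ^ 5 = 1 := by rw [hg', ← map_pow, hg5', map_one]
  have hg'1 : g' ≠ 1 := by rw [hg']; exact hg1'
  have hord' : orderOf g' = 5 := orderOf_eq_prime hg'5 hg'1
  have hinv : t0 * g' * t0⁻¹ = g'⁻¹ := by
    rw [hg', hgK, ← conj_pow, htg, inv_pow]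
  have hconjall : ∀ c ∈ zpowers g', t0 * c * t0⁻¹ = c⁻¹ := by
    rintro c ⟨i, rfl⟩
    show t0 * g' ^ i * t0⁻¹ = (g' ^ i)⁻¹
    rw [← conj_zpow, hinv, inv_zpow]
  obtain ⟨t1, ht1⟩ := hs t0
  obtain ⟨k, hk⟩ : ∃ k, k = t1 * g * t1⁻¹ := ⟨_, rfl⟩
  have hk5 : k ^ 5 = 1 := by
    rw [hk, conj_pow, hg5']
    group
  have hk1 : k ≠ 1 := by
    rw [hk]
    intro h
    exact hgne (conj_eq_one_iff.1 h)
  have hπk : π k = g'⁻¹ := by
    rw [hk, map_mul, map_mul, map_inv, ht1, ← hg', hinv]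
  let L : Subgroup Y := (zpowers g').comap π
  have hgL : g ∈ L := by
    show π g ∈ zpowers g'
    rw [← hg']
    exact mem_zpowers g'
  have hkL : k ∈ L := by
    show π k ∈ zpowers g'
    rw [hπk]
    exact inv_mem (mem_zpowers g')
  have hRp : IsPGroup 2 π.ker := by
    rintro ⟨r, hr⟩
    obtain ⟨k', hk'⟩ := hR r hr
    exact ⟨k', Subtype.ext hk'⟩
  obtain ⟨m, hm⟩ := IsPGroup.iff_card.1 hRp
  have hRL : π.ker ≤ L := by
    intro r hr
    show π r ∈ zpowers g'
    rw [MonoidHom.mem_ker.1 hr]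
    exact one_mem _
  have hLcard : Nat.card L = 2 ^ m * 5 := by
    have h1 := Subgroup.relIndex_mul_relIndex (⊥ : Subgroup Y) π.ker L bot_le hRL
    rw [Subgroup.relIndex_bot_left, Subgroup.relIndex_bot_left, Subgroup.relIndex_ker, hm,
      Subgroup.map_comap_eq_self_of_surjective hs, Nat.card_zpowers, hord'] at h1
    exact h1.symm
  obtain ⟨s, hs'⟩ := conj5 (G := L) hLcard (a := ⟨g, hgL⟩) (b := ⟨k, hkL⟩) (Subtype.ext hg5')
    (fun h => hgne (congrArg Subtype.val h)) (Subtype.ext hk5) (fun h => hk1 (congrArg Subtype.val h))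
  obtain ⟨i, hi⟩ := Subgroup.mem_zpowers_iff.1 hs'
  have hi' : k ^ i = s.1 * g * s.1⁻¹ := by
    have h1 := congrArg Subtype.val hi
    simpa using h1
  have hπs : π s.1 ∈ zpowers g' := s.2
  have hcomm : π s.1 * g' = g' * π s.1 := by
    obtain ⟨j, hj⟩ := hπs
    rw [← hj]
    exact (Commute.zpow_left (Commute.refl g') j).eq
  have hi2 : (g'⁻¹) ^ i = g' := by
    have h1 := congrArg π hi'
    rw [map_zpow, hπk, map_mul, map_mul, map_inv, ← hg', hcomm] at h1
    rw [h1]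
    group
  have hi3 : g' ^ (i + 1) = 1 := by
    rw [zpow_add_one]
    nth_rewrite 2 [← hi2]
    rw [inv_zpow]
    group
  have hdvd : ((5 : ℕ) : ℤ) ∣ i + 1 := by
    rw [← hord']
    exact orderOf_dvd_iff_zpow_eq_one.2 hi3
  have hki : k ^ i = k⁻¹ := by
    obtain ⟨q, hq⟩ := hdvd
    have h1 : k ^ (i + 1) = 1 := by
      rw [hq, zpow_mul]
      have h3 : k ^ ((5 : ℕ) : ℤ) = 1 := by
        rw [zpow_natCast]
        exact hk5
      rw [h3, one_zpow]
    rw [zpow_add_one] at h1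
    exact eq_inv_of_mul_eq_one_left h1
  refine ⟨g, t1⁻¹ * s.1, d, hg5', hgne, hg1', ?_, ?_, hd3', hdne⟩
  · have h1 : s.1 * g * s.1⁻¹ = t1 * g⁻¹ * t1⁻¹ := by
      rw [← hi', hki, hk]
      group
    calc t1⁻¹ * s.1 * g * (t1⁻¹ * s.1)⁻¹ = t1⁻¹ * (s.1 * g * s.1⁻¹) * t1 := by group
      _ = g⁻¹ := by rw [h1]; group
  · have hti : t0⁻¹ = t0 := inv_eq_of_mul_eq_one_left htt
    obtain ⟨c, hc⟩ : ∃ c, c = π s.1 := ⟨_, rfl⟩
    have hcz : c ∈ zpowers g' := by rw [hc]; exact hπs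
    rw [map_mul, map_mul, map_inv, ht1, ← hc, hti]
    have h3 := hconjall c hcz
    rw [hti] at h3
    calc t0 * c * (t0 * c) = (t0 * c * t0) * c := by group
      _ = 1 := by rw [h3]; group

/-- The conclusion is invariant under isomorphism. -/
theorem concl_transfer {G H : Type*} [Group G] [Group H] (e : G ≃* H) {A B : Subgroup G}
    (hA : Nonempty (A ≃* QuaternionGroup 2)) (hB : Nonempty (B ≃* DihedralGroup 4))
    (hc : ∀ a ∈ A, ∀ b ∈ B, a * b = b * a) (hs : A ⊔ B = ⊤) (hi : A ⊓ B = Subgroup.center G) :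
    ∃ A B : Subgroup H, Nonempty (A ≃* QuaternionGroup 2) ∧ Nonempty (B ≃* DihedralGroup 4) ∧
      (∀ a ∈ A, ∀ b ∈ B, a * b = b * a) ∧ A ⊔ B = ⊤ ∧ A ⊓ B = Subgroup.center H := by
  obtain ⟨eA⟩ := hA
  obtain ⟨eB⟩ := hB
  refine ⟨A.map e.toMonoidHom, B.map e.toMonoidHom,
    ⟨(A.equivMapOfInjective e.toMonoidHom e.injective).symm.trans eA⟩,
    ⟨(B.equivMapOfInjective e.toMonoidHom e.injective).symm.trans eB⟩, ?_, ?_, ?_⟩
  · rintro _ ⟨a, ha, rfl⟩ _ ⟨b, hb, rfl⟩
    rw [← map_mul, hc a ha b hb, map_mul]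
  · rw [← Subgroup.map_sup, hs, ← MonoidHom.range_eq_map]
    exact MonoidHom.range_eq_top.2 e.surjective
  · rw [← Subgroup.map_inf _ _ _ e.injective, hi]
    ext x
    constructor
    · rintro ⟨z, hz, rfl⟩
      rw [Subgroup.mem_center_iff]
      intro h
      obtain ⟨h', rfl⟩ := e.surjective h
      have h1 := (Subgroup.mem_center_iff.1 hz) h'
      show e h' * e z = e z * e h'
      rw [← map_mul, h1, map_mul]
    · intro hx
      refine ⟨e.symm x, ?_, by simp⟩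
      show e.symm x ∈ Subgroup.center G
      rw [Subgroup.mem_center_iff]
      intro h
      apply e.injective
      rw [map_mul, map_mul, e.apply_symm_apply]
      exact (Subgroup.mem_center_iff.1 hx) (e h)

theorem core_aux {X V : Type u} [Group X] [Finite X] [CommGroup V] [Finite V] (Q : Subgroup X)
    [hQn : Q.Normal] (hQp : IsPGroup 2 Q) (cl : Q →* V) (α : X →* MulAut V) (h2 : ∀ v : V, v * v = 1)
    (hcl : Function.Surjective cl) (hα : ∀ (x : X) (r : Q), α x (cl r) = cl (MulAut.conjNormal x r))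
    (hker : ∀ x, α x = 1 ↔ x ∈ Q) (h16 : Nat.card V ≤ 16)
    (hfr : ∀ S : Subgroup Q, (∀ r : Q, r * r ∈ S) → ∀ r : Q, cl r = 1 → r ∈ S)
    (h4 : Cfsg.SectionalPRankLE 2 4 X) (A : Subgroup (X ⧸ Q))
    (e : A ≃* alternatingGroup (Fin 5)) :
    ((∀ r ∈ Q, r * r = 1) ∧ Nat.card Q = 16) ∨
      (Nat.card Q = 32 ∧ ∃ A B : Subgroup Q, Nonempty (A ≃* QuaternionGroup 2) ∧
        Nonempty (B ≃* DihedralGroup 4) ∧ (∀ a ∈ A, ∀ b ∈ B, a * b = b * a) ∧ A ⊔ B = ⊤ ∧
          A ⊓ B = Subgroup.center Q) := by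
  classical
  obtain ⟨Y, hY⟩ : ∃ Y : Subgroup X, Y = A.comap (QuotientGroup.mk' Q) := ⟨_, rfl⟩
  have hYm : ∀ x, x ∈ Y ↔ QuotientGroup.mk' Q x ∈ A := by
    intro x
    rw [hY]
    exact Iff.rfl
  have hQY : Q ≤ Y := by
    intro q hq
    rw [hYm]
    have h1 : QuotientGroup.mk' Q q = 1 := (QuotientGroup.eq_one_iff q).2 hq
    rw [h1]
    exact A.one_mem
  let π : Y →* alternatingGroup (Fin 5) := e.toMonoidHom.comp
    (((QuotientGroup.mk' Q).comp Y.subtype).codRestrict A (fun y => (hYm y).1 y.2))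
  have hπ1 : ∀ y : Y, π y = 1 ↔ (y : X) ∈ Q := by
    intro y
    constructor
    · intro h
      have h1 : e (((QuotientGroup.mk' Q).comp Y.subtype).codRestrict A (fun y => (hYm y).1 y.2) y) = 1 := h
      rw [map_eq_one_iff _ e.injective] at h1
      have h3 : QuotientGroup.mk' Q (y : X) = 1 := congrArg Subtype.val h1
      exact (QuotientGroup.eq_one_iff _).1 h3
    · intro h
      have h1 : ((QuotientGroup.mk' Q).comp Y.subtype).codRestrict A (fun y => (hYm y).1 y.2) y = 1 :=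
        Subtype.ext ((QuotientGroup.eq_one_iff _).2 h)
      show e _ = 1
      rw [h1, map_one]
  have hπs : Function.Surjective π := by
    intro a
    obtain ⟨x, hx⟩ := QuotientGroup.mk_surjective ((e.symm a : A) : X ⧸ Q)
    have hxY : x ∈ Y := by
      rw [hYm]
      have h1 : QuotientGroup.mk' Q x = (x : X ⧸ Q) := rfl
      rw [h1, hx]
      exact (e.symm a).2
    refine ⟨⟨x, hxY⟩, ?_⟩
    have h1 : ((QuotientGroup.mk' Q).comp Y.subtype).codRestrict A (fun y => (hYm y).1 y.2) ⟨x, hxY⟩ =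
        e.symm a := Subtype.ext hx
    show e _ = a
    rw [h1]
    simp
  obtain ⟨g, t, d, hg5, hg1, hπg, htg, hπt, hd3, hd1⟩ := make_gtd π hπs (by
    intro r hr
    have hrQ := (hπ1 r).1 hr
    obtain ⟨k, hk⟩ := hQp ⟨r.1, hrQ⟩
    refine ⟨k, Subtype.ext ?_⟩
    have h1 := congrArg Subtype.val hk
    simpa using h1)
  let c : Y → V := fun y => if h : (y : X) ∈ Q then cl ⟨y, h⟩ else 1
  have hc : ∀ (y : Y) (h : (y : X) ∈ Q), c y = cl ⟨y, h⟩ := fun y h => dif_pos h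
  let C : Cfsg.Agent.Lib.Sect4.A5Base.Ctx Y V :=
    { R := Q.subgroupOf Y
      hn := inferInstance
      hp := by
        intro r hr
        obtain ⟨k, hk⟩ := hQp ⟨r.1, hr⟩
        refine ⟨k, Subtype.ext ?_⟩
        have h1 := congrArg Subtype.val hk
        simpa using h1
      c := c
      c_mul := by
        intro r hr s hs
        rw [hc (r * s) (Q.mul_mem hr hs), hc r hr, hc s hs, ← map_mul]
        rfl
      c_surj := by
        intro v
        obtain ⟨q, rfl⟩ := hcl v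
        exact ⟨⟨q.1, hQY q.2⟩, q.2, hc _ q.2⟩
      α := α.comp Y.subtype
      α_c := by
        intro x r hr
        show α x.1 (c r) = c (x * r * x⁻¹)
        have h1 : ((x * r * x⁻¹ : Y) : X) ∈ Q := hQn.conj_mem r.1 hr x.1
        rw [hc r hr, hα x.1 ⟨r, hr⟩, hc _ h1]
        congr 1
      α_R := fun x => hker x.1
      h2 := h2
      h16 := h16
      hsq := by
        intro S hS r hr h1
        have h3 := hfr ((S.map Y.subtype).subgroupOf Q) (by
          intro q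
          exact ⟨⟨q.1, hQY q.2⟩ * ⟨q.1, hQY q.2⟩, hS _ q.2, rfl⟩) ⟨r.1, hr⟩ (by
          rw [← hc r hr]
          exact h1)
        obtain ⟨y, hy, hyr⟩ := h3
        have h5 : y = r := Subtype.ext hyr
        rw [← h5]
        exact hy
      g := g
      t := t
      d := d
      g5 := hg5
      g1 := hg1
      tg := htg
      t2 := (hπ1 _).1 hπt
      d3 := hd3
      d1 := hd1
      hgen := by
        intro D hD hRD hgD
        rw [eq_top_iff]
        intro y _
        have hM : (D.map π).Normal := Subgroup.Normal.map hD π hπs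
        haveI : IsSimpleGroup (alternatingGroup (Fin 5)) := alternatingGroup.isSimpleGroup_five
        rcases IsSimpleGroup.eq_bot_or_eq_top_of_normal (D.map π) hM with h1 | h1
        · exfalso
          have h3 : π g ∈ D.map π := ⟨g, hgD, rfl⟩
          rw [h1, Subgroup.mem_bot] at h3
          exact hπg h3
        · have h3 : π y ∈ D.map π := by
            rw [h1]
            exact mem_top _
          obtain ⟨c', hc', hcy⟩ := h3
          have h5 : c'⁻¹ * y ∈ D := by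
            apply hRD
            show ((c'⁻¹ * y : Y) : X) ∈ Q
            rw [← hπ1]
            rw [map_mul, map_inv, hcy, inv_mul_cancel]
          have h6 := D.mul_mem hc' h5
          simpa using h6
      hNo := by
        intro P D hDP hn hs hi
        refine Cfsg.Agent.Lib.Sect4.Section.not_sectional (P := P.map Y.subtype)
          (D := D.map Y.subtype) (Subgroup.map_mono hDP) ?_ ?_ ?_ h4
        · rintro _ ⟨x, hx, rfl⟩ _ ⟨y, hy, rfl⟩
          exact ⟨x * y * x⁻¹, hn x hx y hy, rfl⟩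
        · rintro _ ⟨x, hx, rfl⟩
          exact ⟨x * x, hs x hx, rfl⟩
        · rw [Subgroup.relIndex_map_map_of_injective _ _ Y.subtype_injective]
          exact hi }
  let e1 : ↥(Q.subgroupOf Y) ≃* ↥Q := Subgroup.subgroupOfEquivOfLe hQY
  rcases C.ident with ⟨h1, h3⟩ | ⟨h1, A', B', h3, h5, h6, h7, h8⟩
  · left
    refine ⟨?_, ?_⟩
    · intro q hq
      have h5 := h1 ⟨q, hQY hq⟩ hq
      exact congrArg Subtype.val h5
    · rw [← Nat.card_congr e1.toEquiv]
      exact h3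
  · right
    refine ⟨?_, concl_transfer e1 h3 h5 h6 h7 h8⟩
    rw [← Nat.card_congr e1.toEquiv]
    exact h1

/-- The core of the statement. -/
theorem core {X : Type u} [Group X] [Finite X] (hc : Cfsg.IsPConstrained 2 X)
    (hO : Cfsg.oddCore X = ⊥) (h4 : Cfsg.SectionalPRankLE 2 4 X)
    (hQ : ∃ A : Subgroup (X ⧸ Cfsg.pCore 2 X), Nonempty (↥A ≃* ↥(alternatingGroup (Fin 5)))) :
    (Cfsg.IsElementaryAbelian 2 (Cfsg.pCore 2 X) ∧ Nat.card ↥(Cfsg.pCore 2 X) = 16) ∨
      (Nat.card ↥(Cfsg.pCore 2 X) = 32 ∧ ∃ A B : Subgroup ↥(Cfsg.pCore 2 X),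
        Nonempty (↥A ≃* QuaternionGroup 2) ∧ Nonempty (↥B ≃* DihedralGroup 4) ∧
        (∀ a ∈ A, ∀ b ∈ B, a * b = b * a) ∧
          A ⊔ B = ⊤ ∧ A ⊓ B = Subgroup.center ↥(Cfsg.pCore 2 X)) := by
  classical
  haveI h2F : Fact (Nat.Prime 2) := ⟨Nat.prime_two⟩
  have hQp : IsPGroup 2 (Cfsg.pCore 2 X) := Cfsg.Agent.Lib.Basic.PCore.pCore_isPGroup 2
  obtain ⟨V, iV, iFin, cl, α, h2, hcl, hα, hker, h16, hfr⟩ :=
    frattini_data2 (Cfsg.pCore 2 X) hQp
      (fun N h1 h3 => Cfsg.Agent.Lib.Basic.PCore.le_pCore h1 h3)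
      (Cfsg.Agent.Lib.Sect4.Frat.cen_le hc hO) h4
  obtain ⟨A, ⟨e⟩⟩ := hQ
  rcases core_aux (Cfsg.pCore 2 X) hQp cl α h2 hcl hα hker h16 hfr h4 A e with ⟨h1, h3⟩ | h1
  · left
    refine ⟨⟨⟨⟨fun a b => ?_⟩⟩, ?_⟩, h3⟩
    · have hab : (a : X) * b = b * a := by
        have ha := h1 a.1 a.2
        have hb := h1 b.1 b.2
        have hab := h1 _ (Subgroup.mul_mem _ a.2 b.2)
        have h5 : (a : X) * b = ((a : X) * b)⁻¹ := eq_inv_of_mul_eq_one_left hab
        rw [h5, mul_inv_rev, inv_eq_of_mul_eq_one_left hb, inv_eq_of_mul_eq_one_left ha]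
      exact Subtype.ext hab
    · intro a ha
      rw [pow_two]
      exact h1 a ha
  · exact Or.inr h1

end Cfsg.Agent.Lib.Sect4.A5Top
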