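import Mathlib
import Cfsg.Agent.Lib.Char.Burnside2

/-!
# Small facts on permutations of eight points and five points
-/

set_option autoImplicit false
set_option maxRecDepth 100000

namespace Cfsg.Agent.Lib.Sect4.Cyc

open Equiv Equiv.Perm

/-- The set of eight points, split into three and five. -/
abbrev Om := Fin 3 ⊕ Fin 5

theorem solvable_of_dvd {G : Type*} [Group G] [Finite G] {a b : ℕ} (h : Nat.card G ∣ 2 ^ a * 3 ^ b) :
    Group.IsSolvable G := by
  obtain ⟨k1, k2, h2, h3, h4⟩ := (Nat.dvd_mul).1 h
  obtain ⟨i, -, rfl⟩ := (Nat.dvd_prime_pow Nat.prime_two).1 h2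
  obtain ⟨j, -, rfl⟩ := (Nat.dvd_prime_pow Nat.prime_three).1 h3
  exact Cfsg.Agent.Lib.Char.Burnside2.isSolvable_of_card_eq Nat.prime_two Nat.prime_three _ G i j rfl h4.symm

theorem solvable_of_squarefree {G : Type*} [Group G] [Finite G] (h : Squarefree (Nat.card G)) :
    Group.IsSolvable G := by
  have := IsZGroup.of_squarefree h
  infer_instance

theorem squarefree_thirty : Squarefree 30 := by
  rw [Nat.squarefree_iff_prime_squarefree]
  intro x hx hd
  have h1 : x * x ≤ 30 := Nat.le_of_dvd (by norm_num) hd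
  have h2 : x ≤ 5 := by nlinarith
  interval_cases x <;> first
    | (revert hd; decide)
    | exact absurd hx (by norm_num)

theorem solvable_of_dvd_thirty {G : Type*} [Group G] [Finite G] (h : Nat.card G ∣ 30) : Group.IsSolvable G :=
  solvable_of_squarefree (Squarefree.squarefree_of_dvd h squarefree_thirty)

/-- Centralizers of elements of odd prime order. -/
theorem threeCycle_of_not_solvable (τ : Perm Om) (hp : (orderOf τ).Prime) (h2 : orderOf τ ≠ 2)
    (hns : ¬ Group.IsSolvable (Subgroup.centralizer ({τ} : Set (Perm Om)))) : τ.IsThreeCycle := by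
  obtain ⟨n, hn⟩ := cycleType_prime_order hp
  have hcO : Fintype.card Om = 8 := by simp
  have hsum : (n + 1) * (orderOf τ) ≤ 8 := by
    have := sum_cycleType_le τ
    rw [hn, Multiset.sum_replicate, hcO, nsmul_eq_mul] at this
    simpa using this
  have hcard := nat_card_centralizer τ
  rw [hn, hcO] at hcard
  generalize orderOf τ = p at *
  have hp3 : 3 ≤ p := by
    have := hp.two_le
    omega
  have hn1 : n ≤ 1 := by
    by_contra hc
    have : 3 * 3 ≤ (n + 1) * p := Nat.mul_le_mul (by omega) hp3
    omega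
  have hp8 : p ≤ 8 := by nlinarith
  interval_cases n
  · interval_cases p
    · exact hn
    · exact absurd hp (by norm_num)
    · exfalso
      apply hns
      apply solvable_of_dvd_thirty
      rw [hcard]
      decide
    · exact absurd hp (by norm_num)
    · exfalso
      apply hns
      apply solvable_of_squarefree
      rw [hcard]
      have e : (8 - (Multiset.replicate (0 + 1) 7).sum).factorial * (Multiset.replicate (0 + 1) 7).prod *
        ∏ n ∈ (Multiset.replicate (0 + 1) 7).toFinset, (Multiset.count n (Multiset.replicate (0 + 1) 7)).factorial = 7 := by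
        decide
      rw [e]
      exact (by norm_num : Nat.Prime 7).squarefree
    · exact absurd hp (by norm_num)
  · interval_cases p
    · exfalso
      apply hns
      apply solvable_of_dvd (a := 2) (b := 2)
      rw [hcard]
      decide
    all_goals first
      | omega
      | exact absurd hp (by norm_num)

/-! ### Five points -/

/-- Orders of nonsolvable subgroups of `S₅`. -/
theorem card_of_not_solvable {G : Type*} [Group G] [Finite G] (h : Nat.card G ∣ 120)
    (hns : ¬ Group.IsSolvable G) : Nat.card G = 60 ∨ Nat.card G = 120 := by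
  have hle : Nat.card G ≤ 120 := Nat.le_of_dvd (by norm_num) h
  have h23 : ∀ a b : ℕ, ¬ Nat.card G ∣ 2 ^ a * 3 ^ b := fun a b hd => hns (solvable_of_dvd hd)
  have h25 : ∀ a b : ℕ, ¬ Nat.card G = 2 ^ a * 5 ^ b := fun a b hd =>
    hns (Cfsg.Agent.Lib.Char.Burnside2.isSolvable_of_card_eq Nat.prime_two (by norm_num) _ G a b rfl hd)
  have h35 : ¬ Nat.card G ∣ 15 := fun hd => hns (solvable_of_squarefree
    (Squarefree.squarefree_of_dvd (hd.trans (by norm_num : 15 ∣ 30)) squarefree_thirty))
  have h30 : ¬ Nat.card G ∣ 30 := fun hd => hns (solvable_of_dvd_thirty hd)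
  generalize Nat.card G = n at *
  have h24 := h23 3 1
  have h5 := h25 0 1
  have h10 := h25 1 1
  have h20 := h25 2 1
  have h40 := h25 3 1
  interval_cases n <;> omega

/-- A nonsolvable subgroup of `S₅`. -/
theorem sub_S5 (R₀ : Subgroup (Perm (Fin 5))) (hns : ¬ Group.IsSolvable R₀) :
    R₀ = ⊤ ∨ R₀ = alternatingGroup (Fin 5) := by
  have hc : Nat.card (Perm (Fin 5)) = 120 := by
    rw [Nat.card_eq_fintype_card, Fintype.card_perm]
    simp [Nat.factorial]
  have hd : Nat.card R₀ ∣ 120 := hc ▸ Subgroup.card_subgroup_dvd_card R₀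
  rcases card_of_not_solvable hd hns with h | h
  · right
    apply Equiv.Perm.eq_alternatingGroup_of_index_eq_two
    have := R₀.card_mul_index
    rw [h, hc] at this
    omega
  · left
    apply Subgroup.eq_top_of_card_eq
    rw [h, hc]

/-- The five-cycle. -/
def c5 : Perm (Fin 5) := swap 0 1 * swap 1 2 * swap 2 3 * swap 3 4

/-- Two three-cycles. -/
def c3a : Perm (Fin 5) := swap 0 1 * swap 1 2
def c3b : Perm (Fin 5) := swap 2 3 * swap 3 4

theorem even5 : c5 ∈ alternatingGroup (Fin 5) := Equiv.Perm.mem_alternatingGroup.2 (by decide +kernel)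
theorem even3a : c3a ∈ alternatingGroup (Fin 5) := Equiv.Perm.mem_alternatingGroup.2 (by decide +kernel)
theorem even3b : c3b ∈ alternatingGroup (Fin 5) := Equiv.Perm.mem_alternatingGroup.2 (by decide +kernel)

theorem centralizer_trivial_aux : ∀ y : Perm (Fin 5), y * c3a = c3a * y → y * c3b = c3b * y → y = 1 := by
  decide +kernel

theorem move_aux : ∀ k : Perm (Fin 5), k ≠ 1 → k * (k * k) = 1 → c5 * k * c5⁻¹ ≠ k ∧ c5 * k * c5⁻¹ ≠ k * k := by
  decide +kernel

/-- No nontrivial normal `3`-subgroups. -/
theorem no_three (K : Subgroup (Perm (Fin 5))) (hK : IsPGroup 3 K)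
    (hn : ∀ k ∈ K, c5 * k * c5⁻¹ ∈ K) : K = ⊥ := by
  classical
  by_contra hne
  have : Fact (Nat.Prime 3) := ⟨Nat.prime_three⟩
  obtain ⟨m, hm⟩ := IsPGroup.iff_card.1 hK
  have hc : Nat.card (Perm (Fin 5)) = 120 := by
    rw [Nat.card_eq_fintype_card, Fintype.card_perm]
    simp [Nat.factorial]
  have hd : 3 ^ m ∣ 120 := by
    rw [← hm, ← hc]
    exact Subgroup.card_subgroup_dvd_card K
  have hm1 : m ≤ 1 := by
    by_contra hcc
    have : 3 ^ 2 ∣ 120 := (pow_dvd_pow 3 (by omega : 2 ≤ m)).trans hd
    revert this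
    decide
  have hK3 : Nat.card K ≤ 3 := by
    rw [hm]
    interval_cases m <;> norm_num
  obtain ⟨k, hk, hk1⟩ := (Subgroup.bot_or_exists_ne_one K).resolve_left hne
  have hk3 : k * (k * k) = 1 := by
    have h1 : m = 1 := by
      by_contra hcc
      have : m = 0 := by omega
      subst this
      rw [pow_zero] at hm
      exact hne (Subgroup.card_eq_one.1 hm)
    subst h1
    have h2 : (⟨k, hk⟩ : K) ^ Nat.card K = 1 := pow_card_eq_one'
    rw [hm, pow_one] at h2
    have h3 := congrArg Subtype.val h2
    simpa [pow_succ, mul_assoc] using h3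
  obtain ⟨e1, e2⟩ := move_aux k hk1 hk3
  have hk' := hn k hk
  have hkk : k * k ∈ K := K.mul_mem hk hk
  set k' := c5 * k * c5⁻¹ with hk'def
  have hk'1 : k' ≠ 1 := by
    intro h
    apply hk1
    have : c5⁻¹ * k' * c5 = k := by
      rw [hk'def]
      group
    rw [← this, h]
    group
  have hkk1 : k * k ≠ 1 := by
    intro h
    rw [h, mul_one] at hk3
    exact hk1 hk3
  have hkk2 : k * k ≠ k := by
    intro h
    exact hk1 (by simpa using h)
  let F : Finset (Perm (Fin 5)) := {1, k, k * k, k'}
  have hF : F.card = 4 := by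
    simp only [F]
    rw [Finset.card_insert_of_notMem, Finset.card_insert_of_notMem, Finset.card_insert_of_notMem,
      Finset.card_singleton]
    · simp only [Finset.mem_singleton]
      exact fun h => e2 h.symm
    · simp only [Finset.mem_insert, Finset.mem_singleton, not_or]
      exact ⟨fun h => hkk2 h.symm, fun h => e1 h.symm⟩
    · simp only [Finset.mem_insert, Finset.mem_singleton, not_or]
      exact ⟨fun h => hk1 h.symm, fun h => hkk1 h.symm, fun h => hk'1 h.symm⟩
  have hsub : (F : Set (Perm (Fin 5))) ⊆ (K : Set (Perm (Fin 5))) := by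
    intro y hy
    simp only [F, Finset.coe_insert, Finset.coe_singleton, Set.mem_insert_iff,
      Set.mem_singleton_iff] at hy
    rcases hy with rfl | rfl | rfl | rfl
    · exact K.one_mem
    · exact hk
    · exact hkk
    · exact hk'
  have h3 := Set.ncard_le_ncard hsub (Set.toFinite _)
  rw [Set.ncard_coe_finset, hF, ← Nat.card_coe_set_eq] at h3
  have h4 : Nat.card ↥(K : Set (Perm (Fin 5))) = Nat.card K := rfl
  omega

end Cfsg.Agent.Lib.Sect4.Cyc
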