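import Mathlib
import Cfsg.Prelude.Def_Solvable
import Cfsg.Agent.Lib.Basic.PCore
import Cfsg.Agent.Lib.Sect4.Cyc

/-!
# Restriction to five points

A subgroup of `A₈` normalizing a cyclic subgroup generated by a `3`-cycle.
-/

set_option autoImplicit false
set_option maxRecDepth 100000

namespace Cfsg.Agent.Lib.Sect4.OddBranch

open Equiv Equiv.Perm Cfsg.Agent.Lib.Sect4.Cyc Cfsg.Agent.Lib.Basic.PCore

/-- The `3`-cycle on three points. -/
def t3 : Perm (Fin 3) := swap 0 1 * swap 0 2

/-- The `3`-cycle on the three first points of the eight. -/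
def t0 : Perm Om := Equiv.Perm.sumCongr t3 1

theorem t0_eq : t0 = swap (Sum.inl 0) (Sum.inl 1) * swap (Sum.inl 0) (Sum.inl 2) := by decide +kernel

theorem t0_three : t0.IsThreeCycle := by
  rw [t0_eq]
  apply isThreeCycle_swap_mul_swap_same <;> decide

theorem t3_moves : ∀ i : Fin 3, t3 i ≠ i := by decide +kernel

theorem t3_even : ∀ u : Perm (Fin 3), sign u = 1 → u = 1 ∨ u = t3 ∨ u = t3 * t3 := by decide +kernel

theorem t0_facts : t0 * (t0 * t0) = 1 ∧ t0 ≠ 1 ∧ t0 * t0 ≠ 1 ∧ t0 * t0 ≠ t0 := by decide +kernel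

theorem t0_sq : t0 * t0 = Equiv.Perm.sumCongr (t3 * t3) 1 := by decide +kernel

/-- The subgroup of permutations preserving the three points. -/
abbrev R2 : Subgroup (Perm Om) := (sumCongrHom (Fin 3) (Fin 5)).range

/-- The restriction to the five points. -/
noncomputable def res : R2 →* Perm (Fin 5) :=
  (MonoidHom.snd _ _).comp
    (MonoidHom.ofInjective (sumCongrHom_injective (α := Fin 3) (β := Fin 5))).symm.toMonoidHom

theorem res_spec (x : R2) : ∃ u, (x : Perm Om) = Equiv.Perm.sumCongr u (res x) := by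
  obtain ⟨⟨u, v⟩, hx⟩ := x.2
  refine ⟨u, ?_⟩
  have e : (MonoidHom.ofInjective (sumCongrHom_injective (α := Fin 3) (β := Fin 5))) (u, v) = x :=
    Subtype.ext hx
  have h1 : res x = v := by
    show ((MonoidHom.ofInjective (sumCongrHom_injective (α := Fin 3) (β := Fin 5))).symm x).2 = v
    rw [← e, MulEquiv.symm_apply_apply]
  rw [h1, ← hx]
  rfl

theorem res_of_eq {x : R2} {u : Perm (Fin 3)} {v : Perm (Fin 5)} (h : (x : Perm Om) = Equiv.Perm.sumCongr u v) :
    res x = v := by
  obtain ⟨u', h'⟩ := res_spec x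
  rw [h] at h'
  have h3 : (u, v) = (u', res x) := sumCongrHom_injective (α := Fin 3) (β := Fin 5) h'
  exact (congrArg Prod.snd h3).symm

/-- An element normalizing the cyclic group preserves the three points. -/
theorem mem_R2 (x : Perm Om) (h : x * t0 * x⁻¹ = t0 ∨ x * t0 * x⁻¹ = t0 * t0) : x ∈ R2 := by
  apply mem_sumCongrHom_range_of_perm_mapsTo_inl
  rintro _ ⟨i, rfl⟩
  cases hy : x (Sum.inl i) with
  | inl a => exact ⟨a, rfl⟩
  | inr b =>
    exfalso
    have h1 : (x * t0 * x⁻¹) (Sum.inr b) = x (Sum.inl (t3 i)) := by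
      rw [← hy]
      simp [t0]
    have h2 : (x * t0 * x⁻¹) (Sum.inr b) = Sum.inr b := by
      rcases h with h | h
      · rw [h]
        simp [t0]
      · rw [h, t0_sq]
        simp
    rw [h2, ← hy] at h1
    have h3 := x.injective h1
    exact t3_moves i (Sum.inl_injective h3).symm

/-- The kernel of the restriction, among even permutations. -/
theorem ker_elts {x : Perm Om} (hx : x ∈ R2) (hs : sign x = 1) (hr : res ⟨x, hx⟩ = 1) :
    x = 1 ∨ x = t0 ∨ x = t0 * t0 := by
  obtain ⟨u, hu⟩ := res_spec ⟨x, hx⟩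
  rw [hr] at hu
  have hu' : x = Equiv.Perm.sumCongr u 1 := hu
  have hsu : sign u = 1 := by
    rw [hu', sign_sumCongr] at hs
    simpa using hs
  rcases t3_even u hsu with rfl | rfl | rfl
  · left
    rw [hu']
    simp
  · right; left
    exact hu'
  · right; right
    rw [hu', t0_sq]

theorem res_t0 : res ⟨t0, mem_R2 t0 (Or.inl (by group))⟩ = 1 := res_of_eq rfl

/-- The main proposition. -/
theorem branch_core {Q : Type*} [Group Q] [Finite Q] (ψ : Q →* Perm Om) (hψ : Function.Injective ψ)
    (hs : ∀ g, sign (ψ g) = 1) (hns : ¬ Group.IsSolvable Q) (M : Subgroup Q) [hMn : M.Normal]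
    (hcomm : ∀ a ∈ M, ∀ b ∈ M, a * b = b * a) {z : Q} (hz : z ∈ M) (hτ : ψ z = t0)
    (hT : ¬ Group.IsSolvable (Subgroup.centralizer (M : Set Q))) :
    Nat.card (Cfsg.pCore 3 Q) = 3 ∧ (Nonempty (Q ⧸ Cfsg.pCore 3 Q ≃* alternatingGroup (Fin 5)) ∨
      Nonempty (Q ⧸ Cfsg.pCore 3 Q ≃* Perm (Fin 5))) := by
  classical
  obtain ⟨f1, f2, f3, f4⟩ := t0_facts
  have hzz : ψ (z * z) = t0 * t0 := by rw [map_mul, hτ]
  have hz1 : z ≠ 1 := by
    rintro rfl
    rw [map_one] at hτ
    exact f2 hτ.symm
  have hzz1 : z * z ≠ 1 := by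
    intro h
    rw [h, map_one] at hzz
    exact f3 hzz.symm
  have hzzz : z * z ≠ z := by
    intro h
    exact hz1 (by simpa using h)
  have hz3 : z * (z * z) = 1 := by
    apply hψ
    rw [map_mul, hzz, hτ, f1, map_one]
  -- from `ψ` to the elements of the cyclic group
  have hkerz : ∀ y : Q, (ψ y = 1 ∨ ψ y = t0 ∨ ψ y = t0 * t0) → y = 1 ∨ y = z ∨ y = z * z := by
    intro y hy
    rcases hy with h | h | h
    · left
      apply hψ
      rw [h, map_one]
    · right; left
      apply hψ
      rw [h, hτ]
    · right; right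
      apply hψ
      rw [h, hzz]
  -- the centralizer
  let T := Subgroup.centralizer (M : Set Q)
  have hzT : ∀ t : T, t.1 * z = z * t.1 := by
    intro t
    exact (Subgroup.mem_centralizer_iff.1 t.2 z hz).symm
  have hTR : ∀ t : T, ψ t.1 ∈ R2 := by
    intro t
    apply mem_R2
    left
    rw [← hτ, ← map_mul, hzT t, map_mul, mul_inv_cancel_right]
  let rT : T →* Perm (Fin 5) := res.comp ((ψ.comp T.subtype).codRestrict R2 hTR)
  have hrT : ∀ t : T, rT t = res ⟨ψ t.1, hTR t⟩ := fun t => rfl
  have hkerT : Group.IsSolvable rT.ker := by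
    have hab : ∀ a b : rT.ker, a * b = b * a := by
      intro a b
      have key : ∀ c : rT.ker, c.1.1 = 1 ∨ c.1.1 = z ∨ c.1.1 = z * z := by
        intro c
        apply hkerz
        apply ker_elts (hTR c.1) (hs _)
        exact c.2
      apply Subtype.ext
      apply Subtype.ext
      show a.1.1 * b.1.1 = b.1.1 * a.1.1
      rcases key a with h | h | h <;> rcases key b with h' | h' | h' <;> rw [h, h'] <;> simp [mul_assoc]
    exact Group.isSolvable_of_comm hab
  have hrange : ¬ Group.IsSolvable rT.range := by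
    intro hr
    apply hT
    exact Group.isSolvable_of_ker_le_range rT.ker.subtype rT.rangeRestrict (by
      rw [MonoidHom.ker_rangeRestrict]
      rw [Subgroup.range_subtype])
  have hA5 : alternatingGroup (Fin 5) ≤ rT.range := by
    rcases sub_S5 _ hrange with h | h
    · rw [h]
      exact le_top
    · rw [h]
  -- `M` is cyclic
  have hMelts : ∀ y ∈ M, y = 1 ∨ y = z ∨ y = z * z := by
    intro y hy
    have hyT : y ∈ T := by
      rw [Subgroup.mem_centralizer_iff]
      intro m hm
      exact hcomm m hm y hy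
    apply hkerz
    apply ker_elts (hTR ⟨y, hyT⟩) (hs _)
    show rT ⟨y, hyT⟩ = 1
    have hc : ∀ t : T, rT ⟨y, hyT⟩ * rT t = rT t * rT ⟨y, hyT⟩ := by
      intro t
      rw [← map_mul, ← map_mul]
      congr 1
      apply Subtype.ext
      show y * t.1 = t.1 * y
      exact Subgroup.mem_centralizer_iff.1 t.2 y hy
    obtain ⟨t1, ht1⟩ := hA5 even3a
    obtain ⟨t2, ht2⟩ := hA5 even3b
    apply centralizer_trivial_aux
    · rw [← ht1]
      exact hc t1
    · rw [← ht2]
      exact hc t2
  have hzzM : z * z ∈ M := M.mul_mem hz hz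
  -- the whole group
  have hQR : ∀ g : Q, ψ g ∈ R2 := by
    intro g
    apply mem_R2
    have hm : g * z * g⁻¹ ∈ M := hMn.conj_mem z hz g
    have hne : g * z * g⁻¹ ≠ 1 := by
      intro h
      apply hz1
      have : g⁻¹ * (g * z * g⁻¹) * g = z := by group
      rw [← this, h]
      group
    rcases hMelts _ hm with h | h | h
    · exact absurd h hne
    · left
      have := congrArg ψ h
      simpa only [map_mul, map_inv, hτ] using this
    · right
      have := congrArg ψ h
      simpa only [map_mul, map_inv, hτ] using this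
  let r : Q →* Perm (Fin 5) := res.comp (ψ.codRestrict R2 hQR)
  have hr : ∀ g : Q, r g = res ⟨ψ g, hQR g⟩ := fun g => rfl
  have hrz : r z = 1 := by
    rw [hr]
    apply res_of_eq (u := t3)
    exact hτ
  have hker : r.ker = M := by
    apply le_antisymm
    · intro y hy
      rcases hkerz y (ker_elts (hQR y) (hs y) hy) with h | h | h
      · rw [h]
        exact M.one_mem
      · rw [h]
        exact hz
      · rw [h]
        exact hzzM
    · intro y hy
      rw [MonoidHom.mem_ker]
      rcases hMelts y hy with h | h | h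
      · rw [h, map_one]
      · rw [h, hrz]
      · rw [h, map_mul, hrz, one_mul]
  have hrange2 : ¬ Group.IsSolvable r.range := by
    intro hrs
    apply hns
    haveI : Group.IsSolvable r.ker := by
      have hab : ∀ a b : r.ker, a * b = b * a := by
        intro a b
        apply Subtype.ext
        have ha : a.1 ∈ M := hker ▸ a.2
        have hb : b.1 ∈ M := hker ▸ b.2
        exact hcomm _ ha _ hb
      exact Group.isSolvable_of_comm hab
    exact Group.isSolvable_of_ker_le_range r.ker.subtype r.rangeRestrict (by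
      rw [MonoidHom.ker_rangeRestrict]
      rw [Subgroup.range_subtype])
  have hcases := sub_S5 _ hrange2
  have hA5' : alternatingGroup (Fin 5) ≤ r.range := by
    rcases hcases with h | h
    · rw [h]
      exact le_top
    · rw [h]
  -- the cardinality of `M`
  have hcardM : Nat.card M = 3 := by
    have hset : (M : Set Q) = ((({1, z, z * z} : Finset Q)) : Set Q) := by
      ext y
      simp only [Finset.coe_insert, Finset.coe_singleton, Set.mem_insert_iff, Set.mem_singleton_iff,
        SetLike.mem_coe]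
      constructor
      · exact hMelts y
      · rintro (rfl | rfl | rfl)
        · exact M.one_mem
        · exact hz
        · exact hzzM
    have h5 : Nat.card M = (M : Set Q).ncard := (Nat.card_coe_set_eq _)
    rw [h5, hset, Set.ncard_coe_finset]
    rw [Finset.card_insert_of_notMem, Finset.card_insert_of_notMem, Finset.card_singleton]
    · simp only [Finset.mem_singleton]
      exact fun h => hzzz h.symm
    · simp only [Finset.mem_insert, Finset.mem_singleton, not_or]
      exact ⟨fun h => hz1 h.symm, fun h => hzz1 h.symm⟩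
  -- the core
  have hcore : Cfsg.pCore 3 Q = M := by
    haveI : Fact (Nat.Prime 3) := ⟨Nat.prime_three⟩
    apply le_antisymm
    · rw [← hker]
      have hK := no_three ((Cfsg.pCore 3 Q).map r) ((pCore_isPGroup 3).map r) (by
        rintro _ ⟨x, hx, rfl⟩
        obtain ⟨g, hg⟩ := hA5' even5
        refine ⟨g * x * g⁻¹, (inferInstance : (Cfsg.pCore 3 Q).Normal).conj_mem x hx g, ?_⟩
        rw [map_mul, map_mul, map_inv, hg])
      intro x hx
      have : r x ∈ (Cfsg.pCore 3 Q).map r := ⟨x, hx, rfl⟩
      rw [hK, Subgroup.mem_bot] at this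
      exact this
    · exact le_pCore hMn (IsPGroup.of_card (n := 1) (by rw [hcardM, pow_one]))
  refine ⟨by rw [hcore, hcardM], ?_⟩
  have hcore' : r.ker = Cfsg.pCore 3 Q := by rw [hcore, hker]
  have e1 : Q ⧸ Cfsg.pCore 3 Q ≃* r.range :=
    (QuotientGroup.quotientMulEquivOfEq hcore'.symm).trans (QuotientGroup.quotientKerEquivRange r)
  rcases hcases with h | h
  · right
    exact ⟨e1.trans ((MulEquiv.subgroupCongr h).trans Subgroup.topEquiv)⟩
  · left
    exact ⟨e1.trans (MulEquiv.subgroupCongr h)⟩

end Cfsg.Agent.Lib.Sect4.OddBranch
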