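import Mathlib
import Cfsg.Agent.Lib.Sect4.Section

/-!
# `S₆` acting faithfully on a group of order at most sixteen
-/

set_option autoImplicit false
set_option maxRecDepth 100000

namespace Cfsg.Agent.Lib.Sect4.S6

open Cfsg.Agent.Lib.Sect4.VCore Cfsg.Agent.Lib.Sect4.Section Equiv

abbrev P6 := Equiv.Perm (Fin 6)

def d1 : P6 := swap 0 1 * swap 1 2
def d2 : P6 := swap 3 4 * swap 4 5
def sw : P6 := swap 0 3 * swap 1 4 * swap 2 5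
def g1 : P6 := d1 * d2
def h1 : P6 := d1 * (d2 * d2)
def sw2 : P6 := swap 3 4

def a1t1 : P6 := swap 0 1
def a1t2 : P6 := swap 3 4
def a1t3 : P6 := swap 2 5
def a1l : P6 := (swap 0 3 * swap 3 2) * (swap 1 4 * swap 4 5)

def a2t1 : P6 := swap 0 3 * swap 1 5 * swap 2 4
def a2t2 : P6 := swap 0 3 * swap 1 4 * swap 2 5
def a2t3 : P6 := swap 0 3 * swap 1 2 * swap 4 5
def a2l : P6 := swap 2 5 * swap 5 4

theorem rels1 : d1 * (d1 * d1) = 1 ∧ d2 * (d2 * d2) = 1 ∧ d1 * d2 = d2 * d1 ∧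
    a1t1 * a1t1 = 1 ∧ a1t2 * a1t2 = 1 ∧ a1t3 * a1t3 = 1 ∧
    a1t1 * a1t2 = a1t2 * a1t1 ∧ a1t1 * a1t3 = a1t3 * a1t1 ∧ a1t2 * a1t3 = a1t3 * a1t2 ∧
    a1t1 * d2 = d2 * a1t1 ∧ a1t1 * d1 = d1 * (d1 * a1t1) ∧ a1t2 * d1 = d1 * a1t2 ∧
    a1t2 * d2 = d2 * (d2 * a1t2) ∧ a1l * a1t1 = a1t2 * a1l ∧ a1l * a1t2 = a1t3 * a1l ∧
    a1l * a1t3 = a1t1 * a1l := by decide +kernel

theorem rels2 : g1 * (g1 * g1) = 1 ∧ h1 * (h1 * h1) = 1 ∧ g1 * h1 = h1 * g1 ∧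
    a2t1 * a2t1 = 1 ∧ a2t2 * a2t2 = 1 ∧ a2t3 * a2t3 = 1 ∧
    a2t1 * a2t2 = a2t2 * a2t1 ∧ a2t1 * a2t3 = a2t3 * a2t1 ∧ a2t2 * a2t3 = a2t3 * a2t2 ∧
    a2t1 * h1 = h1 * a2t1 ∧ a2t1 * g1 = g1 * (g1 * a2t1) ∧ a2t2 * g1 = g1 * a2t2 ∧
    a2t2 * h1 = h1 * (h1 * a2t2) ∧ a2l * a2t1 = a2t2 * a2l ∧ a2l * a2t2 = a2t3 * a2l ∧
    a2l * a2t3 = a2t1 * a2l := by decide +kernel

theorem conj1 : d2 * sw = sw * d1 := by decide +kernel
theorem conj2 : h1 * sw2 = sw2 * g1 := by decide +kernel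
theorem nes1 : d1 ≠ 1 ∧ d2 ≠ 1 ∧ d2 ≠ d1 ∧ d2 ≠ d1 * d1 := by decide +kernel
theorem nes2 : g1 ≠ 1 ∧ h1 ≠ 1 ∧ h1 ≠ g1 ∧ h1 ≠ g1 * g1 := by decide +kernel

/-- The eight products. -/
def el8 (a b c : P6) : List P6 := [1, a, b, c, a * b, a * c, b * c, a * b * c]

theorem el8_mul1 : ∀ g ∈ el8 a1t1 a1t2 a1t3, ∀ h ∈ el8 a1t1 a1t2 a1t3, g * h ∈ el8 a1t1 a1t2 a1t3 := by
  decide +kernel

theorem el8_inv1 : ∀ g ∈ el8 a1t1 a1t2 a1t3, g⁻¹ ∈ el8 a1t1 a1t2 a1t3 := by decide +kernel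

theorem el8_nd1 : (el8 a1t1 a1t2 a1t3).Nodup := by decide +kernel

theorem el8_mul2 : ∀ g ∈ el8 a2t1 a2t2 a2t3, ∀ h ∈ el8 a2t1 a2t2 a2t3, g * h ∈ el8 a2t1 a2t2 a2t3 := by
  decide +kernel

theorem el8_inv2 : ∀ g ∈ el8 a2t1 a2t2 a2t3, g⁻¹ ∈ el8 a2t1 a2t2 a2t3 := by decide +kernel

theorem el8_nd2 : (el8 a2t1 a2t2 a2t3).Nodup := by decide +kernel

/-- The subgroup with the eight elements. -/
def E8 {a b c : P6} (hm : ∀ g ∈ el8 a b c, ∀ h ∈ el8 a b c, g * h ∈ el8 a b c)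
    (hi : ∀ g ∈ el8 a b c, g⁻¹ ∈ el8 a b c) : Subgroup P6 where
  carrier := {g | g ∈ el8 a b c}
  one_mem' := List.mem_cons_self
  mul_mem' := fun {x y} hx hy => hm x hx y hy
  inv_mem' := fun {x} hx => hi x hx

theorem E8_card {a b c : P6} (hm : ∀ g ∈ el8 a b c, ∀ h ∈ el8 a b c, g * h ∈ el8 a b c)
    (hi : ∀ g ∈ el8 a b c, g⁻¹ ∈ el8 a b c) (hn : (el8 a b c).Nodup) : 8 ≤ Nat.card (E8 hm hi) := by
  classical
  have h1 : ((el8 a b c).toFinset : Set P6) ⊆ (E8 hm hi : Set P6) := by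
    intro g hg
    exact List.mem_toFinset.1 hg
  have h3 := Set.ncard_le_ncard h1 (Set.toFinite _)
  rw [Set.ncard_coe_finset, List.toFinset_card_of_nodup hn, ← Nat.card_coe_set_eq] at h3
  exact h3

theorem E8_elts {a b c : P6} (hm : ∀ g ∈ el8 a b c, ∀ h ∈ el8 a b c, g * h ∈ el8 a b c)
    (hi : ∀ g ∈ el8 a b c, g⁻¹ ∈ el8 a b c) :
    ∀ g ∈ E8 hm hi, g = 1 ∨ g = a ∨ g = b ∨ g = c ∨ g = a * b ∨ g = a * c ∨ g = b * c ∨ g = a * b * c := by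
  intro g hg
  have h1 : g ∈ el8 a b c := hg
  simpa [el8] using h1

section

variable {V : Type*} [CommGroup V] [Finite V]

theorem conj_card (ρ : P6 →* MulAut V) {a b s : P6} (h : b * s = s * a) :
    Nat.card (fixS (ρ a).toMonoidHom) = Nat.card (fixS (ρ b).toMonoidHom) := by
  have mulap : ∀ (x y : P6) (v : V), ρ (x * y) v = ρ x (ρ y v) := by
    intro x y v
    rw [map_mul]
    rfl
  have hrel : ∀ v, ρ b (ρ s v) = ρ s (ρ a v) := by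
    intro v
    rw [← mulap, ← mulap, h]
  have hs : ∀ v, ρ s⁻¹ (ρ s v) = v := by
    intro v
    rw [← mulap, inv_mul_cancel, map_one]
    rfl
  have hs' : ∀ v, ρ s (ρ s⁻¹ v) = v := by
    intro v
    rw [← mulap, mul_inv_cancel, map_one]
    rfl
  refine Nat.card_congr ⟨fun v => ⟨ρ s v.1, ?_⟩, fun v => ⟨ρ s⁻¹ v.1, ?_⟩, ?_, ?_⟩
  · show ρ b (ρ s v.1) = ρ s v.1
    rw [hrel]
    congr 1
    exact v.2
  · show ρ a (ρ s⁻¹ v.1) = ρ s⁻¹ v.1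
    have h3 : ρ s (ρ a (ρ s⁻¹ v.1)) = v.1 := by
      rw [← hrel, hs']
      exact v.2
    have h5 := congrArg (ρ s⁻¹) h3
    rwa [hs] at h5
  · intro v
    apply Subtype.ext
    exact hs v.1
  · intro v
    apply Subtype.ext
    exact hs' v.1

theorem fix_eq_bot_of_conj (ρ : P6 →* MulAut V) {a b s : P6} (h : b * s = s * a)
    (ha : fixS (ρ a).toMonoidHom = ⊥) : fixS (ρ b).toMonoidHom = ⊥ := by
  have := conj_card ρ h
  rw [ha, Subgroup.card_bot] at this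
  exact Subgroup.card_eq_one.1 this.symm

theorem exists_ne (ρ : P6 →* MulAut V) (hρ : Function.Injective ρ) {x y : P6} (h : x ≠ y) :
    ∃ v, ρ x v ≠ ρ y v := by
  by_contra hc
  push Not at hc
  exact h (hρ (MulEquiv.ext hc))

/-- The two possible shapes of the action. -/
theorem dicho (h2 : ∀ v : V, v * v = 1) (h16 : Nat.card V ≤ 16) (ρ : P6 →* MulAut V)
    (hρ : Function.Injective ρ) :
    (Nat.card V = 16 ∧ Nat.card (fixS (ρ d1).toMonoidHom) = 4 ∧ Nat.card (fixS (ρ d2).toMonoidHom) = 4 ∧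
      fixS (ρ d1).toMonoidHom ⊓ fixS (ρ d2).toMonoidHom = ⊥) ∨
    (Nat.card V = 16 ∧ Nat.card (fixS (ρ g1).toMonoidHom) = 4 ∧ Nat.card (fixS (ρ h1).toMonoidHom) = 4 ∧
      fixS (ρ g1).toMonoidHom ⊓ fixS (ρ h1).toMonoidHom = ⊥) := by
  have mulap : ∀ (x y : P6) (v : V), ρ (x * y) v = ρ x (ρ y v) := by
    intro x y v
    rw [map_mul]
    rfl
  have oneap : ∀ v : V, ρ 1 v = v := by
    intro v
    rw [map_one]
    rfl
  have ap3 : ∀ {x : P6}, x * (x * x) = 1 → ∀ v, ρ x (ρ x (ρ x v)) = v := by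
    intro x h v
    rw [← mulap x x v, ← mulap x (x * x) v, h, oneap]
  have rel : ∀ {x y z w : P6}, x * y = z * w → ∀ v, ρ x (ρ y v) = ρ z (ρ w v) := by
    intro x y z w h v
    rw [← mulap, ← mulap, h]
  obtain ⟨r1, r2, r3, -⟩ := rels1
  obtain ⟨q1, q2, q3, -⟩ := rels2
  obtain ⟨n1, n2, n3, n4⟩ := nes1
  obtain ⟨m1, m2, m3, m4⟩ := nes2
  have ex1 : ∀ {x : P6}, x ≠ 1 → ∃ v, (ρ x).toMonoidHom v ≠ v := by
    intro x hx
    obtain ⟨v, hv⟩ := exists_ne ρ hρ hx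
    refine ⟨v, fun h => hv ?_⟩
    rw [oneap]
    exact h
  have ex2 : ∀ {x y : P6}, x ≠ y → ∃ v, (ρ x).toMonoidHom v ≠ (ρ y).toMonoidHom v := by
    intro x y hx
    exact exists_ne ρ hρ hx
  have ex3 : ∀ {x y : P6}, x ≠ y * y → ∃ v, (ρ x).toMonoidHom v ≠ (ρ y).toMonoidHom ((ρ y).toMonoidHom v) := by
    intro x y hx
    obtain ⟨v, hv⟩ := exists_ne ρ hρ hx
    refine ⟨v, fun h => hv ?_⟩
    rw [mulap]
    exact h
  by_cases hW : fixS (ρ d1).toMonoidHom = ⊥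
  · have hWB := fix_eq_bot_of_conj ρ conj1 hW
    by_cases hG : fixS (ρ g1).toMonoidHom = ⊥
    · exfalso
      have hH := fix_eq_bot_of_conj ρ conj2 hG
      have e1 : ((ρ d1).toMonoidHom).comp ((ρ d2).toMonoidHom) = (ρ g1).toMonoidHom := by
        ext v
        exact (mulap d1 d2 v).symm
      have e2 : ((ρ d1).toMonoidHom).comp (((ρ d2).toMonoidHom).comp ((ρ d2).toMonoidHom)) = (ρ h1).toMonoidHom := by
        ext v
        show ρ d1 (ρ d2 (ρ d2 v)) = ρ (d1 * (d2 * d2)) v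
        rw [mulap, mulap]
      have := fpf_sum h2 (A := (ρ d1).toMonoidHom) (B := (ρ d2).toMonoidHom)
        (ap3 r1) (ap3 r2) (rel r3) hW hWB (by rw [e1]; exact hG) (by rw [e2]; exact hH)
      obtain ⟨v, hv⟩ := ex1 n1
      apply hv
      rw [this v, map_one]
    · right
      have := star h2 h16 (A := (ρ g1).toMonoidHom) (B := (ρ h1).toMonoidHom)
        (ap3 q1) (ap3 q2) (rel q3) (ex1 m1) (ex1 m2) (ex2 m3) (ex3 m4) hG (conj_card ρ conj2)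
      exact this
  · left
    have := star h2 h16 (A := (ρ d1).toMonoidHom) (B := (ρ d2).toMonoidHom)
        (ap3 r1) (ap3 r2) (rel r3) (ex1 n1) (ex1 n2) (ex2 n3) (ex3 n4) hW (conj_card ρ conj1)
    exact this

/-- A faithful action of `S₆` on the Frattini quotient contradicts sectional rank four. -/
theorem no_S6 {X : Type*} [Group X] [Finite X] (R : Subgroup X) [hRn : R.Normal]
    (h2 : ∀ v : V, v * v = 1) (h16 : Nat.card V ≤ 16) (cl : R →* V)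
    (hcl : Function.Surjective cl) (α : X →* MulAut V)
    (hα : ∀ (x : X) (r : R), α x (cl r) = cl (MulAut.conjNormal x r))
    (ι : P6 →* X ⧸ R) (hι : Function.Injective ι) (ρ : P6 →* MulAut V)
    (hρ : ∀ (g : P6) (x : X), ((x : X ⧸ R)) = ι g → ρ g = α x) (hρi : Function.Injective ρ)
    (h4 : Cfsg.SectionalPRankLE 2 4 X) : False := by
  rcases dicho h2 h16 ρ hρi with ⟨hV, hcA, hcB, hinf⟩ | ⟨hV, hcA, hcB, hinf⟩
  · obtain ⟨r1, r2, r3, r4, r5, r6, r7, r8, r9, r10, r11, r12, r13, r14, r15, r16⟩ := rels1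
    exact ext_main R h2 cl hcl α hα ι hι ρ hρ r1 r2 r3 r4 r5 r6 r7 r8 r9 r10 r11 r12 r13 r14 r15 r16
      hV hcA hcB hinf (E8 el8_mul1 el8_inv1) (E8_elts el8_mul1 el8_inv1)
      (show _ ∈ el8 _ _ _ by simp [el8]) (show _ ∈ el8 _ _ _ by simp [el8]) (show _ ∈ el8 _ _ _ by simp [el8])
      (E8_card el8_mul1 el8_inv1 el8_nd1) h4
  · obtain ⟨r1, r2, r3, r4, r5, r6, r7, r8, r9, r10, r11, r12, r13, r14, r15, r16⟩ := rels2
    exact ext_main R h2 cl hcl α hα ι hι ρ hρ r1 r2 r3 r4 r5 r6 r7 r8 r9 r10 r11 r12 r13 r14 r15 r16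
      hV hcA hcB hinf (E8 el8_mul2 el8_inv2) (E8_elts el8_mul2 el8_inv2)
      (show _ ∈ el8 _ _ _ by simp [el8]) (show _ ∈ el8 _ _ _ by simp [el8]) (show _ ∈ el8 _ _ _ by simp [el8])
      (E8_card el8_mul2 el8_inv2 el8_nd2) h4

end

end Cfsg.Agent.Lib.Sect4.S6
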